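import Cfsg.Agent.Helper18.G2Tor1
import Cfsg.Agent.Helper36.ChevUp
import Cfsg.Prelude.Def_ChevD4

/-!
# A rank one Lang element in `D₄` (helper18)

Word identities in the root elements of `chevD4` for the central fundamental root `14` (`-14 = 9`),
checked symbolically:

* `d4_braid14`: `x_9(-a⁻¹) x_14(a) x_9(-a⁻¹) = n_14(a)`;
* `d4_lang_identity`: `x_14(x + a) x_9(-a⁻¹) = x_14(x) x_9(a⁻¹) n_14(a)`; with `x = θ`, `a = θ^q - θ`
  and `θ^(q^2) = θ` the left side is the Frobenius image of `x_14(θ) x_9(a⁻¹)`;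
* `d4_nMat14_charDiag`: `n_14(c)` conjugates the diagonal matrix of `χ ∘ s` to that of `χ`, `s` the
  reflection in the root `14`.
-/

set_option autoImplicit false
set_option maxRecDepth 1000000

namespace Cfsg.Agent.Helper18

open Cfsg.Lie Cfsg.Agent.Helper36

def d4BraidL : SWord := [(9, tinvNegR), (14, tR), (9, tinvNegR)]

theorem d4_braid_chk : checkEqW chevD4 d4BraidL (nWordS chevD4 14) = true := by decide +kernel

def d4NCols14 : ℕ → SVec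
  | 0 => [(0, [(1, 0, 0, 0)]), (1, [(1, 0, 0, 0)])]
  | 1 => [(1, [(-1, 0, 0, 0)])]
  | 2 => [(1, [(1, 0, 0, 0)]), (2, [(1, 0, 0, 0)])]
  | 3 => [(1, [(1, 0, 0, 0)]), (3, [(1, 0, 0, 0)])]
  | 4 => [(5, [(-1, 1, 0, 0)])]
  | 5 => [(4, [(1, -1, 0, 0)])]
  | 6 => [(6, [(1, 0, 0, 0)])]
  | 7 => [(7, [(1, 0, 0, 0)])]
  | 8 => [(9, [(-1, 1, 0, 0)])]
  | 9 => [(8, [(1, -1, 0, 0)])]
  | 10 => [(10, [(1, 0, 0, 0)])]
  | 11 => [(14, [(1, 1, 0, 0)])]
  | 12 => [(15, [(1, 1, 0, 0)])]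
  | 13 => [(18, [(-1, 2, 0, 0)])]
  | 14 => [(11, [(-1, -1, 0, 0)])]
  | 15 => [(12, [(-1, -1, 0, 0)])]
  | 16 => [(19, [(-1, 1, 0, 0)])]
  | 17 => [(20, [(-1, 1, 0, 0)])]
  | 18 => [(13, [(-1, -2, 0, 0)])]
  | 19 => [(16, [(1, -1, 0, 0)])]
  | 20 => [(17, [(1, -1, 0, 0)])]
  | 21 => [(21, [(1, 0, 0, 0)])]
  | 22 => [(23, [(1, 1, 0, 0)])]
  | 23 => [(22, [(-1, -1, 0, 0)])]
  | 24 => [(24, [(1, 0, 0, 0)])]
  | 25 => [(25, [(1, 0, 0, 0)])]
  | 26 => [(27, [(1, 1, 0, 0)])]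
  | 27 => [(26, [(-1, -1, 0, 0)])]
  | _ => []

/-- The reflection in the root `14` (the central fundamental root), on root indices. -/
def d4Rho14 (s : ℕ) : ℕ :=
  [1, 0, 2, 3, 5, 4, 6, 10, 11, 14, 7, 8, 15, 16, 9, 12, 13, 17, 19, 18, 20, 21, 23, 22].getD s 0

theorem d4_nCols14_chk : checkCols chevD4 (nWordS chevD4 14) d4NCols14 = true := by decide +kernel
theorem d4_nCols14_mono : monoOK chevD4 d4NCols14 d4Rho14 = true := by decide +kernel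

section

variable {F : Type*} [Field F]

theorem d4_braid14 (a : F) (ha : a ≠ 0) :
    chevD4.wordMat F [(9, -a⁻¹), (14, a), (9, -a⁻¹)] = chevD4.nMat F 14 a := by
  have h := wordMat_eq_of_checkEqW chevD4 (Units.mk0 a ha) (0 : F) (0 : F) d4_braid_chk
  rw [evW_nWordS] at h
  have hL : evW (Units.mk0 a ha) (0 : F) (0 : F) d4BraidL = [(9, -a⁻¹), (14, a), (9, -a⁻¹)] := by
    simp [d4BraidL, evW_cons, evW_nil]
  rw [hL] at h
  exact h

/-- `x_14(x + a) x_9(-a⁻¹) = x_14(x) x_9(a⁻¹) n_14(a)`. -/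
theorem d4_lang_identity (hX : XAdd chevD4 F) (x a : F) (ha : a ≠ 0) :
    chevD4.wordMat F [(14, x + a), (9, -a⁻¹)] =
      chevD4.wordMat F [(14, x), (9, a⁻¹)] * chevD4.nMat F 14 a := by
  have hb := d4_braid14 a ha
  have e1 : chevD4.wordMat F [(14, x + a), (9, -a⁻¹)] =
      chevD4.x F 14 x * (chevD4.x F 14 a * chevD4.x F 9 (-a⁻¹)) := by
    rw [wordMat_cons, wordMat_singleton, ← mul_assoc]
    congr 1
    exact (hX.add' 14 x a).symm
  have e2 : chevD4.wordMat F [(14, x), (9, a⁻¹)] = chevD4.x F 14 x * chevD4.x F 9 a⁻¹ := by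
    rw [wordMat_cons, wordMat_singleton]
  have e3 : chevD4.wordMat F [(9, -a⁻¹), (14, a), (9, -a⁻¹)] =
      chevD4.x F 9 (-a⁻¹) * (chevD4.x F 14 a * chevD4.x F 9 (-a⁻¹)) := by
    rw [wordMat_cons, wordMat_cons, wordMat_singleton]
  have e4 : chevD4.x F 9 a⁻¹ * chevD4.x F 9 (-a⁻¹) = 1 := by
    rw [hX.add' 9, add_neg_cancel]
    exact hX.zero' 9
  rw [e1, e2, ← hb, e3, mul_assoc (chevD4.x F 14 x), ← mul_assoc (chevD4.x F 9 a⁻¹), e4, one_mul]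

theorem d4_nMat14_charDiag (c : F) (hc : c ≠ 0) (χ : ℕ → Fˣ) :
    chevD4.nMat F 14 c * chevD4.charDiag F (fun s => χ (d4Rho14 s)) =
      chevD4.charDiag F χ * chevD4.nMat F 14 c := by
  have h := wordMat_mul_charDiag chevD4 (Units.mk0 c hc) 0 0 d4_nCols14_chk d4_nCols14_mono χ
  rw [evW_nWordS] at h
  exact h

end

end Cfsg.Agent.Helper18
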