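import Cfsg.Agent.Helper18.G2Tor2
import Cfsg.Prelude.Def_ChevD4

/-!
# The centraliser of a torus element with trivial stabiliser in the Weyl group (helper18)

`cent_torus_of_stab`: the variant of `cent_regular_torus` in which the injectivity of the character on the
roots is replaced by the triviality of its stabiliser in the Weyl group (needed for small fields).
`d4WPerms`: the `192` elements of the Weyl group of `D₄` as permutations of the root indices;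
`d4_hstab2`: the character `s ↦ ω ^ E₂(s)` (`ω` of order `63`) of the torus of order `21` of `³D₄(2)`
has trivial stabiliser.
-/

set_option autoImplicit false
set_option maxRecDepth 1000000

namespace Cfsg.Agent.Helper18

open Cfsg Cfsg.Lie Cfsg.Agent.Helper36 Cfsg.Agent.Helper17

section

variable {D : ChevalleyDatum} {F : Type*} [Field F] {η : ℕ → ℕ → ℤ}

/-- The centraliser of a torus element whose character is nowhere `1` on the roots and has trivial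
stabiliser in the Weyl group is contained in the diagonal subgroup. -/
theorem cent_torus_of_stab (hD : D ∈ [chevG2, chevB2, chevD4, chevF4, chevE6, chevE7, chevE8])
    {h : GL D.Idx F} {z : ℕ → Fˣ} (hz : (h : Matrix D.Idx D.Idx F) = D.charDiag F (torusChar D z))
    (hstab : ∀ L, ValidW D L → (∀ s < D.nroots, torusChar D z (wW D L s) = torusChar D z s) →
      ∀ s < D.nroots, wW D L s = s)
    (hne : ∀ r < D.nroots, torusChar D z r ≠ 1)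
    {g : GL D.Idx F} (hg : g ∈ D.group F) (hc : h * g * h⁻¹ = g) : g ∈ D.diagonalSubgroup F := by
  have R : BRel D F (etaN D) := bRel_of_mem hD
  have hH : D.diagonalSubgroup F = torus D F :=
    diagonalSubgroup_eq_torus (simpleOK_of_mem hD) (hDiag_of_mem hD) (rootElts_of_mem hD)
  have hh : h ∈ D.diagonalSubgroup F := by rw [hH]; exact ⟨z, hz⟩
  have hconj : ∀ r < D.nroots, ∀ t : F,
      h * xGL R.xadd r t * h⁻¹ = xGL R.xadd r ((torusChar D z r : F) * t) := by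
    intro r hr t
    apply Units.ext
    rw [Units.val_mul, Units.val_mul, xGL_val, xGL_val]
    exact torus_conj_x (chainOK_of_mem D hD) (cartanFacts_of_mem hD) hz r hr t
  obtain ⟨b, hb, L, hL, hred, u, hu, rfl⟩ := exists_normal_form_red R g hg
  have hu' : h * u * h⁻¹ ∈ Subgroup.closure (umGens R.xadd L) := by
    refine conj_mem_closure (umGens R.xadd L) _ h ?_ u hu
    rintro x ⟨r, t, hr, hneg, rfl⟩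
    rw [hconj r hr.1]
    exact Subgroup.subset_closure ⟨r, _, hr, hneg, rfl⟩
  have hh3 : h * (R.nW L * h⁻¹ * (R.nW L)⁻¹) ∈ D.diagonalSubgroup F :=
    mul_mem hh (R.nW_conj_H hL _ (inv_mem hh))
  have hn := R.nW_mem_monomial hL
  have hsub := Subgroup.closure_mono (R.umGens_subset (F := F) hL)
  have e : b * R.nW L * u =
      (h * b * h⁻¹ * (h * (R.nW L * h⁻¹ * (R.nW L)⁻¹))) * R.nW L * (h * u * h⁻¹) := by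
    conv_lhs => rw [← hc]
    group
  have hb' : h * b * h⁻¹ * (h * (R.nW L * h⁻¹ * (R.nW L)⁻¹)) ∈ D.borelSubgroup F :=
    mul_mem (mul_mem (mul_mem (BRel.H_le_B D F hh) hb) (inv_mem (BRel.H_le_B D F hh)))
      (BRel.H_le_B D F hh3)
  obtain ⟨hbb, huu⟩ := (R.normal_form_unique hb hb' hn hn (hsub hu) (hsub hu') e).2 rfl
  -- the unipotent part on the right is trivial
  have hu1 : u = 1 :=
    posUnipotent_eq_one_of_comm_torus hD hz hne (unGens_le_posUnipotent _ (hsub hu)) huu.symm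
  -- decompose b
  have hbm : b ∈ ((D.posUnipotent F ⊔ D.diagonalSubgroup F : Subgroup (GL D.Idx F)) :
      Set (GL D.Idx F)) := hb
  rw [Subgroup.coe_mul_of_right_le_normalizer_left _ _ R.hU] at hbm
  obtain ⟨u₁, hu₁', h₁, hh₁', hbe⟩ := hbm
  have hu₁ : u₁ ∈ D.posUnipotent F := hu₁'
  have hh₁ : h₁ ∈ D.diagonalSubgroup F := hh₁'
  have hbe' : b = u₁ * h₁ := hbe.symm
  subst hbe'
  have hcu : h * u₁ * h⁻¹ ∈ D.posUnipotent F :=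
    (Subgroup.mem_normalizer_iff.mp (R.hU hh) u₁).mp hu₁
  have hcomm : h * h₁ = h₁ * h := torus_comm (hH ▸ hh) (hH ▸ hh₁)
  have hx : u₁⁻¹ * (h * u₁ * h⁻¹) =
      h₁ * (h₁ * (h * (R.nW L * h⁻¹ * (R.nW L)⁻¹)))⁻¹ := by
    have e2 : h * (u₁ * h₁) * h⁻¹ * (h * (R.nW L * h⁻¹ * (R.nW L)⁻¹)) =
        (h * u₁ * h⁻¹) * (h₁ * (h * (R.nW L * h⁻¹ * (R.nW L)⁻¹))) := by
      have : h * (u₁ * h₁) * h⁻¹ = (h * u₁ * h⁻¹) * (h * h₁ * h⁻¹) := by group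
      rw [this, hcomm, mul_assoc h₁ h h⁻¹, mul_inv_cancel, mul_one, mul_assoc]
    rw [e2] at hbb
    have e3 : h * u₁ * h⁻¹ = u₁ * h₁ * (h₁ * (h * (R.nW L * h⁻¹ * (R.nW L)⁻¹)))⁻¹ := by
      rw [hbb]; group
    rw [e3]; group
  have hmem : u₁⁻¹ * (h * u₁ * h⁻¹) ∈ D.posUnipotent F ⊓ D.diagonalSubgroup F :=
    Subgroup.mem_inf.mpr ⟨mul_mem (inv_mem hu₁) hcu, by
      rw [hx]; exact mul_mem hh₁ (inv_mem (mul_mem hh₁ hh3))⟩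
  rw [R.uh, Subgroup.mem_bot] at hmem
  have hcu1 : h * u₁ * h⁻¹ = u₁ := by
    rw [inv_mul_eq_one] at hmem
    exact hmem.symm
  have hu₁1 : u₁ = 1 := posUnipotent_eq_one_of_comm_torus hD hz hne hu₁ hcu1
  -- `n_w` commutes with `h`
  have hnh : h * (R.nW L * h⁻¹ * (R.nW L)⁻¹) = 1 := by
    rw [hmem] at hx
    have h5 : h₁ * (h * (R.nW L * h⁻¹ * (R.nW L)⁻¹)) = h₁ := by
      have h6 := hx.symm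
      rw [mul_inv_eq_one] at h6
      exact h6.symm
    exact mul_left_cancel (a := h₁) (by rw [h5, mul_one])
  have hnh' : h * R.nW L = R.nW L * h := by
    have : h * (R.nW L * h⁻¹ * (R.nW L)⁻¹) * (R.nW L * h) = h * R.nW L := by group
    rw [← this, hnh, one_mul]
  -- `w` fixes every root
  have hχ : ∀ s < D.nroots, torusChar D z (wW D L s) = torusChar D z s := by
    intro s hs
    have hws := R.wf.wW_lt hL hs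
    have h1 := R.nW_conj_x hL hs (1 : F)
    have h2 : h * (R.nW L * xGL R.xadd s 1 * (R.nW L)⁻¹) * h⁻¹ =
        R.nW L * (h * xGL R.xadd s 1 * h⁻¹) * (R.nW L)⁻¹ := by
      have e3 : h * (R.nW L * xGL R.xadd s 1 * (R.nW L)⁻¹) * h⁻¹ =
          (h * R.nW L) * xGL R.xadd s 1 * (h * R.nW L)⁻¹ := by group
      rw [e3, hnh']
      group
    rw [h1, hconj _ hws, hconj s hs, R.nW_conj_x hL hs] at h2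
    have h3 := congrArg (fun x : GL D.Idx F => (x : Matrix D.Idx D.Idx F)) h2
    simp only [xGL_val] at h3
    have h4 := x_inj_of_bRel R hws h3
    have h5 : (torusChar D z (wW D L s) : F) = (torusChar D z s : F) := by
      have h6 : ((eW D (etaN D) L s : ℤ) : F) ≠ 0 := R.eW_ne_zero hL hs
      rw [mul_one, mul_one, mul_comm] at h4
      exact mul_left_cancel₀ h6 h4
    exact Units.ext h5
  have hfix : ∀ s < D.nroots, wW D L s = s := hstab L hL hχ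
  -- a reduced word fixing every root is empty
  cases L with
  | nil =>
    rw [hu1, hu₁1, R.nW_nil, one_mul, mul_one, mul_one]
    exact hh₁
  | cons i L' =>
    exfalso
    obtain ⟨-, hpos⟩ := hred
    have hi : i < D.rank := hL.head
    have hsi := R.wf.simple_lt i hi
    have hL' : ValidW D L' := hL.tail
    have h1 := hfix _ hpos.1
    rw [wW_cons, R.wf.wW_reverse hL' hsi, R.wf.refl_simple i hi] at h1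
    have h2 : D.IsNegRoot (D.neg (D.simple i)) :=
      (R.wf.pos_iff_neg _ hsi).mp (R.wf.simple_pos i hi)
    rw [h1] at h2
    rcases R.wf.pos_xor _ hpos.1 with h3 | h3
    · exact h3.2 h2
    · exact h3.1 hpos


end

/-! ### The Weyl group of `D₄` -/

def d4WPerms : List (List ℕ) := [
  [0, 1, 2, 3, 4, 5, 6, 7, 8, 9, 10, 11, 12, 13, 14, 15, 16, 17, 18, 19, 20, 21, 22, 23],
  [0, 6, 7, 8, 9, 18, 1, 2, 3, 4, 10, 11, 12, 13, 19, 20, 21, 22, 5, 14, 15, 16, 17, 23],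
  [1, 0, 2, 3, 5, 4, 6, 10, 11, 14, 7, 8, 15, 16, 9, 12, 13, 17, 19, 18, 20, 21, 23, 22],
  [0, 3, 4, 1, 2, 5, 8, 9, 6, 7, 13, 11, 12, 10, 16, 17, 14, 15, 18, 21, 22, 19, 20, 23],
  [0, 2, 1, 4, 3, 5, 7, 6, 9, 8, 10, 12, 11, 13, 15, 14, 17, 16, 18, 20, 19, 22, 21, 23],
  [1, 6, 10, 11, 14, 19, 0, 2, 3, 5, 7, 8, 15, 16, 18, 20, 21, 23, 4, 9, 12, 13, 17, 22],
  [0, 8, 9, 6, 7, 18, 3, 4, 1, 2, 13, 11, 12, 10, 21, 22, 19, 20, 5, 16, 17, 14, 15, 23],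
  [0, 7, 6, 9, 8, 18, 2, 1, 4, 3, 10, 12, 11, 13, 20, 19, 22, 21, 5, 15, 14, 17, 16, 23],
  [6, 0, 7, 8, 18, 9, 1, 10, 11, 19, 2, 3, 20, 21, 4, 12, 13, 22, 14, 5, 15, 16, 23, 17],
  [3, 0, 4, 1, 5, 2, 8, 13, 11, 16, 9, 6, 17, 14, 7, 12, 10, 15, 21, 18, 22, 19, 23, 20],
  [2, 0, 1, 4, 5, 3, 7, 10, 12, 15, 6, 9, 14, 17, 8, 11, 13, 16, 20, 18, 19, 22, 23, 21],
  [1, 3, 5, 0, 2, 4, 11, 14, 6, 10, 16, 8, 15, 7, 13, 17, 9, 12, 19, 21, 23, 18, 20, 22],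
  [0, 4, 3, 2, 1, 5, 9, 8, 7, 6, 13, 12, 11, 10, 17, 16, 15, 14, 18, 22, 21, 20, 19, 23],
  [1, 2, 0, 5, 3, 4, 10, 6, 14, 11, 7, 15, 8, 16, 12, 9, 17, 13, 19, 20, 18, 23, 21, 22],
  [6, 1, 10, 11, 19, 14, 0, 7, 8, 18, 2, 3, 20, 21, 5, 15, 16, 23, 9, 4, 12, 13, 22, 17],
  [3, 8, 13, 11, 16, 21, 0, 4, 1, 5, 9, 6, 17, 14, 18, 22, 19, 23, 2, 7, 12, 10, 15, 20],
  [2, 7, 10, 12, 15, 20, 0, 1, 4, 5, 6, 9, 14, 17, 18, 19, 22, 23, 3, 8, 11, 13, 16, 21],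
  [1, 11, 14, 6, 10, 19, 3, 5, 0, 2, 16, 8, 15, 7, 21, 23, 18, 20, 4, 13, 17, 9, 12, 22],
  [0, 9, 8, 7, 6, 18, 4, 3, 2, 1, 13, 12, 11, 10, 22, 21, 20, 19, 5, 17, 16, 15, 14, 23],
  [1, 10, 6, 14, 11, 19, 2, 0, 5, 3, 7, 15, 8, 16, 20, 18, 23, 21, 4, 12, 9, 17, 13, 22],
  [8, 0, 9, 6, 18, 7, 3, 13, 11, 21, 4, 1, 22, 19, 2, 12, 10, 20, 16, 5, 17, 14, 23, 15],
  [7, 0, 6, 9, 18, 8, 2, 10, 12, 20, 1, 4, 19, 22, 3, 11, 13, 21, 15, 5, 14, 17, 23, 16],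
  [3, 1, 5, 0, 4, 2, 11, 16, 8, 13, 14, 6, 17, 9, 10, 15, 7, 12, 21, 19, 23, 18, 22, 20],
  [4, 0, 3, 2, 5, 1, 9, 13, 12, 17, 8, 7, 16, 15, 6, 11, 10, 14, 22, 18, 21, 20, 23, 19],
  [2, 1, 0, 5, 4, 3, 10, 7, 15, 12, 6, 14, 9, 17, 11, 8, 16, 13, 20, 19, 18, 23, 22, 21],
  [6, 8, 18, 0, 7, 9, 11, 19, 1, 10, 21, 3, 20, 2, 13, 22, 4, 12, 14, 16, 23, 5, 15, 17],
  [2, 4, 5, 0, 1, 3, 12, 15, 7, 10, 17, 9, 14, 6, 13, 16, 8, 11, 20, 22, 23, 18, 19, 21],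
  [1, 5, 3, 2, 0, 4, 14, 11, 10, 6, 16, 15, 8, 7, 17, 13, 12, 9, 19, 23, 21, 20, 18, 22],
  [6, 7, 0, 18, 8, 9, 10, 1, 19, 11, 2, 20, 3, 21, 12, 4, 22, 13, 14, 15, 5, 23, 16, 17],
  [3, 4, 0, 5, 1, 2, 13, 8, 16, 11, 9, 17, 6, 14, 12, 7, 15, 10, 21, 22, 18, 23, 19, 20],
  [8, 3, 13, 11, 21, 16, 0, 9, 6, 18, 4, 1, 22, 19, 5, 17, 14, 23, 7, 2, 12, 10, 20, 15],
  [7, 2, 10, 12, 20, 15, 0, 6, 9, 18, 1, 4, 19, 22, 5, 14, 17, 23, 8, 3, 11, 13, 21, 16],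
  [3, 11, 16, 8, 13, 21, 1, 5, 0, 4, 14, 6, 17, 9, 19, 23, 18, 22, 2, 10, 15, 7, 12, 20],
  [4, 9, 13, 12, 17, 22, 0, 3, 2, 5, 8, 7, 16, 15, 18, 21, 20, 23, 1, 6, 11, 10, 14, 19],
  [2, 10, 7, 15, 12, 20, 1, 0, 5, 4, 6, 14, 9, 17, 19, 18, 23, 22, 3, 11, 8, 16, 13, 21],
  [6, 11, 19, 1, 10, 14, 8, 18, 0, 7, 21, 3, 20, 2, 16, 23, 5, 15, 9, 13, 22, 4, 12, 17],
  [2, 12, 15, 7, 10, 20, 4, 5, 0, 1, 17, 9, 14, 6, 22, 23, 18, 19, 3, 13, 16, 8, 11, 21],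
  [1, 14, 11, 10, 6, 19, 5, 3, 2, 0, 16, 15, 8, 7, 23, 21, 20, 18, 4, 17, 13, 12, 9, 22],
  [6, 10, 1, 19, 11, 14, 7, 0, 18, 8, 2, 20, 3, 21, 15, 5, 23, 16, 9, 12, 4, 22, 13, 17],
  [3, 13, 8, 16, 11, 21, 4, 0, 5, 1, 9, 17, 6, 14, 22, 18, 23, 19, 2, 12, 7, 15, 10, 20],
  [11, 1, 14, 6, 19, 10, 3, 16, 8, 21, 5, 0, 23, 18, 2, 15, 7, 20, 13, 4, 17, 9, 22, 12],
  [9, 0, 8, 7, 18, 6, 4, 13, 12, 22, 3, 2, 21, 20, 1, 11, 10, 19, 17, 5, 16, 15, 23, 14],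
  [10, 1, 6, 14, 19, 11, 2, 7, 15, 20, 0, 5, 18, 23, 3, 8, 16, 21, 12, 4, 9, 17, 22, 13],
  [8, 6, 18, 0, 9, 7, 11, 21, 3, 13, 19, 1, 22, 4, 10, 20, 2, 12, 16, 14, 23, 5, 17, 15],
  [4, 2, 5, 0, 3, 1, 12, 17, 9, 13, 15, 7, 16, 8, 10, 14, 6, 11, 22, 20, 23, 18, 21, 19],
  [5, 1, 3, 2, 4, 0, 14, 16, 15, 17, 11, 10, 13, 12, 6, 8, 7, 9, 23, 19, 21, 20, 22, 18],
  [7, 6, 0, 18, 9, 8, 10, 2, 20, 12, 1, 19, 4, 22, 11, 3, 21, 13, 15, 14, 5, 23, 17, 16],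
  [4, 3, 0, 5, 2, 1, 13, 9, 17, 12, 8, 16, 7, 15, 11, 6, 14, 10, 22, 21, 18, 23, 20, 19],
  [7, 9, 18, 0, 6, 8, 12, 20, 2, 10, 22, 4, 19, 1, 13, 21, 3, 11, 15, 17, 23, 5, 14, 16],
  [2, 5, 4, 1, 0, 3, 15, 12, 10, 7, 17, 14, 9, 6, 16, 13, 11, 8, 20, 23, 22, 19, 18, 21],
  [6, 18, 8, 7, 0, 9, 19, 11, 10, 1, 21, 20, 3, 2, 22, 13, 12, 4, 14, 23, 16, 15, 5, 17],
  [3, 5, 1, 4, 0, 2, 16, 11, 13, 8, 14, 17, 6, 9, 15, 10, 12, 7, 21, 23, 19, 22, 18, 20],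
  [8, 9, 0, 18, 6, 7, 13, 3, 21, 11, 4, 22, 1, 19, 12, 2, 20, 10, 16, 17, 5, 23, 14, 15],
  [11, 3, 16, 8, 21, 13, 1, 14, 6, 19, 5, 0, 23, 18, 4, 17, 9, 22, 10, 2, 15, 7, 20, 12],
  [9, 4, 13, 12, 22, 17, 0, 8, 7, 18, 3, 2, 21, 20, 5, 16, 15, 23, 6, 1, 11, 10, 19, 14],
  [10, 2, 7, 15, 20, 12, 1, 6, 14, 19, 0, 5, 18, 23, 4, 9, 17, 22, 11, 3, 8, 16, 21, 13],
  [8, 11, 21, 3, 13, 16, 6, 18, 0, 9, 19, 1, 22, 4, 14, 23, 5, 17, 7, 10, 20, 2, 12, 15],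
  [4, 12, 17, 9, 13, 22, 2, 5, 0, 3, 15, 7, 16, 8, 20, 23, 18, 21, 1, 10, 14, 6, 11, 19],
  [5, 14, 16, 15, 17, 23, 1, 3, 2, 4, 11, 10, 13, 12, 19, 21, 20, 22, 0, 6, 8, 7, 9, 18],
  [7, 10, 2, 20, 12, 15, 6, 0, 18, 9, 1, 19, 4, 22, 14, 5, 23, 17, 8, 11, 3, 21, 13, 16],
  [4, 13, 9, 17, 12, 22, 3, 0, 5, 2, 8, 16, 7, 15, 21, 18, 23, 20, 1, 11, 6, 14, 10, 19],
  [7, 12, 20, 2, 10, 15, 9, 18, 0, 6, 22, 4, 19, 1, 17, 23, 5, 14, 8, 13, 21, 3, 11, 16],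
  [2, 15, 12, 10, 7, 20, 5, 4, 1, 0, 17, 14, 9, 6, 23, 22, 19, 18, 3, 16, 13, 11, 8, 21],
  [6, 19, 11, 10, 1, 14, 18, 8, 7, 0, 21, 20, 3, 2, 23, 16, 15, 5, 9, 22, 13, 12, 4, 17],
  [3, 16, 11, 13, 8, 21, 5, 1, 4, 0, 14, 17, 6, 9, 23, 19, 22, 18, 2, 15, 10, 12, 7, 20],
  [8, 13, 3, 21, 11, 16, 9, 0, 18, 6, 4, 22, 1, 19, 17, 5, 23, 14, 7, 12, 2, 20, 10, 15],
  [11, 6, 19, 1, 14, 10, 8, 21, 3, 16, 18, 0, 23, 5, 7, 20, 2, 15, 13, 9, 22, 4, 17, 12],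
  [12, 2, 15, 7, 20, 10, 4, 17, 9, 22, 5, 0, 23, 18, 1, 14, 6, 19, 13, 3, 16, 8, 21, 11],
  [14, 1, 11, 10, 19, 6, 5, 16, 15, 23, 3, 2, 21, 20, 0, 8, 7, 18, 17, 4, 13, 12, 22, 9],
  [10, 6, 1, 19, 14, 11, 7, 2, 20, 15, 0, 18, 5, 23, 8, 3, 21, 16, 12, 9, 4, 22, 17, 13],
  [13, 3, 8, 16, 21, 11, 4, 9, 17, 22, 0, 5, 18, 23, 1, 6, 14, 19, 12, 2, 7, 15, 20, 10],
  [9, 7, 18, 0, 8, 6, 12, 22, 4, 13, 20, 2, 21, 3, 10, 19, 1, 11, 17, 15, 23, 5, 16, 14],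
  [5, 2, 4, 1, 3, 0, 15, 17, 14, 16, 12, 10, 13, 11, 7, 9, 6, 8, 23, 20, 22, 19, 21, 18],
  [18, 6, 8, 7, 9, 0, 19, 21, 20, 22, 11, 10, 13, 12, 1, 3, 2, 4, 23, 14, 16, 15, 17, 5],
  [5, 3, 1, 4, 2, 0, 16, 14, 17, 15, 11, 13, 10, 12, 8, 6, 9, 7, 23, 21, 19, 22, 20, 18],
  [9, 8, 0, 18, 7, 6, 13, 4, 22, 12, 3, 21, 2, 20, 11, 1, 19, 10, 17, 16, 5, 23, 15, 14],
  [10, 14, 19, 1, 6, 11, 15, 20, 2, 7, 23, 5, 18, 0, 16, 21, 3, 8, 12, 17, 22, 4, 9, 13],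
  [7, 18, 9, 6, 0, 8, 20, 12, 10, 2, 22, 19, 4, 1, 21, 13, 11, 3, 15, 23, 17, 14, 5, 16],
  [4, 5, 2, 3, 0, 1, 17, 12, 13, 9, 15, 16, 7, 8, 14, 10, 11, 6, 22, 23, 20, 21, 18, 19],
  [8, 18, 6, 9, 0, 7, 21, 11, 13, 3, 19, 22, 1, 4, 20, 10, 12, 2, 16, 23, 14, 17, 5, 15],
  [11, 14, 1, 19, 6, 10, 16, 3, 21, 8, 5, 23, 0, 18, 15, 2, 20, 7, 13, 17, 4, 22, 9, 12],
  [11, 8, 21, 3, 16, 13, 6, 19, 1, 14, 18, 0, 23, 5, 9, 22, 4, 17, 10, 7, 20, 2, 15, 12],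
  [12, 4, 17, 9, 22, 13, 2, 15, 7, 20, 5, 0, 23, 18, 3, 16, 8, 21, 10, 1, 14, 6, 19, 11],
  [14, 5, 16, 15, 23, 17, 1, 11, 10, 19, 3, 2, 21, 20, 4, 13, 12, 22, 6, 0, 8, 7, 18, 9],
  [10, 7, 2, 20, 15, 12, 6, 1, 19, 14, 0, 18, 5, 23, 9, 4, 22, 17, 11, 8, 3, 21, 16, 13],
  [13, 4, 9, 17, 22, 12, 3, 8, 16, 21, 0, 5, 18, 23, 2, 7, 15, 20, 11, 1, 6, 14, 19, 10],
  [9, 12, 22, 4, 13, 17, 7, 18, 0, 8, 20, 2, 21, 3, 15, 23, 5, 16, 6, 10, 19, 1, 11, 14],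
  [5, 15, 17, 14, 16, 23, 2, 4, 1, 3, 12, 10, 13, 11, 20, 22, 19, 21, 0, 7, 9, 6, 8, 18],
  [18, 19, 21, 20, 22, 23, 6, 8, 7, 9, 11, 10, 13, 12, 14, 16, 15, 17, 0, 1, 3, 2, 4, 5],
  [5, 16, 14, 17, 15, 23, 3, 1, 4, 2, 11, 13, 10, 12, 21, 19, 22, 20, 0, 8, 6, 9, 7, 18],
  [9, 13, 4, 22, 12, 17, 8, 0, 18, 7, 3, 21, 2, 20, 16, 5, 23, 15, 6, 11, 1, 19, 10, 14],
  [10, 15, 20, 2, 7, 12, 14, 19, 1, 6, 23, 5, 18, 0, 17, 22, 4, 9, 11, 16, 21, 3, 8, 13],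
  [7, 20, 12, 10, 2, 15, 18, 9, 6, 0, 22, 19, 4, 1, 23, 17, 14, 5, 8, 21, 13, 11, 3, 16],
  [4, 17, 12, 13, 9, 22, 5, 2, 3, 0, 15, 16, 7, 8, 23, 20, 21, 18, 1, 14, 10, 11, 6, 19],
  [8, 21, 11, 13, 3, 16, 18, 6, 9, 0, 19, 22, 1, 4, 23, 14, 17, 5, 7, 20, 10, 12, 2, 15],
  [11, 16, 3, 21, 8, 13, 14, 1, 19, 6, 5, 23, 0, 18, 17, 4, 22, 9, 10, 15, 2, 20, 7, 12],
  [12, 7, 20, 2, 15, 10, 9, 22, 4, 17, 18, 0, 23, 5, 6, 19, 1, 14, 13, 8, 21, 3, 16, 11],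
  [15, 2, 12, 10, 20, 7, 5, 17, 14, 23, 4, 1, 22, 19, 0, 9, 6, 18, 16, 3, 13, 11, 21, 8],
  [19, 6, 11, 10, 14, 1, 18, 21, 20, 23, 8, 7, 16, 15, 0, 3, 2, 5, 22, 9, 13, 12, 17, 4],
  [16, 3, 11, 13, 21, 8, 5, 14, 17, 23, 1, 4, 19, 22, 0, 6, 9, 18, 15, 2, 10, 12, 20, 7],
  [13, 8, 3, 21, 16, 11, 9, 4, 22, 17, 0, 18, 5, 23, 6, 1, 19, 14, 12, 7, 2, 20, 15, 10],
  [14, 10, 19, 1, 11, 6, 15, 23, 5, 16, 20, 2, 21, 3, 7, 18, 0, 8, 17, 12, 22, 4, 13, 9],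
  [18, 7, 9, 6, 8, 0, 20, 22, 19, 21, 12, 10, 13, 11, 2, 4, 1, 3, 23, 15, 17, 14, 16, 5],
  [5, 4, 2, 3, 1, 0, 17, 15, 16, 14, 12, 13, 10, 11, 9, 7, 8, 6, 23, 22, 20, 21, 19, 18],
  [18, 8, 6, 9, 7, 0, 21, 19, 22, 20, 11, 13, 10, 12, 3, 1, 4, 2, 23, 16, 14, 17, 15, 5],
  [14, 11, 1, 19, 10, 6, 16, 5, 23, 15, 3, 21, 2, 20, 8, 0, 18, 7, 17, 13, 4, 22, 12, 9],
  [10, 19, 14, 6, 1, 11, 20, 15, 7, 2, 23, 18, 5, 0, 21, 16, 8, 3, 12, 22, 17, 9, 4, 13],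
  [13, 16, 21, 3, 8, 11, 17, 22, 4, 9, 23, 5, 18, 0, 14, 19, 1, 6, 12, 15, 20, 2, 7, 10],
  [9, 18, 7, 8, 0, 6, 22, 12, 13, 4, 20, 21, 2, 3, 19, 10, 11, 1, 17, 23, 15, 16, 5, 14],
  [11, 19, 6, 14, 1, 10, 21, 8, 16, 3, 18, 23, 0, 5, 20, 7, 15, 2, 13, 22, 9, 17, 4, 12],
  [12, 15, 2, 20, 7, 10, 17, 4, 22, 9, 5, 23, 0, 18, 14, 1, 19, 6, 13, 16, 3, 21, 8, 11],
  [12, 9, 22, 4, 17, 13, 7, 20, 2, 15, 18, 0, 23, 5, 8, 21, 3, 16, 10, 6, 19, 1, 14, 11],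
  [15, 5, 17, 14, 23, 16, 2, 12, 10, 20, 4, 1, 22, 19, 3, 13, 11, 21, 7, 0, 9, 6, 18, 8],
  [19, 18, 21, 20, 23, 22, 6, 11, 10, 14, 8, 7, 16, 15, 9, 13, 12, 17, 1, 0, 3, 2, 5, 4],
  [16, 5, 14, 17, 23, 15, 3, 11, 13, 21, 1, 4, 19, 22, 2, 10, 12, 20, 8, 0, 6, 9, 18, 7],
  [13, 9, 4, 22, 17, 12, 8, 3, 21, 16, 0, 18, 5, 23, 7, 2, 20, 15, 11, 6, 1, 19, 14, 10],
  [14, 15, 23, 5, 16, 17, 10, 19, 1, 11, 20, 2, 21, 3, 12, 22, 4, 13, 6, 7, 18, 0, 8, 9],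
  [18, 20, 22, 19, 21, 23, 7, 9, 6, 8, 12, 10, 13, 11, 15, 17, 14, 16, 0, 2, 4, 1, 3, 5],
  [5, 17, 15, 16, 14, 23, 4, 2, 3, 1, 12, 13, 10, 11, 22, 20, 21, 19, 0, 9, 7, 8, 6, 18],
  [18, 21, 19, 22, 20, 23, 8, 6, 9, 7, 11, 13, 10, 12, 16, 14, 17, 15, 0, 3, 1, 4, 2, 5],
  [14, 16, 5, 23, 15, 17, 11, 1, 19, 10, 3, 21, 2, 20, 13, 4, 22, 12, 6, 8, 0, 18, 7, 9],
  [10, 20, 15, 7, 2, 12, 19, 14, 6, 1, 23, 18, 5, 0, 22, 17, 9, 4, 11, 21, 16, 8, 3, 13],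
  [13, 17, 22, 4, 9, 12, 16, 21, 3, 8, 23, 5, 18, 0, 15, 20, 2, 7, 11, 14, 19, 1, 6, 10],
  [9, 22, 12, 13, 4, 17, 18, 7, 8, 0, 20, 21, 2, 3, 23, 15, 16, 5, 6, 19, 10, 11, 1, 14],
  [11, 21, 8, 16, 3, 13, 19, 6, 14, 1, 18, 23, 0, 5, 22, 9, 17, 4, 10, 20, 7, 15, 2, 12],
  [12, 17, 4, 22, 9, 13, 15, 2, 20, 7, 5, 23, 0, 18, 16, 3, 21, 8, 10, 14, 1, 19, 6, 11],
  [15, 10, 20, 2, 12, 7, 14, 23, 5, 17, 19, 1, 22, 4, 6, 18, 0, 9, 16, 11, 21, 3, 13, 8],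
  [20, 7, 12, 10, 15, 2, 18, 22, 19, 23, 9, 6, 17, 14, 0, 4, 1, 5, 21, 8, 13, 11, 16, 3],
  [17, 4, 12, 13, 22, 9, 5, 15, 16, 23, 2, 3, 20, 21, 0, 7, 8, 18, 14, 1, 10, 11, 19, 6],
  [21, 8, 11, 13, 16, 3, 18, 19, 22, 23, 6, 9, 14, 17, 0, 1, 4, 5, 20, 7, 10, 12, 15, 2],
  [16, 11, 3, 21, 13, 8, 14, 5, 23, 17, 1, 19, 4, 22, 6, 0, 18, 9, 15, 10, 2, 20, 12, 7],
  [19, 10, 14, 6, 11, 1, 20, 23, 18, 21, 15, 7, 16, 8, 2, 5, 0, 3, 22, 12, 17, 9, 13, 4],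
  [16, 13, 21, 3, 11, 8, 17, 23, 5, 14, 22, 4, 19, 1, 9, 18, 0, 6, 15, 12, 20, 2, 10, 7],
  [18, 9, 7, 8, 6, 0, 22, 20, 21, 19, 12, 13, 10, 11, 4, 2, 3, 1, 23, 17, 15, 16, 14, 5],
  [19, 11, 6, 14, 10, 1, 21, 18, 23, 20, 8, 16, 7, 15, 3, 0, 5, 2, 22, 13, 9, 17, 12, 4],
  [15, 12, 2, 20, 10, 7, 17, 5, 23, 14, 4, 22, 1, 19, 9, 0, 18, 6, 16, 13, 3, 21, 11, 8],
  [13, 21, 16, 8, 3, 11, 22, 17, 9, 4, 23, 18, 5, 0, 19, 14, 6, 1, 12, 20, 15, 7, 2, 10],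
  [14, 19, 10, 11, 1, 6, 23, 15, 16, 5, 20, 21, 2, 3, 18, 7, 8, 0, 17, 22, 12, 13, 4, 9],
  [12, 20, 7, 15, 2, 10, 22, 9, 17, 4, 18, 23, 0, 5, 19, 6, 14, 1, 13, 21, 8, 16, 3, 11],
  [15, 14, 23, 5, 17, 16, 10, 20, 2, 12, 19, 1, 22, 4, 11, 21, 3, 13, 7, 6, 18, 0, 9, 8],
  [20, 18, 22, 19, 23, 21, 7, 12, 10, 15, 9, 6, 17, 14, 8, 13, 11, 16, 2, 0, 4, 1, 5, 3],
  [17, 5, 15, 16, 23, 14, 4, 12, 13, 22, 2, 3, 20, 21, 1, 10, 11, 19, 9, 0, 7, 8, 18, 6],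
  [21, 18, 19, 22, 23, 20, 8, 11, 13, 16, 6, 9, 14, 17, 7, 10, 12, 15, 3, 0, 1, 4, 5, 2],
  [16, 14, 5, 23, 17, 15, 11, 3, 21, 13, 1, 19, 4, 22, 10, 2, 20, 12, 8, 6, 0, 18, 9, 7],
  [19, 20, 23, 18, 21, 22, 10, 14, 6, 11, 15, 7, 16, 8, 12, 17, 9, 13, 1, 2, 5, 0, 3, 4],
  [16, 17, 23, 5, 14, 15, 13, 21, 3, 11, 22, 4, 19, 1, 12, 20, 2, 10, 8, 9, 18, 0, 6, 7],
  [18, 22, 20, 21, 19, 23, 9, 7, 8, 6, 12, 13, 10, 11, 17, 15, 16, 14, 0, 4, 2, 3, 1, 5],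
  [19, 21, 18, 23, 20, 22, 11, 6, 14, 10, 8, 16, 7, 15, 13, 9, 17, 12, 1, 3, 0, 5, 2, 4],
  [15, 17, 5, 23, 14, 16, 12, 2, 20, 10, 4, 22, 1, 19, 13, 3, 21, 11, 7, 9, 0, 18, 6, 8],
  [13, 22, 17, 9, 4, 12, 21, 16, 8, 3, 23, 18, 5, 0, 20, 15, 7, 2, 11, 19, 14, 6, 1, 10],
  [14, 23, 15, 16, 5, 17, 19, 10, 11, 1, 20, 21, 2, 3, 22, 12, 13, 4, 6, 18, 7, 8, 0, 9],
  [12, 22, 9, 17, 4, 13, 20, 7, 15, 2, 18, 23, 0, 5, 21, 8, 16, 3, 10, 19, 6, 14, 1, 11],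
  [20, 10, 15, 7, 12, 2, 19, 23, 18, 22, 14, 6, 17, 9, 1, 5, 0, 4, 21, 11, 16, 8, 13, 3],
  [17, 13, 22, 4, 12, 9, 16, 23, 5, 15, 21, 3, 20, 2, 8, 18, 0, 7, 14, 11, 19, 1, 10, 6],
  [22, 9, 12, 13, 17, 4, 18, 20, 21, 23, 7, 8, 15, 16, 0, 2, 3, 5, 19, 6, 10, 11, 14, 1],
  [21, 11, 8, 16, 13, 3, 19, 18, 23, 22, 6, 14, 9, 17, 1, 0, 5, 4, 20, 10, 7, 15, 12, 2],
  [17, 12, 4, 22, 13, 9, 15, 5, 23, 16, 2, 20, 3, 21, 7, 0, 18, 8, 14, 10, 1, 19, 11, 6],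
  [21, 13, 16, 8, 11, 3, 22, 23, 18, 19, 17, 9, 14, 6, 4, 5, 0, 1, 20, 12, 15, 7, 10, 2],
  [19, 14, 10, 11, 6, 1, 23, 20, 21, 18, 15, 16, 7, 8, 5, 2, 3, 0, 22, 17, 12, 13, 9, 4],
  [20, 12, 7, 15, 10, 2, 22, 18, 23, 19, 9, 17, 6, 14, 4, 0, 5, 1, 21, 13, 8, 16, 11, 3],
  [16, 21, 13, 11, 3, 8, 23, 17, 14, 5, 22, 19, 4, 1, 18, 9, 6, 0, 15, 20, 12, 10, 2, 7],
  [15, 20, 10, 12, 2, 7, 23, 14, 17, 5, 19, 22, 1, 4, 18, 6, 9, 0, 16, 21, 11, 13, 3, 8],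
  [20, 19, 23, 18, 22, 21, 10, 15, 7, 12, 14, 6, 17, 9, 11, 16, 8, 13, 2, 1, 5, 0, 4, 3],
  [17, 16, 23, 5, 15, 14, 13, 22, 4, 12, 21, 3, 20, 2, 11, 19, 1, 10, 9, 8, 18, 0, 7, 6],
  [22, 18, 20, 21, 23, 19, 9, 12, 13, 17, 7, 8, 15, 16, 6, 10, 11, 14, 4, 0, 2, 3, 5, 1],
  [21, 19, 18, 23, 22, 20, 11, 8, 16, 13, 6, 14, 9, 17, 10, 7, 15, 12, 3, 1, 0, 5, 4, 2],
  [17, 15, 5, 23, 16, 14, 12, 4, 22, 13, 2, 20, 3, 21, 10, 1, 19, 11, 9, 7, 0, 18, 8, 6],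
  [21, 22, 23, 18, 19, 20, 13, 16, 8, 11, 17, 9, 14, 6, 12, 15, 7, 10, 3, 4, 5, 0, 1, 2],
  [19, 23, 20, 21, 18, 22, 14, 10, 11, 6, 15, 16, 7, 8, 17, 12, 13, 9, 1, 5, 2, 3, 0, 4],
  [20, 22, 18, 23, 19, 21, 12, 7, 15, 10, 9, 17, 6, 14, 13, 8, 16, 11, 2, 4, 0, 5, 1, 3],
  [16, 23, 17, 14, 5, 15, 21, 13, 11, 3, 22, 19, 4, 1, 20, 12, 10, 2, 8, 18, 9, 6, 0, 7],
  [15, 23, 14, 17, 5, 16, 20, 10, 12, 2, 19, 22, 1, 4, 21, 11, 13, 3, 7, 18, 6, 9, 0, 8],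
  [22, 13, 17, 9, 12, 4, 21, 23, 18, 20, 16, 8, 15, 7, 3, 5, 0, 2, 19, 11, 14, 6, 10, 1],
  [23, 14, 15, 16, 17, 5, 19, 20, 21, 22, 10, 11, 12, 13, 1, 2, 3, 4, 18, 6, 7, 8, 9, 0],
  [22, 12, 9, 17, 13, 4, 20, 18, 23, 21, 7, 15, 8, 16, 2, 0, 5, 3, 19, 10, 6, 14, 11, 1],
  [21, 16, 13, 11, 8, 3, 23, 22, 19, 18, 17, 14, 9, 6, 5, 4, 1, 0, 20, 15, 12, 10, 7, 2],
  [20, 15, 10, 12, 7, 2, 23, 19, 22, 18, 14, 17, 6, 9, 5, 1, 4, 0, 21, 16, 11, 13, 8, 3],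
  [17, 22, 13, 12, 4, 9, 23, 16, 15, 5, 21, 20, 3, 2, 18, 8, 7, 0, 14, 19, 11, 10, 1, 6],
  [22, 21, 23, 18, 20, 19, 13, 17, 9, 12, 16, 8, 15, 7, 11, 14, 6, 10, 4, 3, 5, 0, 2, 1],
  [23, 19, 20, 21, 22, 18, 14, 15, 16, 17, 10, 11, 12, 13, 6, 7, 8, 9, 5, 1, 2, 3, 4, 0],
  [22, 20, 18, 23, 21, 19, 12, 9, 17, 13, 7, 15, 8, 16, 10, 6, 14, 11, 4, 2, 0, 5, 3, 1],
  [21, 23, 22, 19, 18, 20, 16, 13, 11, 8, 17, 14, 9, 6, 15, 12, 10, 7, 3, 5, 4, 1, 0, 2],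
  [20, 23, 19, 22, 18, 21, 15, 10, 12, 7, 14, 17, 6, 9, 16, 11, 13, 8, 2, 5, 1, 4, 0, 3],
  [17, 23, 16, 15, 5, 14, 22, 13, 12, 4, 21, 20, 3, 2, 19, 11, 10, 1, 9, 18, 8, 7, 0, 6],
  [23, 16, 17, 14, 15, 5, 21, 22, 19, 20, 13, 11, 12, 10, 3, 4, 1, 2, 18, 8, 9, 6, 7, 0],
  [23, 15, 14, 17, 16, 5, 20, 19, 22, 21, 10, 12, 11, 13, 2, 1, 4, 3, 18, 7, 6, 9, 8, 0],
  [22, 17, 13, 12, 9, 4, 23, 21, 20, 18, 16, 15, 8, 7, 5, 3, 2, 0, 19, 14, 11, 10, 6, 1],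
  [23, 21, 22, 19, 20, 18, 16, 17, 14, 15, 13, 11, 12, 10, 8, 9, 6, 7, 5, 3, 4, 1, 2, 0],
  [23, 20, 19, 22, 21, 18, 15, 14, 17, 16, 10, 12, 11, 13, 7, 6, 9, 8, 5, 2, 1, 4, 3, 0],
  [22, 23, 21, 20, 18, 19, 17, 13, 12, 9, 16, 15, 8, 7, 14, 11, 10, 6, 4, 5, 3, 2, 0, 1],
  [23, 17, 16, 15, 14, 5, 22, 21, 20, 19, 13, 12, 11, 10, 4, 3, 2, 1, 18, 9, 8, 7, 6, 0],
  [23, 22, 21, 20, 19, 18, 17, 16, 15, 14, 13, 12, 11, 10, 9, 8, 7, 6, 5, 4, 3, 2, 1, 0]]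

theorem d4W_one : List.range 24 ∈ d4WPerms := by decide +kernel

theorem d4W_closed : ∀ p ∈ d4WPerms, ∀ i < 4, p.map (chevD4.reflectRoot i) ∈ d4WPerms := by
  decide +kernel

theorem d4W_mem (L : List ℕ) (hL : ValidW chevD4 L) :
    (List.range 24).map (wW chevD4 L) ∈ d4WPerms := by
  induction L with
  | nil =>
    have e : (List.range 24).map (wW chevD4 []) = List.range 24 := by
      rw [show wW chevD4 [] = id from rfl]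
      exact List.map_id _
    rw [e]
    exact d4W_one
  | cons i L ih =>
    have h1 := ih hL.tail
    have h2 := d4W_closed _ h1 i hL.head
    rw [List.map_map] at h2
    exact h2

/-- The exponents of the character of the torus of order `21` of `³D₄(2)`. -/
def d4E2 (s : ℕ) : ℤ :=
  9 * (chevD4.cartan 0 s + 2 * chevD4.cartan 2 s + 4 * chevD4.cartan 3 s) + 21 * chevD4.cartan 1 s

theorem d4_stab2 : ∀ p ∈ d4WPerms, (∀ s < 24, (63 : ℤ) ∣ d4E2 (p.getD s 0) - d4E2 s) →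
    p = List.range 24 := by decide +kernel

theorem d4_hstab2 {G : Type*} [Group G] (ω : G) (hω : orderOf ω = 63) (L : List ℕ)
    (hL : ValidW chevD4 L) (h : ∀ s < 24, ω ^ d4E2 (wW chevD4 L s) = ω ^ d4E2 s) :
    ∀ s < 24, wW chevD4 L s = s := by
  have hget : ∀ s < 24, ((List.range 24).map (wW chevD4 L)).getD s 0 = wW chevD4 L s := by
    intro s hs
    rw [List.getD_eq_getElem _ _ (by simpa using hs)]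
    simp
  have hp := d4_stab2 _ (d4W_mem L hL) (by
    intro s hs
    rw [hget s hs]
    have h1 : ω ^ (d4E2 (wW chevD4 L s) - d4E2 s) = 1 := by
      rw [zpow_sub, h s hs, mul_inv_cancel]
    have h2 := (orderOf_dvd_iff_zpow_eq_one).mpr h1
    rw [hω] at h2
    exact_mod_cast h2)
  intro s hs
  rw [← hget s hs, hp]
  simp [hs]

end Cfsg.Agent.Helper18
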