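import Cfsg.Agent.Helper18.ParaCent

/-!
# The centraliser of a regular element of the torus (helper18)

`cent_regular_torus`: for the seven tabulated types over any field, if the character `χ` of a torus
element `h` is injective on the roots and takes the value `1` at no root, then the centraliser of `h` in
the Chevalley group is contained in the diagonal subgroup.

Proof: write `g = b n_w u` in Bruhat normal form with `w` reduced.  Conjugation by `h` preserves the shape,
so by uniqueness `h` centralises the unipotent parts (which are then trivial, by the unique product form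
of `U`) and `n_w`; the latter forces `χ ∘ w = χ`, so `w` fixes every root, and a reduced word fixing every
root is empty.
-/

set_option autoImplicit false

namespace Cfsg.Agent.Helper18

open Cfsg Cfsg.Lie Cfsg.Agent.Helper36 Cfsg.Agent.Helper17

section

variable {D : ChevalleyDatum} {F : Type*} [Field F] {η : ℕ → ℕ → ℤ}

/-- The normal form, with a reduced word. -/
theorem exists_normal_form_red (R : BRel D F η) : ∀ g ∈ D.group F,
    ∃ b ∈ D.borelSubgroup F, ∃ L, ValidW D L ∧ RedW D L ∧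
      ∃ u ∈ Subgroup.closure (umGens R.xadd L), g = b * R.nW L * u := by
  intro g hg
  obtain ⟨b₁, hb₁, n, hn, b₂, hb₂, rfl⟩ := R.bruhat g hg
  obtain ⟨L₀, hL₀, h₀, hh₀, rfl⟩ := R.exists_word n hn
  obtain ⟨L, hL, hred, -, h, hh, he⟩ := R.exists_red L₀ hL₀
  obtain ⟨b', hb', u, hu, he'⟩ := R.red_mul L hL hred (h * h₀ * b₂)
    (mul_mem (mul_mem (BRel.H_le_B D F hh) (BRel.H_le_B D F hh₀)) hb₂)
  refine ⟨b₁ * b', mul_mem hb₁ hb', L, hL, hred, u, hu, ?_⟩
  rw [he]
  have e : b₁ * (R.nW L * h * h₀) * b₂ = b₁ * (R.nW L * (h * h₀ * b₂)) := by group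
  rw [e, he']
  group

theorem wordMat_map_zero_eq_one (hX : XAdd D F) (L : List ℕ) :
    D.wordMat F (L.map fun r => (r, (0 : F))) = 1 := by
  induction L with
  | nil => rfl
  | cons r L ih =>
    rw [List.map_cons, wordMat_cons, ih, mul_one]
    exact hX.zero' r

/-- Conjugation of a word by a torus element. -/
theorem torus_conj_wordMat (hOK : chainOK D = true) (hC : CartanFacts D)
    {h : GL D.Idx F} {z : ℕ → Fˣ} (hz : (h : Matrix D.Idx D.Idx F) = D.charDiag F (torusChar D z))
    (w : List (ℕ × F)) (hw : ∀ p ∈ w, p.1 < D.nroots) :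
    (h : Matrix D.Idx D.Idx F) * D.wordMat F w * ((h⁻¹ : GL D.Idx F) : Matrix D.Idx D.Idx F) =
      D.wordMat F (w.map fun p => (p.1, (torusChar D z p.1 : F) * p.2)) := by
  induction w with
  | nil =>
    rw [List.map_nil, wordMat_nil, mul_one, ← Units.val_mul, mul_inv_cancel, Units.val_one]
  | cons p w ih =>
    have h1 := torus_conj_x hOK hC hz p.1 (hw p List.mem_cons_self) p.2
    have h2 := ih (fun q hq => hw q (List.mem_cons_of_mem _ hq))
    have h3 : ((h⁻¹ : GL D.Idx F) : Matrix D.Idx D.Idx F) * (h : Matrix D.Idx D.Idx F) = 1 := by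
      rw [← Units.val_mul, inv_mul_cancel, Units.val_one]
    rw [List.map_cons, wordMat_cons, wordMat_cons, ← h1, ← h2]
    calc (h : Matrix D.Idx D.Idx F) * (D.x F p.1 p.2 * D.wordMat F w) *
          ((h⁻¹ : GL D.Idx F) : Matrix D.Idx D.Idx F)
        = (h : Matrix D.Idx D.Idx F) * D.x F p.1 p.2 * (1 : Matrix D.Idx D.Idx F) * D.wordMat F w *
            ((h⁻¹ : GL D.Idx F) : Matrix D.Idx D.Idx F) := by
          simp only [mul_one, mul_assoc]
      _ = _ := by rw [← h3]; simp only [mul_assoc]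

/-- An element of `U` centralised by a torus element whose character is `1` at no positive root is
trivial. -/
theorem posUnipotent_eq_one_of_comm_torus
    (hD : D ∈ [chevG2, chevB2, chevD4, chevF4, chevE6, chevE7, chevE8])
    {h : GL D.Idx F} {z : ℕ → Fˣ} (hz : (h : Matrix D.Idx D.Idx F) = D.charDiag F (torusChar D z))
    (hne : ∀ r < D.nroots, torusChar D z r ≠ 1)
    {u : GL D.Idx F} (hu : u ∈ D.posUnipotent F) (hc : h * u * h⁻¹ = u) : u = 1 := by
  have R : BRel D F (etaN D) := bRel_of_mem hD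
  have hU := (posUnipotent_unique_product_of_mem (F := F) hD
    (fun r s hr hs h1 h2 => CF_of_mem hD r hr s hs h1 h2)).1
  obtain ⟨t, ⟨ht0, ht⟩, huniq⟩ := hU u hu
  have h1 := torus_conj_wordMat (chainOK_of_mem D hD) (cartanFacts_of_mem hD) hz
    (D.posRoots.map fun r => (r, t r)) (by
      intro p hp
      obtain ⟨r, hr, rfl⟩ := List.mem_map.mp hp
      exact (mem_posRoots.mp hr).1)
  rw [← ht, ← Units.val_mul, ← Units.val_mul, hc, List.map_map] at h1
  have h2 : (fun r => (torusChar D z r : F) * t r) = t :=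
    huniq _ ⟨fun r hr => by show (torusChar D z r : F) * t r = 0; rw [ht0 r hr, mul_zero], h1⟩
  have h3 : t = fun _ => 0 := by
    funext r
    by_cases hr : D.IsPosRoot r
    · have h4 := congrFun h2 r
      have h5 : ((torusChar D z r : F) - 1) * t r = 0 := by
        have h6 : (torusChar D z r : F) * t r = t r := h4
        rw [sub_mul, one_mul, h6, sub_self]
      rcases mul_eq_zero.mp h5 with h6 | h6
      · exfalso
        apply hne r hr.1
        apply Units.ext
        rw [Units.val_one]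
        exact sub_eq_zero.mp h6
      · exact h6
    · exact ht0 r hr
  apply Units.ext
  rw [ht, h3, Units.val_one]
  exact wordMat_map_zero_eq_one R.xadd _

theorem torus_comm {x y : GL D.Idx F} (hx : x ∈ torus D F) (hy : y ∈ torus D F) : x * y = y * x := by
  obtain ⟨z, hz⟩ := hx
  obtain ⟨z', hz'⟩ := hy
  apply Units.ext
  rw [Units.val_mul, Units.val_mul, hz, hz', charDiag_mul, charDiag_mul]
  congr 1
  funext s
  exact mul_comm _ _

/-- The centraliser of a torus element whose character is injective on the roots and nowhere `1` is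
contained in the diagonal subgroup. -/
theorem cent_regular_torus (hD : D ∈ [chevG2, chevB2, chevD4, chevF4, chevE6, chevE7, chevE8])
    {h : GL D.Idx F} {z : ℕ → Fˣ} (hz : (h : Matrix D.Idx D.Idx F) = D.charDiag F (torusChar D z))
    (hinj : ∀ r < D.nroots, ∀ s < D.nroots, torusChar D z r = torusChar D z s → r = s)
    (hne : ∀ r < D.nroots, torusChar D z r ≠ 1)
    {g : GL D.Idx F} (hg : g ∈ D.group F) (hc : h * g * h⁻¹ = g) : g ∈ D.diagonalSubgroup F := by
  have R : BRel D F (etaN D) := bRel_of_mem hD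
  have hH : D.diagonalSubgroup F = torus D F :=
    diagonalSubgroup_eq_torus (simpleOK_of_mem hD) (hDiag_of_mem hD) (rootElts_of_mem hD)
  have hh : h ∈ D.diagonalSubgroup F := by rw [hH]; exact ⟨z, hz⟩
  have hconj : ∀ r < D.nroots, ∀ t : F,
      h * xGL R.xadd r t * h⁻¹ = xGL R.xadd r ((torusChar D z r : F) * t) := by
    intro r hr t
    apply Units.ext
    rw [Units.val_mul, Units.val_mul, xGL_val, xGL_val]
    exact torus_conj_x (chainOK_of_mem D hD) (cartanFacts_of_mem hD) hz r hr t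
  obtain ⟨b, hb, L, hL, hred, u, hu, rfl⟩ := exists_normal_form_red R g hg
  have hu' : h * u * h⁻¹ ∈ Subgroup.closure (umGens R.xadd L) := by
    refine conj_mem_closure (umGens R.xadd L) _ h ?_ u hu
    rintro x ⟨r, t, hr, hneg, rfl⟩
    rw [hconj r hr.1]
    exact Subgroup.subset_closure ⟨r, _, hr, hneg, rfl⟩
  have hh3 : h * (R.nW L * h⁻¹ * (R.nW L)⁻¹) ∈ D.diagonalSubgroup F :=
    mul_mem hh (R.nW_conj_H hL _ (inv_mem hh))
  have hn := R.nW_mem_monomial hL
  have hsub := Subgroup.closure_mono (R.umGens_subset (F := F) hL)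
  have e : b * R.nW L * u =
      (h * b * h⁻¹ * (h * (R.nW L * h⁻¹ * (R.nW L)⁻¹))) * R.nW L * (h * u * h⁻¹) := by
    conv_lhs => rw [← hc]
    group
  have hb' : h * b * h⁻¹ * (h * (R.nW L * h⁻¹ * (R.nW L)⁻¹)) ∈ D.borelSubgroup F :=
    mul_mem (mul_mem (mul_mem (BRel.H_le_B D F hh) hb) (inv_mem (BRel.H_le_B D F hh)))
      (BRel.H_le_B D F hh3)
  obtain ⟨hbb, huu⟩ := (R.normal_form_unique hb hb' hn hn (hsub hu) (hsub hu') e).2 rfl
  -- the unipotent part on the right is trivial
  have hu1 : u = 1 :=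
    posUnipotent_eq_one_of_comm_torus hD hz hne (unGens_le_posUnipotent _ (hsub hu)) huu.symm
  -- decompose b
  have hbm : b ∈ ((D.posUnipotent F ⊔ D.diagonalSubgroup F : Subgroup (GL D.Idx F)) :
      Set (GL D.Idx F)) := hb
  rw [Subgroup.coe_mul_of_right_le_normalizer_left _ _ R.hU] at hbm
  obtain ⟨u₁, hu₁', h₁, hh₁', hbe⟩ := hbm
  have hu₁ : u₁ ∈ D.posUnipotent F := hu₁'
  have hh₁ : h₁ ∈ D.diagonalSubgroup F := hh₁'
  have hbe' : b = u₁ * h₁ := hbe.symm
  subst hbe'
  have hcu : h * u₁ * h⁻¹ ∈ D.posUnipotent F :=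
    (Subgroup.mem_normalizer_iff.mp (R.hU hh) u₁).mp hu₁
  have hcomm : h * h₁ = h₁ * h := torus_comm (hH ▸ hh) (hH ▸ hh₁)
  have hx : u₁⁻¹ * (h * u₁ * h⁻¹) =
      h₁ * (h₁ * (h * (R.nW L * h⁻¹ * (R.nW L)⁻¹)))⁻¹ := by
    have e2 : h * (u₁ * h₁) * h⁻¹ * (h * (R.nW L * h⁻¹ * (R.nW L)⁻¹)) =
        (h * u₁ * h⁻¹) * (h₁ * (h * (R.nW L * h⁻¹ * (R.nW L)⁻¹))) := by
      have : h * (u₁ * h₁) * h⁻¹ = (h * u₁ * h⁻¹) * (h * h₁ * h⁻¹) := by group
      rw [this, hcomm, mul_assoc h₁ h h⁻¹, mul_inv_cancel, mul_one, mul_assoc]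
    rw [e2] at hbb
    have e3 : h * u₁ * h⁻¹ = u₁ * h₁ * (h₁ * (h * (R.nW L * h⁻¹ * (R.nW L)⁻¹)))⁻¹ := by
      rw [hbb]; group
    rw [e3]; group
  have hmem : u₁⁻¹ * (h * u₁ * h⁻¹) ∈ D.posUnipotent F ⊓ D.diagonalSubgroup F :=
    Subgroup.mem_inf.mpr ⟨mul_mem (inv_mem hu₁) hcu, by
      rw [hx]; exact mul_mem hh₁ (inv_mem (mul_mem hh₁ hh3))⟩
  rw [R.uh, Subgroup.mem_bot] at hmem
  have hcu1 : h * u₁ * h⁻¹ = u₁ := by
    rw [inv_mul_eq_one] at hmem
    exact hmem.symm
  have hu₁1 : u₁ = 1 := posUnipotent_eq_one_of_comm_torus hD hz hne hu₁ hcu1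
  -- `n_w` commutes with `h`
  have hnh : h * (R.nW L * h⁻¹ * (R.nW L)⁻¹) = 1 := by
    rw [hmem] at hx
    have h5 : h₁ * (h * (R.nW L * h⁻¹ * (R.nW L)⁻¹)) = h₁ := by
      have h6 := hx.symm
      rw [mul_inv_eq_one] at h6
      exact h6.symm
    exact mul_left_cancel (a := h₁) (by rw [h5, mul_one])
  have hnh' : h * R.nW L = R.nW L * h := by
    have : h * (R.nW L * h⁻¹ * (R.nW L)⁻¹) * (R.nW L * h) = h * R.nW L := by group
    rw [← this, hnh, one_mul]
  -- `w` fixes every root
  have hfix : ∀ s < D.nroots, wW D L s = s := by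
    intro s hs
    have hws := R.wf.wW_lt hL hs
    have h1 := R.nW_conj_x hL hs (1 : F)
    have h2 : h * (R.nW L * xGL R.xadd s 1 * (R.nW L)⁻¹) * h⁻¹ =
        R.nW L * (h * xGL R.xadd s 1 * h⁻¹) * (R.nW L)⁻¹ := by
      have e3 : h * (R.nW L * xGL R.xadd s 1 * (R.nW L)⁻¹) * h⁻¹ =
          (h * R.nW L) * xGL R.xadd s 1 * (h * R.nW L)⁻¹ := by group
      rw [e3, hnh']
      group
    rw [h1, hconj _ hws, hconj s hs, R.nW_conj_x hL hs] at h2
    have h3 := congrArg (fun x : GL D.Idx F => (x : Matrix D.Idx D.Idx F)) h2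
    simp only [xGL_val] at h3
    have h4 := x_inj_of_bRel R hws h3
    have h5 : (torusChar D z (wW D L s) : F) = (torusChar D z s : F) := by
      have h6 : ((eW D (etaN D) L s : ℤ) : F) ≠ 0 := R.eW_ne_zero hL hs
      rw [mul_one, mul_one, mul_comm] at h4
      exact mul_left_cancel₀ h6 h4
    exact hinj _ hws _ hs (Units.ext h5)
  -- a reduced word fixing every root is empty
  cases L with
  | nil =>
    rw [hu1, hu₁1, R.nW_nil, one_mul, mul_one, mul_one]
    exact hh₁
  | cons i L' =>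
    exfalso
    obtain ⟨-, hpos⟩ := hred
    have hi : i < D.rank := hL.head
    have hsi := R.wf.simple_lt i hi
    have hL' : ValidW D L' := hL.tail
    have h1 := hfix _ hpos.1
    rw [wW_cons, R.wf.wW_reverse hL' hsi, R.wf.refl_simple i hi] at h1
    have h2 : D.IsNegRoot (D.neg (D.simple i)) :=
      (R.wf.pos_iff_neg _ hsi).mp (R.wf.simple_pos i hi)
    rw [h1] at h2
    rcases R.wf.pos_xor _ hpos.1 with h3 | h3
    · exact h3.2 h2
    · exact h3.1 hpos

end

end Cfsg.Agent.Helper18
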