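import Cfsg.Agent.Helper18.G2Tor1
import Cfsg.Agent.Helper18.G2Tor2
import Cfsg.Agent.Helper18.FAut3
import Cfsg.Agent.Helper67.G2Exp

/-!
# The twisted torus of order `q² + q + 1` in `G₂(q)`: characters (helper18)

Table facts on the Cartan integers of `chevG2` and the Coxeter element `g2W` of the long `A₂`, the
characters `χ_z` of the torus in coordinates, and the equations `χ_z(s)^q = χ_z(w s)`.
-/

set_option autoImplicit false

namespace Cfsg.Agent.Helper18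

open Cfsg Cfsg.Lie Cfsg.Agent.Helper36 Cfsg.Agent.Helper17

theorem g2_tab1 : ∀ s < 12, g2W s < 12 ∧
    chevG2.cartan 0 s + chevG2.cartan 1 s = chevG2.cartan 1 (g2W s) ∧
    chevG2.cartan 1 s + 2 * chevG2.cartan 1 (g2W s) + chevG2.cartan 0 (g2W s) = 0 := by decide

/-- The exponent vectors of the roots. -/
def g2ExpList : List (ℤ × ℤ) :=
  [((-1 : ℤ), (-2 : ℤ)), (-2, -1), (-1, -1), (0, -1), (-1, 0), (1, -1), (-1, 1), (1, 0),
      (0, 1), (1, 1), (2, 1), (1, 2)]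

theorem g2_tab2 : ∀ s < 12,
    (chevG2.cartan 0 s + 2 * chevG2.cartan 1 s, chevG2.cartan 1 s) ∈ g2ExpList := by decide

theorem g2_tab3 : ∀ r < 12, ∀ s < 12,
    (chevG2.cartan 0 r + 2 * chevG2.cartan 1 r, chevG2.cartan 1 r) =
      (chevG2.cartan 0 s + 2 * chevG2.cartan 1 s, chevG2.cartan 1 s) → r = s := by decide

section

variable {L : Type*} [Field L]

theorem g2_torusChar (z : Fin 2 → Lˣ) (s : ℕ) :
    torusChar chevG2 (extOne z) s = z 0 ^ chevG2.cartan 0 s * z 1 ^ chevG2.cartan 1 s := by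
  show ((List.range 2).map fun i => extOne z i ^ chevG2.cartan i s).prod = _
  simp [List.range_succ, extOne]

theorem charDiag_congr' (D : ChevalleyDatum) {χ χ' : ℕ → Lˣ} (h : ∀ s < D.nroots, χ s = χ' s) :
    D.charDiag L χ = D.charDiag L χ' := by
  unfold ChevalleyDatum.charDiag
  congr 1
  funext k
  rcases k with i | r
  · rfl
  · simp [h r.val r.isLt]

theorem charDiag_inj' (D : ChevalleyDatum) {χ χ' : ℕ → Lˣ} (h : D.charDiag L χ = D.charDiag L χ') :
    ∀ s < D.nroots, χ s = χ' s := by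
  intro s hs
  have h1 := congrFun (congrFun h (Sum.inr ⟨s, hs⟩)) (Sum.inr ⟨s, hs⟩)
  unfold ChevalleyDatum.charDiag at h1
  rw [Matrix.diagonal_apply_eq, Matrix.diagonal_apply_eq] at h1
  exact Units.ext h1

/-- The character of `(ζ, ζ^(q+2))`. -/
theorem g2_chi_eq (ζ : Lˣ) (q : ℕ) (s : ℕ) :
    torusChar chevG2 (extOne ![ζ, ζ ^ (q + 2)]) s =
      ζ ^ (chevG2.cartan 0 s + ((q : ℤ) + 2) * chevG2.cartan 1 s) := by
  rw [g2_torusChar, Matrix.cons_val_zero, Matrix.cons_val_one, Matrix.cons_val_zero, zpow_add,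
    zpow_mul]
  congr 2

/-- The twisted equations hold for `(ζ, ζ^(q+2))` when `ζ^(q²+q+1) = 1`. -/
theorem g2_twist_of_pow (ζ : Lˣ) (q : ℕ) (hζ : ζ ^ (q ^ 2 + q + 1) = 1) :
    ∀ s < 12, torusChar chevG2 (extOne ![ζ, ζ ^ (q + 2)]) s ^ q =
      torusChar chevG2 (extOne ![ζ, ζ ^ (q + 2)]) (g2W s) := by
  intro s hs
  obtain ⟨-, h1, h2⟩ := g2_tab1 s hs
  rw [g2_chi_eq, g2_chi_eq, ← zpow_natCast, ← zpow_mul]
  have e : (chevG2.cartan 0 s + ((q : ℤ) + 2) * chevG2.cartan 1 s) * (q : ℤ) =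
      (chevG2.cartan 0 (g2W s) + ((q : ℤ) + 2) * chevG2.cartan 1 (g2W s)) +
        ((q ^ 2 + q + 1 : ℕ) : ℤ) * chevG2.cartan 1 s := by
    have h3 : chevG2.cartan 0 (g2W s) = -chevG2.cartan 1 s - 2 * chevG2.cartan 1 (g2W s) := by
      linarith
    rw [h3, ← h1]
    push_cast
    ring
  rw [e, zpow_add, zpow_mul, zpow_natCast, hζ, one_zpow, mul_one]

/-- The twisted equations determine `z` from `z 0`, which is a `(q²+q+1)`-th root of unity. -/
theorem g2_pow_of_twist (z : Fin 2 → Lˣ) (q : ℕ)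
    (h : ∀ s < 12, torusChar chevG2 (extOne z) s ^ q = torusChar chevG2 (extOne z) (g2W s)) :
    z 1 = z 0 ^ (q + 2) ∧ z 0 ^ (q ^ 2 + q + 1) = 1 := by
  have e9 := h 9 (by norm_num)
  have e11 := h 11 (by norm_num)
  rw [g2_torusChar, g2_torusChar] at e9 e11
  have c1 : chevG2.cartan 0 9 = 1 := by decide
  have c2 : chevG2.cartan 1 9 = 0 := by decide
  have c3 : g2W 9 = 4 := by decide
  have c4 : chevG2.cartan 0 4 = -2 := by decide
  have c5 : chevG2.cartan 1 4 = 1 := by decide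
  have c6 : chevG2.cartan 0 11 = 0 := by decide
  have c7 : chevG2.cartan 1 11 = 1 := by decide
  have c8 : g2W 11 = 1 := by decide
  have c9 : chevG2.cartan 0 1 = -3 := by decide
  have c10 : chevG2.cartan 1 1 = 1 := by decide
  rw [c1, c2, c3, c4, c5] at e9
  rw [c6, c7, c8, c9, c10] at e11
  simp only [zpow_one, zpow_zero, mul_one, one_mul, zpow_neg] at e9 e11
  have h9 : z 1 = z 0 ^ (q + 2) := by
    rw [pow_add, e9, mul_comm, ← mul_assoc, ← zpow_natCast (z 0) 2]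
    simp
  refine ⟨h9, ?_⟩
  have h11 : z 1 ^ q * z 0 ^ 3 = z 1 := by
    rw [e11, mul_comm ((z 0 ^ (3 : ℤ))⁻¹), mul_assoc, ← zpow_natCast (z 0) 3]
    simp
  rw [h9, ← pow_mul, ← pow_add] at h11
  have e : (q + 2) * q + 3 = (q ^ 2 + q + 1) + (q + 2) := by ring
  rw [e, pow_add] at h11
  exact mul_right_cancel (b := z 0 ^ (q + 2)) (by rw [h11, one_mul])

/-- Regularity: the character of `(ζ, ζ^(q+2))` is injective on the roots and nowhere `1`. -/
theorem g2_chi_regular (ζ : Lˣ) (q : ℕ) (hq : 3 ≤ q) (hζ : orderOf ζ = q ^ 2 + q + 1) :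
    (∀ r < 12, ∀ s < 12, torusChar chevG2 (extOne ![ζ, ζ ^ (q + 2)]) r =
      torusChar chevG2 (extOne ![ζ, ζ ^ (q + 2)]) s → r = s) ∧
    (∀ r < 12, torusChar chevG2 (extOne ![ζ, ζ ^ (q + 2)]) r ≠ 1) := by
  have hn : ((orderOf ζ : ℕ) : ℤ) = (q : ℤ) ^ 2 + q + 1 := by rw [hζ]; push_cast; ring
  constructor
  · intro r hr s hs h
    rw [g2_chi_eq, g2_chi_eq] at h
    by_contra hrs
    have h1 : ζ ^ ((chevG2.cartan 0 r + ((q : ℤ) + 2) * chevG2.cartan 1 r) -
        (chevG2.cartan 0 s + ((q : ℤ) + 2) * chevG2.cartan 1 s)) = 1 := by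
      rw [zpow_sub, h, mul_inv_cancel]
    have h2 := (orderOf_dvd_iff_zpow_eq_one).mpr h1
    rw [hn] at h2
    have hne : (chevG2.cartan 0 r + 2 * chevG2.cartan 1 r, chevG2.cartan 1 r) ≠
        (chevG2.cartan 0 s + 2 * chevG2.cartan 1 s, chevG2.cartan 1 s) :=
      fun h' => hrs (g2_tab3 r hr s hs h')
    refine Cfsg.Agent.Helper67.g2_exponents_distinct q hq _ _ (g2_tab2 r hr) (g2_tab2 s hs) hne ?_
    have e : (chevG2.cartan 0 r + 2 * chevG2.cartan 1 r, chevG2.cartan 1 r).1 -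
        (chevG2.cartan 0 s + 2 * chevG2.cartan 1 s, chevG2.cartan 1 s).1 +
        ((chevG2.cartan 0 r + 2 * chevG2.cartan 1 r, chevG2.cartan 1 r).2 -
          (chevG2.cartan 0 s + 2 * chevG2.cartan 1 s, chevG2.cartan 1 s).2) * (q : ℤ) =
        (chevG2.cartan 0 r + ((q : ℤ) + 2) * chevG2.cartan 1 r) -
        (chevG2.cartan 0 s + ((q : ℤ) + 2) * chevG2.cartan 1 s) := by
      simp only
      ring
    rw [e]
    exact h2
  · intro r hr h
    rw [g2_chi_eq] at h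
    have h2 := (orderOf_dvd_iff_zpow_eq_one).mpr h
    rw [hn] at h2
    refine Cfsg.Agent.Helper67.g2_exponents_ne_zero q hq _ (g2_tab2 r hr) ?_
    have e : (chevG2.cartan 0 r + 2 * chevG2.cartan 1 r, chevG2.cartan 1 r).1 +
        (chevG2.cartan 0 r + 2 * chevG2.cartan 1 r, chevG2.cartan 1 r).2 * (q : ℤ) =
        chevG2.cartan 0 r + ((q : ℤ) + 2) * chevG2.cartan 1 r := by
      simp only
      ring
    rw [e]
    exact h2

end

end Cfsg.Agent.Helper18
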