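import Cfsg.Agent.Helper18.D4Tor1
import Cfsg.Agent.Helper18.D4Tor2
import Cfsg.Agent.Helper18.TwD4e
import Cfsg.Agent.Helper18.G2Tor3

/-!
# The twisted torus of order `(q³ - 1)(q + 1)` in `³D₄(q)`: characters (helper18)

Table facts on the Cartan integers of `chevD4`, the triality `ρ` and the reflection `d4Rho14`; the
characters `χ_z` of the torus in coordinates; the twisted equations `χ_z(ρ² s)^q = χ_z(s_β s)` and their
consequences.
-/

set_option autoImplicit false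
set_option maxRecDepth 1000000

namespace Cfsg.Agent.Helper18

open Cfsg Cfsg.Lie Cfsg.Agent.Helper36 Cfsg.Agent.Helper17

/-- The square of the triality `ρ`, on root indices. -/
def d4R2 (s : ℕ) : ℕ :=
  [0, 1, 3, 6, 8, 11, 2, 4, 7, 9, 5, 10, 13, 18, 14, 16, 19, 21, 12, 15, 17, 20, 22, 23].getD s 0

theorem d4_rho2 : ∀ s < 24, d4R2 (rhoP chevD4 gautP_D4a s) = s ∧ d4R2 s < 24 := by decide +kernel

theorem d4_tab1 : ∀ s < 24, d4R2 s < 24 ∧ d4Rho14 s < 24 ∧
    chevD4.cartan 0 (d4R2 s) = chevD4.cartan 2 s ∧ chevD4.cartan 1 (d4R2 s) = chevD4.cartan 1 s ∧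
    chevD4.cartan 2 (d4R2 s) = chevD4.cartan 3 s ∧ chevD4.cartan 3 (d4R2 s) = chevD4.cartan 0 s ∧
    chevD4.cartan 0 (d4Rho14 s) = chevD4.cartan 0 s + chevD4.cartan 1 s ∧
    chevD4.cartan 1 (d4Rho14 s) = - chevD4.cartan 1 s ∧
    chevD4.cartan 2 (d4Rho14 s) = chevD4.cartan 2 s + chevD4.cartan 1 s ∧
    chevD4.cartan 3 (d4Rho14 s) = chevD4.cartan 3 s + chevD4.cartan 1 s := by decide +kernel

/-- The Cartan vectors of the roots. -/
def d4CartList : List (ℤ × ℤ × ℤ × ℤ) :=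
  [((0 : ℤ), (-1 : ℤ), (0 : ℤ), (0 : ℤ)), (-1, 1, -1, -1), (-1, 0, -1, 1), (-1, 0, 1, -1),
      (-1, -1, 1, 1), (-2, 1, 0, 0), (1, 0, -1, -1), (1, -1, -1, 1), (1, -1, 1, -1), (1, -2, 1, 1),
      (0, 1, -2, 0), (0, 1, 0, -2), (0, -1, 0, 2), (0, -1, 2, 0), (-1, 2, -1, -1), (-1, 1, -1, 1),
      (-1, 1, 1, -1), (-1, 0, 1, 1), (2, -1, 0, 0), (1, 1, -1, -1), (1, 0, -1, 1), (1, 0, 1, -1),
      (1, -1, 1, 1), (0, 1, 0, 0)]

/-- The Cartan vector of a root. -/
def d4Cart (s : ℕ) : ℤ × ℤ × ℤ × ℤ :=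
  (chevD4.cartan 0 s, chevD4.cartan 1 s, chevD4.cartan 2 s, chevD4.cartan 3 s)

theorem d4_tab2 : ∀ s < 24, d4Cart s ∈ d4CartList := by decide +kernel

theorem d4_tab3 : ∀ r < 24, ∀ s < 24, d4Cart r = d4Cart s → r = s := by decide +kernel

theorem d4_tab4 : d4R2 13 = 18 ∧ d4Rho14 13 = 16 ∧ d4R2 12 = 13 ∧ d4Rho14 12 = 15 ∧
    d4R2 18 = 12 ∧ d4Rho14 18 = 19 ∧ d4R2 14 = 14 ∧ d4Rho14 14 = 9 ∧
    (∀ i < 4, chevD4.cartan i 16 = chevD4.cartan i 13 + chevD4.cartan i 14) ∧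
    (∀ i < 4, chevD4.cartan i 15 = chevD4.cartan i 12 + chevD4.cartan i 14) ∧
    (∀ i < 4, chevD4.cartan i 19 = chevD4.cartan i 18 + chevD4.cartan i 14) ∧
    (∀ i < 4, chevD4.cartan i 9 = - chevD4.cartan i 14) := by decide +kernel

section

variable {L : Type*} [Field L]

theorem torusChar_add_of {D : ChevalleyDatum} (z : ℕ → Lˣ) {r s t : ℕ}
    (h : ∀ i < D.rank, D.cartan i r = D.cartan i s + D.cartan i t) :
    torusChar D z r = torusChar D z s * torusChar D z t := by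
  unfold torusChar
  have key : ∀ l : List ℕ, (∀ i ∈ l, i < D.rank) →
      (l.map fun i => z i ^ D.cartan i r).prod =
        (l.map fun i => z i ^ D.cartan i s).prod * (l.map fun i => z i ^ D.cartan i t).prod := by
    intro l
    induction l with
    | nil => intro _; simp
    | cons i l ih =>
      intro hl
      rw [List.map_cons, List.prod_cons, List.map_cons, List.prod_cons, List.map_cons, List.prod_cons,
        ih (fun j hj => hl j (List.mem_cons_of_mem _ hj)), h i (hl i List.mem_cons_self), zpow_add]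
      exact mul_mul_mul_comm _ _ _ _
  exact key _ (fun i hi => List.mem_range.mp hi)

theorem torusChar_neg_of {D : ChevalleyDatum} (z : ℕ → Lˣ) {r s : ℕ}
    (h : ∀ i < D.rank, D.cartan i r = - D.cartan i s) :
    torusChar D z r = (torusChar D z s)⁻¹ := by
  unfold torusChar
  have key : ∀ l : List ℕ, (∀ i ∈ l, i < D.rank) →
      (l.map fun i => z i ^ D.cartan i r).prod = ((l.map fun i => z i ^ D.cartan i s).prod)⁻¹ := by
    intro l
    induction l with
    | nil => intro _; simp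
    | cons i l ih =>
      intro hl
      rw [List.map_cons, List.prod_cons, List.map_cons, List.prod_cons,
        ih (fun j hj => hl j (List.mem_cons_of_mem _ hj)), h i (hl i List.mem_cons_self), zpow_neg,
        mul_inv]
  exact key _ (fun i hi => List.mem_range.mp hi)

/-- A parameter whose character is trivial on the fundamental roots lies in the kernel. -/
theorem torusHom_eq_one_of_simple {D : ChevalleyDatum} {dd : ℕ → ℕ} (hs : simpleOK D = true)
    (hS : SmithData D dd) (z : Fin D.rank → Lˣ)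
    (h : ∀ j < D.rank, torusChar D (extOne z) (D.simple j) = 1) : torusHom D L z = 1 := by
  have h1 : z ∈ (torusHom D L).ker := by
    rw [mem_ker_torusHom hs hS]
    funext j
    exact h j.val j.isLt
  exact h1

/-- The consequences of the twisted equations in a commutative group. -/
theorem d4_tw_rel {G : Type*} [CommGroup G] (A B C D : G) (q : ℕ) (hq : 1 ≤ q)
    (h1 : A ^ q = C * B) (h2 : C ^ q = D * B) (h3 : D ^ q = A * B) (h4 : B ^ q = B⁻¹) :
    A ^ (q ^ 3 - 1) = B ∧ A ^ ((q ^ 3 - 1) * (q + 1)) = 1 ∧ (A = 1 → B = 1 ∧ C = 1 ∧ D = 1) := by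
  have e1 : A ^ (q ^ 2) = D := by
    rw [pow_two, pow_mul, h1, mul_pow, h2, h4, mul_inv_cancel_right]
  have e2 : A ^ (q ^ 3) = A * B := by
    rw [pow_succ, pow_mul, e1, h3]
  have hq3 : 1 ≤ q ^ 3 := Nat.one_le_pow _ _ hq
  have e3 : A ^ (q ^ 3 - 1) = B := by
    have : A ^ (q ^ 3 - 1) * A = B * A := by
      rw [← pow_succ, Nat.sub_add_cancel hq3, e2, mul_comm]
    exact mul_right_cancel this
  refine ⟨e3, ?_, ?_⟩
  · rw [pow_mul, e3, pow_succ, h4, inv_mul_cancel]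
  · intro hA
    have hB : B = 1 := by rw [← e3, hA, one_pow]
    have hC : C = 1 := by
      rw [hA, one_pow, hB, mul_one] at h1
      exact h1.symm
    have hD : D = 1 := by
      rw [hC, one_pow, hB, mul_one] at h2
      exact h2.symm
    exact ⟨hB, hC, hD⟩

/-- The twisted equations. -/
def D4Tw (q : ℕ) (z : Fin chevD4.rank → Lˣ) : Prop :=
  ∀ s < 24, torusChar chevD4 (extOne z) (d4R2 s) ^ q = torusChar chevD4 (extOne z) (d4Rho14 s)

/-- The twisted equations determine the character from its value `A` at the root `18`, and `A` is a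
root of unity of order dividing `(q³ - 1)(q + 1)`. -/
theorem d4_pow_of_twist (z : Fin chevD4.rank → Lˣ) (q : ℕ) (hq : 1 ≤ q) (h : D4Tw q z) :
    torusChar chevD4 (extOne z) 18 ^ (q ^ 3 - 1) = torusChar chevD4 (extOne z) 14 ∧
    torusChar chevD4 (extOne z) 18 ^ ((q ^ 3 - 1) * (q + 1)) = 1 ∧
    torusChar chevD4 (extOne z) 14 ^ q = (torusChar chevD4 (extOne z) 14)⁻¹ ∧
    torusChar chevD4 (extOne z) 9 = (torusChar chevD4 (extOne z) 14)⁻¹ ∧
    (torusChar chevD4 (extOne z) 18 = 1 → torusHom chevD4 L z = 1) := by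
  obtain ⟨a1, a2, a3, a4, a5, a6, a7, a8, c16, c15, c19, c9⟩ := d4_tab4
  have e13 := h 13 (by norm_num)
  have e12 := h 12 (by norm_num)
  have e18 := h 18 (by norm_num)
  have e14 := h 14 (by norm_num)
  rw [a1, a2, torusChar_add_of (extOne z) (D := chevD4) c16] at e13
  rw [a3, a4, torusChar_add_of (extOne z) (D := chevD4) c15] at e12
  rw [a5, a6, torusChar_add_of (extOne z) (D := chevD4) c19] at e18
  rw [a7, a8, torusChar_neg_of (extOne z) (D := chevD4) c9] at e14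
  obtain ⟨r1, r2, r3⟩ := d4_tw_rel _ _ _ _ q hq e13 e12 e18 e14
  refine ⟨r1, r2, e14, torusChar_neg_of (extOne z) (D := chevD4) c9, ?_⟩
  intro hA
  obtain ⟨hB, hC, hD⟩ := r3 hA
  apply torusHom_eq_one_of_simple (simpleOK_of_mem d4_mem) smithData_D4
  obtain ⟨-, -, -, -, s0, s1, s2, s3⟩ := d4_negs
  intro j hj
  have hj' : j < 4 := hj
  interval_cases j
  · rw [s0]; exact hA
  · rw [s1]; exact hB
  · rw [s2]; exact hC
  · rw [s3]; exact hD

theorem d4Z_torusChar (a b c d : Lˣ) (s : ℕ) :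
    torusChar chevD4 (extOne (d4Z a b c d)) s =
      a ^ chevD4.cartan 0 s * b ^ chevD4.cartan 1 s * c ^ chevD4.cartan 2 s *
        d ^ chevD4.cartan 3 s := by
  have hr : List.range chevD4.rank = [0, 1, 2, 3] := by decide
  have e0 : extOne (d4Z a b c d) 0 = a := extOne_of_lt _ (by decide)
  have e1 : extOne (d4Z a b c d) 1 = b := extOne_of_lt _ (by decide)
  have e2 : extOne (d4Z a b c d) 2 = c := extOne_of_lt _ (by decide)
  have e3 : extOne (d4Z a b c d) 3 = d := extOne_of_lt _ (by decide)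
  unfold torusChar
  rw [hr]
  simp only [List.map_cons, List.map_nil, List.prod_cons, List.prod_nil, mul_one, e0, e1, e2, e3,
    mul_assoc]

/-- The parameters of the twisted torus attached to `x`. -/
def d4Zx (x : Lˣ) (q : ℕ) : Fin chevD4.rank → Lˣ :=
  d4Z (x ^ (q ^ 3 + 1)) (x ^ (q ^ 4 + q ^ 2 + 1)) (x ^ ((q ^ 3 + 1) * q)) (x ^ ((q ^ 3 + 1) * q ^ 2))

/-- The exponent of the character of `d4Zx x q` at a Cartan vector. -/
def d4E (q : ℕ) (c : ℤ × ℤ × ℤ × ℤ) : ℤ :=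
  ((q : ℤ) ^ 3 + 1) * (c.1 + (q : ℤ) * c.2.2.1 + (q : ℤ) ^ 2 * c.2.2.2) +
    ((q : ℤ) ^ 4 + (q : ℤ) ^ 2 + 1) * c.2.1

theorem d4_chi_eq (x : Lˣ) (q : ℕ) (s : ℕ) :
    torusChar chevD4 (extOne (d4Zx x q)) s = x ^ d4E q (d4Cart s) := by
  unfold d4Zx d4E d4Cart
  rw [d4Z_torusChar]
  simp only [← zpow_natCast, ← zpow_mul, ← zpow_add]
  congr 1
  push_cast
  ring

/-- The twisted equations hold for `d4Zx x q` when `x ^ (q⁶ - 1) = 1`. -/
theorem d4_twist_of_pow (x : Lˣ) (q : ℕ) (hq : 1 ≤ q) (hx : x ^ (q ^ 6 - 1) = 1) :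
    D4Tw q (d4Zx x q) := by
  intro s hs
  obtain ⟨-, -, t1, t2, t3, t4, t5, t6, t7, t8⟩ := d4_tab1 s hs
  rw [d4_chi_eq, d4_chi_eq, ← zpow_natCast, ← zpow_mul]
  have hq6 : 1 ≤ q ^ 6 := Nat.one_le_pow _ _ hq
  have e : d4E q (d4Cart (d4R2 s)) * (q : ℤ) =
      d4E q (d4Cart (d4Rho14 s)) + ((q ^ 6 - 1 : ℕ) : ℤ) * chevD4.cartan 0 s := by
    unfold d4E d4Cart
    simp only [t1, t2, t3, t4, t5, t6, t7, t8]
    push_cast [Nat.cast_sub hq6]
    ring
  rw [e, zpow_add, zpow_mul, zpow_natCast, hx, one_zpow, mul_one]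

end

end Cfsg.Agent.Helper18
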