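import Cfsg.Agent.Helper18.D4Tor3

/-!
# The twisted torus of order `(q³ - 1)(q + 1)` in `³D₄(q)` (helper18)

`d4_twisted_torus`: let `K` have `q³` elements, `L ⊇ K` have `q⁶` elements, `φ` the `q`-Frobenius of `L`,
`θ ∈ L` with `φ² θ = θ ≠ φ θ`, `a = φ θ - θ` and `P = x_14(θ) x_9(a⁻¹)` (so `σ P = P n_14(a)`).  The
subgroup `C` of the elements `g` of `³D₄(q)` with `P⁻¹ g P` in the torus of `D₄(L)` carries an injective
character into the `(q³-1)(q+1)`-th roots of unity; for `ω ∈ Lˣ` it contains the element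
`P h(ω) P⁻¹`, and the centraliser of that element lies in `C` as soon as the character of `h(ω)` has
trivial stabiliser in the Weyl group and is nowhere `1` on the roots.
-/

set_option autoImplicit false
set_option linter.style.haveILetI false

namespace Cfsg.Agent.Helper18

open Cfsg Cfsg.Lie Cfsg.Agent.Helper36 Cfsg.Agent.Helper17

section

variable {K : Type*} [Field K] {L : Type*} [Field L]

theorem glMap_xGL_of {D : ChevalleyDatum} (ι : K →+* L) (hX : XAdd D K) (hX' : XAdd D L) (r : ℕ)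
    (t : K) : glMap D ι (xGL hX r t) = xGL hX' r (ι t) :=
  Units.ext (by rw [glMap_x ι (xGL_val hX r t), xGL_val])

theorem glMap_nGL_of {D : ChevalleyDatum} (ι : K →+* L) (hX : XAdd D K) (hX' : XAdd D L) (r : ℕ)
    (t : K) : glMap D ι (nGL hX r t) = nGL hX' r (ι t) := by
  apply Units.ext
  have h : ((nGL hX r t : GL D.Idx K) : Matrix D.Idx D.Idx K) = D.wordMat K (D.nWord r t) :=
    nGL_val hX r t
  rw [glMap_word ι h, nWord_map, nGL_val]
  rfl

theorem glMap_spGL (ι : K →+* L) (D : ChevalleyDatum) (P Q : ℕ)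
    (h : chkInv (D.rank + D.nroots) P Q = true) :
    glMap D ι (spGL K D P Q h) = spGL L D P Q h := by
  apply Units.ext
  rw [glMap_val]
  show (spMat K D P).map ι = spMat L D P
  ext a b
  simp only [spMat, Matrix.map_apply, Matrix.of_apply]
  split_ifs
  · rw [map_intCast]
  · rw [map_zero]

/-- The twisted automorphism commutes with the extension of scalars. -/
theorem twSig_glMap (ι : K →+* L) (f : K →+* K) (φ : L →+* L) (hφι : φ.comp ι = ι.comp f)
    (D : ChevalleyDatum) (P Q : ℕ) (h : chkInv (D.rank + D.nroots) P Q = true) (g : GL D.Idx K) :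
    twSig D (spGL L D P Q h) φ (glMap D ι g) = glMap D ι (twSig D (spGL K D P Q h) f g) := by
  rw [twSig_apply, twSig_apply, map_mul, map_mul, map_inv, glMap_spGL, glMap_comp, glMap_comp, hφι]

theorem d4Z_map (g : K →* L) (a b c d : Kˣ) :
    (fun i => Units.map g (d4Z a b c d i)) =
      d4Z (Units.map g a) (Units.map g b) (Units.map g c) (Units.map g d) := by
  funext i
  obtain ⟨i, hi⟩ := i
  have hi' : i < 4 := hi
  interval_cases i <;> rfl

end

theorem d4_twisted_torus {K : Type*} [Field K] [Fintype K] {L : Type*} [Field L] [Fintype L]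
    (ι : K →+* L) (φ : L →+* L) (q : ℕ) (hK : Fintype.card K = q ^ 3)
    (hL : Fintype.card L = q ^ 6)
    (hφpow : ∀ x : L, φ x = x ^ q)
    (hφfix : ∀ x : L, φ (φ (φ x)) = x → ∃ y : K, ι y = x)
    (θ : L) (hθ1 : φ θ ≠ θ) (hθ2 : φ (φ θ) = θ)
    (ω : Lˣ)
    (hord : orderOf (ω ^ d4E q (d4Cart 18)) = (q ^ 3 - 1) * (q + 1))
    (hne : ∀ r < 24, ω ^ d4E q (d4Cart r) ≠ 1)
    (hstab : ∀ W, ValidW chevD4 W →
      (∀ s < 24, ω ^ d4E q (d4Cart (wW chevD4 W s)) = ω ^ d4E q (d4Cart s)) →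
        ∀ s < 24, wW chevD4 W s = s) :
    ∃ (C : Subgroup ↥(twistedD4 K q)) (f : C →* Lˣ), Function.Injective f ∧
      (∀ c : C, f c ^ ((q ^ 3 - 1) * (q + 1)) = 1) ∧
      ∃ s : C, orderOf (f s) = (q ^ 3 - 1) * (q + 1) ∧
        ∀ g : ↥(twistedD4 K q), g * (s : ↥(twistedD4 K q)) = (s : ↥(twistedD4 K q)) * g → g ∈ C := by
  classical
  have hq : 2 ≤ q := by
    have := Fintype.one_lt_card (α := K)
    rw [hK] at this
    by_contra h
    have hq : q = 0 ∨ q = 1 := by omega
    rcases hq with rfl | rfl <;> norm_num at this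
  have hq1 : 1 ≤ q := by omega
  obtain ⟨f, hf, hfM, -⟩ := exists_frob3 hK
  have hφι' : ∀ y : K, φ (ι y) = ι (f y) := fun y => by rw [hφpow, hf, map_pow]
  have hφι : φ.comp ι = ι.comp f := RingHom.ext hφι'
  set a : L := φ θ - θ with ha_def
  have ha : a ≠ 0 := sub_ne_zero.mpr hθ1
  have hφθ : φ θ = θ + a := by rw [ha_def]; ring
  have hφa : φ a = -a := by rw [ha_def, map_sub, hθ2]; ring
  set P : GL chevD4.Idx L := xGL (d4R L).xadd 14 θ * xGL (d4R L).xadd 9 a⁻¹ with hPdef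
  set N : GL chevD4.Idx L := nGL (d4R L).xadd 14 a with hNdef
  have hPG : P ∈ chevD4.group L :=
    mul_mem (Cfsg.Agent.Helper36.xGL_mem_group _ _ _) (Cfsg.Agent.Helper36.xGL_mem_group _ _ _)
  obtain ⟨-, -, -, e14, -, -, -, -, -, e9⟩ := d4_eps
  obtain ⟨r14, r9, -, -, -, -, -, -⟩ := d4_rho
  obtain ⟨-, -, -, neg14, -, -, -, -⟩ := d4_negs
  have hσx14 : ∀ t : L, d4Sig φ (xGL (d4R L).xadd 14 t) = xGL (d4R L).xadd 14 (φ t) := by
    intro t
    rw [twSig_xGL d4_hinv gaut_roots_D4a φ _ (by decide), r14, e14, Int.cast_one, one_mul]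
  have hσx9 : ∀ t : L, d4Sig φ (xGL (d4R L).xadd 9 t) = xGL (d4R L).xadd 9 (φ t) := by
    intro t
    rw [twSig_xGL d4_hinv gaut_roots_D4a φ _ (by decide), r9, e9, Int.cast_one, one_mul]
  have hFP : d4Sig φ P = P * N := by
    rw [hPdef, map_mul, hσx14, hσx9]
    apply Units.ext
    rw [Units.val_mul, Units.val_mul, Units.val_mul, xGL_val, xGL_val, xGL_val, xGL_val, hNdef,
      nGL_val]
    have e2 : φ a⁻¹ = -a⁻¹ := by rw [map_inv₀, hφa, inv_neg]
    rw [hφθ, e2]
    have h := d4_lang_identity (d4R L).xadd θ a ha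
    rw [wordMat_cons, wordMat_singleton, wordMat_cons, wordMat_singleton] at h
    exact h
  have hNχ : ∀ χ : ℕ → Lˣ, (N : Matrix chevD4.Idx chevD4.Idx L) *
      chevD4.charDiag L (fun s => χ (d4Rho14 s)) =
        chevD4.charDiag L χ * (N : Matrix chevD4.Idx chevD4.Idx L) := by
    intro χ
    rw [hNdef, nGL_val]
    exact d4_nMat14_charDiag a ha χ
  have hσu : ∀ u : Lˣ, Units.map (φ : L →* L) u = u ^ q := by
    intro u
    apply Units.ext
    rw [Units.val_pow_eq_pow_val, ← hφpow]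
    rfl
  let T4 : (Fin chevD4.rank → Lˣ) →* GL chevD4.Idx L := torusHom chevD4 L
  have hT4val : ∀ z : Fin chevD4.rank → Lˣ,
      ((T4 z : GL chevD4.Idx L) : Matrix chevD4.Idx chevD4.Idx L) =
        chevD4.charDiag L (torusChar chevD4 (extOne z)) :=
    fun z => torusHom_val (D := chevD4) (F := L) z
  have htw : ∀ z : Fin chevD4.rank → Lˣ, (N * d4Sig φ (T4 z) = T4 z * N ↔ D4Tw q z) := by
    intro z
    have e1 : ((d4Sig φ (T4 z) : GL chevD4.Idx L) : Matrix chevD4.Idx chevD4.Idx L) =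
        chevD4.charDiag L (fun s => torusChar chevD4 (extOne z) (d4R2 s) ^ q) := by
      refine twSig_charDiag d4_hinv φ twTab_D4a _ _ (hT4val z) ?_
      intro r hr
      show torusChar chevD4 (extOne z) (d4R2 (rhoP chevD4 gautP_D4a r)) ^ q =
        Units.map (φ : L →* L) (torusChar chevD4 (extOne z) r)
      rw [(d4_rho2 r hr).1, hσu]
    constructor
    · intro h
      have h1 := congrArg (fun x : GL chevD4.Idx L => (x : Matrix chevD4.Idx chevD4.Idx L)) h
      simp only [Units.val_mul] at h1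
      rw [e1, hT4val, ← hNχ] at h1
      have h2 := congrArg (fun M => ((N⁻¹ : GL chevD4.Idx L) : Matrix chevD4.Idx chevD4.Idx L) * M) h1
      simp only [← mul_assoc] at h2
      rw [← Units.val_mul, inv_mul_cancel, Units.val_one, one_mul, one_mul] at h2
      exact charDiag_inj' chevD4 h2
    · intro h
      apply Units.ext
      show (N : Matrix chevD4.Idx chevD4.Idx L) *
          ((d4Sig φ (T4 z) : GL chevD4.Idx L) : Matrix chevD4.Idx chevD4.Idx L) =
        ((T4 z : GL chevD4.Idx L) : Matrix chevD4.Idx chevD4.Idx L) *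
          (N : Matrix chevD4.Idx chevD4.Idx L)
      have e3 : chevD4.charDiag L (fun s => torusChar chevD4 (extOne z) (d4R2 s) ^ q) =
          chevD4.charDiag L (fun s => torusChar chevD4 (extOne z) (d4Rho14 s)) :=
        charDiag_congr' chevD4 h
      rw [e1, hT4val, ← hNχ, e3]
  have hle : twistedD4 K q ≤ chevD4.group K := by
    rw [twistedD4_eq f hfM hf]
    exact inf_le_left
  have hfixK : ∀ g ∈ twistedD4 K q, d4Sig f g = g := by
    intro g hg
    rw [twistedD4_eq f hfM hf] at hg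
    exact (Subgroup.mem_inf.mp hg).2
  have hσι : ∀ g ∈ twistedD4 K q, d4Sig φ (glMap chevD4 ι g) = glMap chevD4 ι g := by
    intro g hg
    rw [twSig_glMap ι f φ hφι, hfixK g hg]
  let conjHom : ↥(twistedD4 K q) →* GL chevD4.Idx L :=
    (MulAut.conj P⁻¹).toMonoidHom.comp ((glMap chevD4 ι).comp (twistedD4 K q).subtype)
  have hconj : ∀ g : ↥(twistedD4 K q), conjHom g = P⁻¹ * glMap chevD4 ι g.1 * P := by
    intro g
    simp [conjHom]
  have hσconj : ∀ g : ↥(twistedD4 K q), d4Sig φ (conjHom g) = N⁻¹ * conjHom g * N := by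
    intro g
    rw [hconj, map_mul, map_mul, map_inv, hFP, hσι g.1 g.2]
    group
  let C : Subgroup ↥(twistedD4 K q) := (torus chevD4 L).comap conjHom
  have hz : ∀ c : C, ∃ z : Fin chevD4.rank → Lˣ, T4 z = conjHom c.1 := by
    intro c
    have h1 : conjHom c.1 ∈ (torusHom chevD4 L).range := by
      rw [range_torusHom]
      exact c.2
    obtain ⟨z, hz⟩ := h1
    exact ⟨z, hz⟩
  choose zc hzc using hz
  have hzc_tw : ∀ c : C, D4Tw q (zc c) := by
    intro c
    apply (htw (zc c)).mp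
    rw [hzc, hσconj]
    group
  let χc : C → ℕ → Lˣ := fun c => torusChar chevD4 (extOne (zc c))
  have hχval : ∀ c : C, ((conjHom c.1 : GL chevD4.Idx L) : Matrix chevD4.Idx chevD4.Idx L) =
      chevD4.charDiag L (χc c) := fun c => by rw [← hzc, hT4val]
  have hχmul : ∀ c c' : C, ∀ s < 24, χc (c * c') s = χc c s * χc c' s := by
    intro c c'
    apply charDiag_inj' chevD4
    rw [← charDiag_mul, ← hχval, ← hχval, ← hχval, ← Units.val_mul, ← map_mul]
    rfl
  have hχone : ∀ s < 24, χc 1 s = 1 := by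
    apply charDiag_inj' chevD4 (χ' := fun _ => 1)
    rw [← hχval, charDiag_one]
    have : conjHom (1 : C).1 = 1 := map_one conjHom
    rw [this, Units.val_one]
  let fC : C →* Lˣ :=
    { toFun := fun c => χc c 18
      map_one' := hχone 18 (by norm_num)
      map_mul' := fun c c' => hχmul c c' 18 (by norm_num) }
  refine ⟨C, fC, ?_, ?_, ?_⟩
  · rw [injective_iff_map_eq_one]
    intro c hc
    have hA : torusChar chevD4 (extOne (zc c)) 18 = 1 := hc
    have h1 : T4 (zc c) = 1 := (d4_pow_of_twist (zc c) q hq1 (hzc_tw c)).2.2.2.2 hA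
    have h2 : conjHom c.1 = 1 := by rw [← hzc]; exact h1
    rw [hconj] at h2
    have h3 : glMap chevD4 ι c.1.1 = 1 := by
      have e : glMap chevD4 ι c.1.1 = P * (P⁻¹ * glMap chevD4 ι c.1.1 * P) * P⁻¹ := by group
      rw [e, h2]
      group
    have h4 : c.1.1 = 1 := glMap_injective ι (by rw [h3, map_one])
    exact Subtype.ext (Subtype.ext h4)
  · intro c
    exact (d4_pow_of_twist (zc c) q hq1 (hzc_tw c)).2.1
  · have hωn : ω ^ (q ^ 6 - 1) = 1 := by
      have h1 : Fintype.card Lˣ = q ^ 6 - 1 := by rw [Fintype.card_units, hL]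
      rw [← h1]
      exact pow_card_eq_one
    set z₀ : Fin chevD4.rank → Lˣ := d4Zx ω q with hz₀
    set h₀ : GL chevD4.Idx L := T4 z₀ with hh₀
    have htw₀ : D4Tw q z₀ := d4_twist_of_pow ω q hq1 hωn
    have hNh : N * d4Sig φ h₀ = h₀ * N := (htw z₀).mpr htw₀
    have hh₀T : h₀ ∈ torus chevD4 L := by
      rw [← range_torusHom]
      exact ⟨z₀, rfl⟩
    have hH : chevD4.diagonalSubgroup L = torus chevD4 L := d4_hH L
    have hh₀D : h₀ ∈ chevD4.diagonalSubgroup L := hH ▸ hh₀T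
    have hfix : d4Sig φ (P * h₀ * P⁻¹) = P * h₀ * P⁻¹ := by
      rw [map_mul, map_mul, map_inv, hFP]
      have e : d4Sig φ h₀ = N⁻¹ * h₀ * N := by rw [mul_assoc, ← hNh]; group
      rw [e]
      group
    obtain ⟨p1, -, p3, p4, -⟩ := d4_pow_of_twist z₀ q hq1 htw₀
    have hA : torusChar chevD4 (extOne z₀) 18 = ω ^ d4E q (d4Cart 18) := d4_chi_eq ω q 18
    set cB : Lˣ := torusChar chevD4 (extOne z₀) 14 with hcB
    have hcB1 : cB ≠ 1 := by
      intro h
      rw [h] at p1
      have h2 := orderOf_dvd_of_pow_eq_one p1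
      rw [hA, hord] at h2
      have h3 : 0 < q ^ 3 - 1 := by
        have : 2 ^ 3 ≤ q ^ 3 := Nat.pow_le_pow_left hq 3
        omega
      have h4 := Nat.le_of_dvd h3 h2
      nlinarith
    have hconjx : ∀ r < 24, ∀ t : L, h₀ * xGL (d4R L).xadd r t * h₀⁻¹ =
        xGL (d4R L).xadd r ((torusChar chevD4 (extOne z₀) r : L) * t) := by
      intro r hr t
      apply Units.ext
      rw [Units.val_mul, Units.val_mul, xGL_val, xGL_val]
      exact torus_conj_x (chainOK_of_mem chevD4 d4_mem) (cartanFacts_of_mem d4_mem) (hT4val z₀) r hr t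
    set c : L := (cB : L) with hc
    have hc0 : c ≠ 0 := cB.ne_zero
    have hc1 : c ≠ 1 := fun h => hcB1 (Units.ext h)
    have hc1' : c - 1 ≠ 0 := sub_ne_zero.mpr hc1
    have hφc : φ c = c⁻¹ := by
      rw [hφpow]
      have h1 := congrArg (fun u : Lˣ => (u : L)) p3
      simp only [Units.val_pow_eq_pow_val, Units.val_inv_eq_inv_val] at h1
      exact h1
    have h9val : ((torusChar chevD4 (extOne z₀) 9 : Lˣ) : L) = c⁻¹ := by
      rw [p4, Units.val_inv_eq_inv_val]
    set v : L := (c - 1) * a⁻¹ with hv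
    have hv0 : v ≠ 0 := mul_ne_zero hc1' (inv_ne_zero ha)
    have hv' : v⁻¹ = a * (c - 1)⁻¹ := by rw [hv, mul_inv, inv_inv, mul_comm]
    set u1 : L := θ + c * v⁻¹ with hu1
    set u2 : L := v⁻¹ + -θ with hu2
    -- the factorisation of the generator
    have s1 : xGL (d4R L).xadd 9 a⁻¹ * h₀ = h₀ * xGL (d4R L).xadd 9 (c * a⁻¹) := by
      have h1 := hconjx 9 (by norm_num) (c * a⁻¹)
      rw [h9val, ← mul_assoc, inv_mul_cancel₀ hc0, one_mul] at h1
      rw [← h1]
      group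
    have s3 : xGL (d4R L).xadd 9 v = xGL (d4R L).xadd 14 v⁻¹ * nGL (d4R L).xadd 14 (-v⁻¹) *
        xGL (d4R L).xadd 14 v⁻¹ := by
      have e : -(-v⁻¹)⁻¹ = v := by rw [inv_neg, inv_inv, neg_neg]
      rw [nGL_eq, neg14, e, ← xGL_inv]
      group
    have s4 : h₀ * xGL (d4R L).xadd 14 v⁻¹ = xGL (d4R L).xadd 14 (c * v⁻¹) * h₀ := by
      have h1 := hconjx 14 (by norm_num) v⁻¹
      rw [← h1]
      group
    have s6 : nGL (d4R L).xadd 14 (-v⁻¹) =
        hGL (d4R L).xadd 14 (-v⁻¹) * (nGL (d4R L).xadd 14 (-1))⁻¹ := by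
      rw [hGL_eq]
      group
    have hg_eq : P * h₀ * P⁻¹ = xGL (d4R L).xadd 14 u1 * (h₀ * hGL (d4R L).xadd 14 (-v⁻¹)) *
        (nGL (d4R L).xadd 14 (-1))⁻¹ * xGL (d4R L).xadd 14 u2 := by
      have e9 : xGL (d4R L).xadd 9 (c * a⁻¹) * xGL (d4R L).xadd 9 (-a⁻¹) = xGL (d4R L).xadd 9 v := by
        rw [xGL_mul]
        exact congrArg (xGL (d4R L).xadd 9) (by rw [hv]; ring)
      calc P * h₀ * P⁻¹ = xGL (d4R L).xadd 14 θ * (xGL (d4R L).xadd 9 a⁻¹ * h₀) *
            xGL (d4R L).xadd 9 (-a⁻¹) * xGL (d4R L).xadd 14 (-θ) := by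
            rw [hPdef, mul_inv_rev, xGL_inv, xGL_inv]
            simp only [mul_assoc]
        _ = xGL (d4R L).xadd 14 θ * h₀ * (xGL (d4R L).xadd 9 (c * a⁻¹) *
            xGL (d4R L).xadd 9 (-a⁻¹)) * xGL (d4R L).xadd 14 (-θ) := by
            rw [s1]
            simp only [mul_assoc]
        _ = xGL (d4R L).xadd 14 θ * (h₀ * xGL (d4R L).xadd 14 v⁻¹) * nGL (d4R L).xadd 14 (-v⁻¹) *
            (xGL (d4R L).xadd 14 v⁻¹ * xGL (d4R L).xadd 14 (-θ)) := by
            rw [e9, s3]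
            simp only [mul_assoc]
        _ = (xGL (d4R L).xadd 14 θ * xGL (d4R L).xadd 14 (c * v⁻¹)) * h₀ *
            nGL (d4R L).xadd 14 (-v⁻¹) *
            (xGL (d4R L).xadd 14 v⁻¹ * xGL (d4R L).xadd 14 (-θ)) := by
            rw [s4]
            simp only [mul_assoc]
        _ = _ := by
            rw [xGL_mul, xGL_mul, s6, hu1, hu2]
            simp only [mul_assoc]
    -- the parameters are fixed by `φ`
    have hφc1 : φ (c - 1) = -(c - 1) * c⁻¹ := by
      rw [map_sub, hφc, map_one]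
      field_simp
      ring
    have hφvinv : φ v⁻¹ = c * v⁻¹ := by
      rw [hv', map_mul, hφa, map_inv₀, hφc1, mul_inv, inv_neg, inv_inv]
      ring
    have hφu1 : φ u1 = u1 := by
      rw [hu1, map_add, map_mul, hφvinv, hφc, hφθ, hv']
      field_simp
      ring
    have hφu2 : φ u2 = u2 := by
      rw [hu2, map_add, map_neg, hφvinv, hφθ, hv']
      field_simp
      ring
    obtain ⟨y1, hy1⟩ := hφfix u1 (by rw [hφu1, hφu1, hφu1])
    obtain ⟨y2, hy2⟩ := hφfix u2 (by rw [hφu2, hφu2, hφu2])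
    have hy1q : y1 ^ q = y1 := by
      apply ι.injective
      rw [map_pow, hy1, ← hφpow, hφu1]
    have hy2q : y2 ^ q = y2 := by
      apply ι.injective
      rw [map_pow, hy2, ← hφpow, hφu2]
    -- the torus part is fixed by `σ`
    set h2 : GL chevD4.Idx L := h₀ * hGL (d4R L).xadd 14 (-v⁻¹) with hh2
    have hh2D : h2 ∈ chevD4.diagonalSubgroup L :=
      mul_mem hh₀D (hGL_mem _ (by decide) (neg_ne_zero.mpr (inv_ne_zero hv0)))
    have hσn : d4Sig φ (nGL (d4R L).xadd 14 (-1)) = nGL (d4R L).xadd 14 (-1) := by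
      rw [nGL_eq, neg14, map_mul, map_mul, hσx14, hσx9]
      simp only [map_neg, map_inv₀, map_one]
    have hσh2 : d4Sig φ h2 = h2 := by
      have h1 := hfix
      rw [hg_eq, map_mul, map_mul, map_mul, map_inv, hσx14, hσx14, hσn, hφu1, hφu2] at h1
      exact mul_left_cancel (mul_right_cancel (mul_right_cancel h1))
    obtain ⟨a', b', hb', ha', hh2eq⟩ := d4_fixedH_param φ hh2D hσh2
    obtain ⟨a₀, ha₀⟩ := hφfix (a' : L) (congrArg (fun u : Lˣ => (u : L)) ha')
    have hb'v : φ (b' : L) = b' := congrArg (fun u : Lˣ => (u : L)) hb'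
    obtain ⟨b₀, hb₀⟩ := hφfix (b' : L) (by rw [hb'v, hb'v, hb'v])
    have ha₀0 : a₀ ≠ 0 := by
      intro h
      rw [h, map_zero] at ha₀
      exact a'.ne_zero ha₀.symm
    have hb₀0 : b₀ ≠ 0 := by
      intro h
      rw [h, map_zero] at hb₀
      exact b'.ne_zero hb₀.symm
    have hb₀f : f b₀ = b₀ := by
      apply ι.injective
      rw [← hφι', hb₀, hb'v]
    set A₀ : Kˣ := Units.mk0 a₀ ha₀0 with hA₀
    set B₀ : Kˣ := Units.mk0 b₀ hb₀0 with hB₀
    set hK₀ : GL chevD4.Idx K := torusHom chevD4 K (d4Z A₀ B₀ (Units.map (f : K →* K) A₀)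
      (Units.map (f : K →* K) (Units.map (f : K →* K) A₀))) with hhK₀
    have hh2ι : glMap chevD4 ι hK₀ = h2 := by
      rw [hh2eq, hhK₀, glMap_torusHom, d4Z_map]
      have q1 : Units.map (ι : K →* L) A₀ = a' := Units.ext ha₀
      have q2 : Units.map (ι : K →* L) B₀ = b' := Units.ext hb₀
      have q3 : Units.map (ι : K →* L) (Units.map (f : K →* K) A₀) =
          Units.map (φ : L →* L) a' := by
        apply Units.ext
        show ι (f a₀) = φ (a' : L)
        rw [← hφι', ha₀]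
      have q4 : Units.map (ι : K →* L) (Units.map (f : K →* K) (Units.map (f : K →* K) A₀)) =
          Units.map (φ : L →* L) (Units.map (φ : L →* L) a') := by
        apply Units.ext
        show ι (f (f a₀)) = φ (φ (a' : L))
        rw [← hφι', ← hφι', ha₀]
      rw [q1, q2, q3, q4]
    have hK₀mem : hK₀ ∈ twistedD4 K q := by
      rw [twistedD4_eq f hfM hf]
      refine Subgroup.mem_inf.mpr ⟨?_, ?_⟩
      · apply Cfsg.Agent.Helper36.diagonalSubgroup_le_group (d4R K).xadd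
        rw [d4_hH, ← range_torusHom]
        exact ⟨_, rfl⟩
      · show d4Sig f hK₀ = hK₀
        have hF3 : Units.map (f : K →* K) (Units.map (f : K →* K) (Units.map (f : K →* K) A₀)) =
            A₀ := Units.ext (hfM a₀)
        have hFB : Units.map (f : K →* K) B₀ = B₀ := Units.ext hb₀f
        rw [hhK₀, twSig_torusHom d4_hinv f twTab_D4a, d4_twZ, hF3, hFB]
    have hx14mem : ∀ y : K, y ^ q = y → xGL (d4R K).xadd 14 y ∈ twistedD4 K q := by
      intro y hy
      refine Subgroup.subset_closure ⟨[(14, y)], ?_, ?_⟩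
      · exact Or.inl ⟨y, hy, d4p2, by simp, rfl⟩
      · rw [xGL_val, wordMat_cons', wordMat_nil', mul_one]
    have hx9mem : ∀ y : K, y ^ q = y → xGL (d4R K).xadd 9 y ∈ twistedD4 K q := by
      intro y hy
      refine Subgroup.subset_closure ⟨[(9, y)], ?_, ?_⟩
      · exact Or.inl ⟨y, hy, d4m2, by simp, rfl⟩
      · rw [xGL_val, wordMat_cons', wordMat_nil', mul_one]
    have hnmem : nGL (d4R K).xadd 14 (-1) ∈ twistedD4 K q := by
      obtain ⟨-, -, -, neg14K, -, -, -, -⟩ := d4_negs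
      rw [nGL_eq, neg14K]
      have hm1 : (-1 : K) ^ q = -1 := by rw [← hf, map_neg, map_one]
      have hm2 : (-(-1 : K)⁻¹) ^ q = -(-1 : K)⁻¹ := by
        rw [← hf, map_neg, map_inv₀, map_neg, map_one]
      exact mul_mem (mul_mem (hx14mem _ hm1) (hx9mem _ hm2)) (hx14mem _ hm1)
    set g₀ : GL chevD4.Idx K := xGL (d4R K).xadd 14 y1 * hK₀ * (nGL (d4R K).xadd 14 (-1))⁻¹ *
      xGL (d4R K).xadd 14 y2 with hg₀def
    have hg₀ : g₀ ∈ twistedD4 K q :=
      mul_mem (mul_mem (mul_mem (hx14mem y1 hy1q) hK₀mem) (inv_mem hnmem)) (hx14mem y2 hy2q)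
    have hg₀ι : glMap chevD4 ι g₀ = P * h₀ * P⁻¹ := by
      rw [hg_eq, hg₀def, map_mul, map_mul, map_mul, map_inv,
        glMap_xGL_of ι (d4R K).xadd (d4R L).xadd, glMap_xGL_of ι (d4R K).xadd (d4R L).xadd,
        glMap_nGL_of ι (d4R K).xadd (d4R L).xadd, hy1, hy2, hh2ι, map_neg, map_one]
    have hconj_s : conjHom ⟨g₀, hg₀⟩ = h₀ := by
      rw [hconj]
      show P⁻¹ * glMap chevD4 ι g₀ * P = h₀
      rw [hg₀ι]
      group
    have hsC : (⟨g₀, hg₀⟩ : ↥(twistedD4 K q)) ∈ C := by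
      show conjHom ⟨g₀, hg₀⟩ ∈ torus chevD4 L
      rw [hconj_s]
      exact hh₀T
    refine ⟨⟨⟨g₀, hg₀⟩, hsC⟩, ?_, ?_⟩
    · have e2 : χc ⟨⟨g₀, hg₀⟩, hsC⟩ 18 = torusChar chevD4 (extOne z₀) 18 := by
        refine charDiag_inj' chevD4 (χ := χc ⟨⟨g₀, hg₀⟩, hsC⟩)
          (χ' := torusChar chevD4 (extOne z₀)) ?_ 18 (by decide)
        rw [← hχval, ← hT4val]
        exact congrArg (fun x : GL chevD4.Idx L => (x : Matrix chevD4.Idx chevD4.Idx L)) hconj_s
      show orderOf (χc ⟨⟨g₀, hg₀⟩, hsC⟩ 18) = _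
      rw [e2, hA]
      exact hord
    · intro g hgs
      show conjHom g ∈ torus chevD4 L
      rw [← hH]
      have hcc : h₀ * conjHom g * h₀⁻¹ = conjHom g := by
        have h1 : conjHom g * h₀ = h₀ * conjHom g := by
          rw [← hconj_s, ← map_mul, ← map_mul]
          exact congrArg conjHom hgs
        rw [← h1]
        group
      have hgG : conjHom g ∈ chevD4.group L := by
        rw [hconj]
        exact mul_mem (mul_mem (inv_mem hPG) (glMap_group ι (hle g.2))) hPG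
      refine cent_torus_of_stab d4_mem (hT4val z₀) ?_ ?_ hgG hcc
      · intro W hW h s hs
        refine hstab W hW ?_ s hs
        intro s hs
        rw [← d4_chi_eq, ← d4_chi_eq]
        exact h s hs
      · intro r hr
        rw [d4_chi_eq]
        exact hne r hr

end Cfsg.Agent.Helper18
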