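import Mathlib
import Cfsg.Prelude.Def_GeometricClasses
import Cfsg.Prelude.Def_Classical
import Cfsg.Agent.Helper98.ELPDefs

set_option autoImplicit false

/-!
# Sub-CALL ELP (helper98), piece SIEGISO (helper18): the Siegel element is an isometry of `qp`.
-/

namespace Cfsg.Agent.Helper18.ELP

open Matrix Cfsg.Agent.Helper98.ELP
open scoped MatrixGroups

variable {n : Type} [Fintype n] [DecidableEq n] {F : Type*} [Field F]

/-- (APP, local copy) the action of the Siegel matrix on the first block. -/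
theorem iso_app_inl (T : Matrix n n F) (v : n ⊕ n → F) (i : n) :
    (siegM T *ᵥ v) (.inl i) = v (.inl i) + ((T - Tᵀ) *ᵥ (fun j => v (.inr j))) i := by
  unfold siegM
  rw [Matrix.fromBlocks_mulVec]
  simp only [Sum.elim_inl, Pi.add_apply, Matrix.one_mulVec, Function.comp_apply]
  rfl

/-- (APP, local copy) the action of the Siegel matrix on the second block. -/
theorem iso_app_inr (T : Matrix n n F) (v : n ⊕ n → F) (i : n) :
    (siegM T *ᵥ v) (.inr i) = v (.inr i) := by
  unfold siegM
  rw [Matrix.fromBlocks_mulVec]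
  simp only [Sum.elim_inr, Pi.add_apply, Matrix.one_mulVec, Matrix.zero_mulVec, Function.comp_apply,
    Pi.zero_apply, zero_add]

/-- SIEGISO: the Siegel element is an isometry of `qp`. -/
theorem sieg_mem_iso (T : Matrix n n F) : sieg T ∈ Cfsg.isometryGroup F (qp n F) := by
  intro u _
  show qp n F (siegM T *ᵥ u) = qp n F u
  unfold qp
  have h1 : ∀ i : n, (siegM T *ᵥ u) (.inl i) * (siegM T *ᵥ u) (.inr i) =
      u (.inl i) * u (.inr i) + ((T - Tᵀ) *ᵥ (fun j => u (.inr j))) i * u (.inr i) := by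
    intro i
    rw [iso_app_inl, iso_app_inr, add_mul]
  rw [Finset.sum_congr rfl (fun i _ => h1 i), Finset.sum_add_distrib]
  have h2 : ∑ i : n, ((T - Tᵀ) *ᵥ (fun j => u (.inr j))) i * u (.inr i) = 0 := by
    have e : ∑ i : n, ((T - Tᵀ) *ᵥ (fun j => u (.inr j))) i * u (.inr i) =
        ((T - Tᵀ) *ᵥ (fun j => u (.inr j))) ⬝ᵥ (fun j => u (.inr j)) := rfl
    rw [e, Matrix.sub_mulVec, sub_dotProduct, Matrix.mulVec_transpose, ← Matrix.dotProduct_mulVec,
      dotProduct_comm (fun j => u (.inr j)), sub_self]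
  rw [h2, add_zero]

end Cfsg.Agent.Helper18.ELP
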