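import Mathlib
import Cfsg.Prelude.Def_GeometricClasses
import Cfsg.Prelude.Def_Classical
import Cfsg.Agent.Helper98.ELPDefs
import Cfsg.Agent.Helper18.ELPSIEGISO

set_option autoImplicit false

/-!
# Sub-CALL ELP (helper98), piece FIX (helper18): the fixed vectors of the Siegel element of `t0` killed by
one functional lie in `U` (with a local copy of piece T0KER).
-/

namespace Cfsg.Agent.Helper18.ELP

open Matrix Cfsg.Agent.Helper98.ELP
open scoped MatrixGroups

variable {n : Type} [Fintype n] [DecidableEq n] {F : Type*} [Field F]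

/-- (T0KER, local copy) `t0 - t0ᵀ` kills only vectors vanishing on the first `2 (d / 2)` coordinates. -/
theorem fix_t0_ker (d : ℕ) (u : Fin d → F) (h : (t0 d F - (t0 d F)ᵀ) *ᵥ u = 0) (b : Fin d)
    (hb : (b : ℕ) < 2 * (d / 2)) : u b = 0 := by
  by_cases hlt : (b : ℕ) < d / 2
  · have ha' : (b : ℕ) + d / 2 < d := by omega
    have hrow := congrFun h ⟨(b : ℕ) + d / 2, ha'⟩
    simp only [Matrix.mulVec, dotProduct, Matrix.sub_apply, Matrix.transpose_apply,
      Pi.zero_apply] at hrow
    have hterm : ∀ c : Fin d, (t0 d F ⟨(b : ℕ) + d / 2, ha'⟩ c - t0 d F c ⟨(b : ℕ) + d / 2, ha'⟩) * u c =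
        if c = b then - u b else 0 := by
      intro c
      simp only [t0]
      have h1 : ¬ ((b : ℕ) + d / 2 < d / 2 ∧ (b : ℕ) + d / 2 + d / 2 = (c : ℕ)) := by omega
      rw [if_neg h1]
      by_cases hc : c = b
      · subst hc
        rw [if_pos ⟨hlt, rfl⟩, if_pos rfl]
        ring
      · have h2 : ¬ ((c : ℕ) < d / 2 ∧ (c : ℕ) + d / 2 = (b : ℕ) + d / 2) := by
          rintro ⟨_, h3⟩
          exact hc (Fin.ext (by omega))
        rw [if_neg h2, if_neg hc]
        ring
    rw [Finset.sum_congr rfl (fun c _ => hterm c), Finset.sum_ite_eq' Finset.univ b (fun _ => - u b),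
      if_pos (Finset.mem_univ b)] at hrow
    exact neg_eq_zero.mp hrow
  · have ha' : (b : ℕ) - d / 2 < d := by have := b.2; omega
    have hrow := congrFun h ⟨(b : ℕ) - d / 2, ha'⟩
    simp only [Matrix.mulVec, dotProduct, Matrix.sub_apply, Matrix.transpose_apply,
      Pi.zero_apply] at hrow
    have hterm : ∀ c : Fin d, (t0 d F ⟨(b : ℕ) - d / 2, ha'⟩ c - t0 d F c ⟨(b : ℕ) - d / 2, ha'⟩) * u c =
        if c = b then u b else 0 := by
      intro c
      simp only [t0]
      have h1 : ¬ ((c : ℕ) < d / 2 ∧ (c : ℕ) + d / 2 = (b : ℕ) - d / 2) := by omega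
      rw [if_neg h1]
      by_cases hc : c = b
      · subst hc
        rw [if_pos ⟨by omega, by omega⟩, if_pos rfl]
        ring
      · have h2 : ¬ ((b : ℕ) - d / 2 < d / 2 ∧ (b : ℕ) - d / 2 + d / 2 = (c : ℕ)) := by
          rintro ⟨_, h3⟩
          exact hc (Fin.ext (by omega))
        rw [if_neg h2, if_neg hc]
        ring
    rw [Finset.sum_congr rfl (fun c _ => hterm c), Finset.sum_ite_eq' Finset.univ b (fun _ => u b),
      if_pos (Finset.mem_univ b)] at hrow
    exact hrow

/-- FIX: the fixed vectors of the Siegel element of `t0` killed by the functional `φ` lie in `U`. -/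
theorem t0_fix (d : ℕ) : ∃ φ : (Fin d ⊕ Fin d → F) →ₗ[F] F, ∀ v : Fin d ⊕ Fin d → F,
    siegM (t0 d F) *ᵥ v = v → φ v = 0 → v ∈ subU (Fin d) F := by
  refine ⟨∑ b : Fin d, if (b : ℕ) = 2 * (d / 2) then LinearMap.proj (Sum.inr b) else 0, ?_⟩
  intro v hv hφ
  rw [mem_subU]
  intro b
  have hker : (t0 d F - (t0 d F)ᵀ) *ᵥ (fun j => v (.inr j)) = 0 := by
    funext i
    have h := congrFun hv (.inl i)
    rw [iso_app_inl] at h
    have h' : v (.inl i) + ((t0 d F - (t0 d F)ᵀ) *ᵥ fun j => v (.inr j)) i = v (.inl i) + 0 := by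
      rw [h, add_zero]
    exact add_left_cancel h'
  by_cases hb : (b : ℕ) < 2 * (d / 2)
  · exact fix_t0_ker d (fun j => v (.inr j)) hker b hb
  · have hb2 : (b : ℕ) = 2 * (d / 2) := by
      have := b.2
      omega
    have e : (∑ c : Fin d, if (c : ℕ) = 2 * (d / 2) then LinearMap.proj (Sum.inr c)
        else (0 : (Fin d ⊕ Fin d → F) →ₗ[F] F)) v = v (.inr b) := by
      rw [LinearMap.sum_apply, Finset.sum_eq_single b]
      · rw [if_pos hb2]
        rfl
      · intro c _ hc
        have hc' : ¬ ((c : ℕ) = 2 * (d / 2)) := fun h => hc (Fin.ext (by omega))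
        rw [if_neg hc']
        rfl
      · intro h
        exact absurd (Finset.mem_univ b) h
    rw [← e]
    exact hφ

end Cfsg.Agent.Helper18.ELP
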