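/-
helper18: the instances for the Chevalley datum of type F4 of the lowering lemma (`lower_simple`) and of the
cocycle lemma in characteristic two (`invol_cocycle`), for the Levi subsystems used in the classification of
the involutions of F4(q), q even (helper38's S2174).  `P` is the list of the positive roots of the subsystem of
`J` (0-based fundamental indices), `Fix` the roots of `P` orthogonal to the fundamental root `p_j`.
-/
import Cfsg.Agent.Helper18.RSubCoc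

set_option autoImplicit false

namespace Cfsg.Agent.Helper18.RSub

open Cfsg Cfsg.Lie Cfsg.Agent.Helper17 Cfsg.Agent.Helper36 Cfsg.Agent.Helper18

section generic

variable {D : ChevalleyDatum} {F : Type*} [Field F] {η : ℕ → ℕ → ℤ} {f : ℕ → ℤ}

/-- `lower_simple`, with `P.erase p_j` for the roots other than `p_j`. -/
theorem lower_erase (R : BRel D F η) (hW : WtFacts D f) (hE : RootElts D F) (P J : List ℕ)
    (hA : LowOK D P J) :
    ∀ u ∈ rootsSubgroup D F P, u ≠ 1 →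
      ∃ L : List ℕ, (∀ i ∈ L, i ∈ J) ∧ ∃ j ∈ J, ∃ a : F, a ≠ 0 ∧
        ∃ u1 ∈ rootsSubgroup D F (P.erase (D.simple j)),
          R.nW L * u * (R.nW L)⁻¹ = xGL R.xadd (D.simple j) a * u1 := by
  intro u hu hu1
  obtain ⟨w, j, a, u1, hw, hj, ha, hu1m, e⟩ := lower_simple R hW hE P J hA hu hu1
  refine ⟨w, hw, j, hj, a, ha, u1, rootsSubgroup_mono ?_ hu1m, e⟩
  intro r hr
  rw [List.mem_filter, decide_eq_true_eq] at hr
  exact (List.mem_erase_of_ne hr.2).mpr hr.1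

/-- `invol_cocycle`, with `P.erase p_j` for the roots other than `p_j`. -/
theorem cocycle_erase [CharP F 2] (R : BRel D F η) (hW : WtFacts D f) (hE : RootElts D F)
    (P : List ℕ) (j : ℕ) (Fix : List ℕ) (S : List (ℕ × ℕ)) (hp : D.IsPosRoot (D.simple j))
    (hS : StrOK D (D.simple j) Fix S)
    (h1 : ∀ r ∈ P.erase (D.simple j), r ∈ Fix ++ strRoots S)
    (h2 : ∀ r ∈ Fix ++ strRoots S, r ∈ P.erase (D.simple j)) :
    ∀ a : F, a ≠ 0 → ∀ u1 ∈ rootsSubgroup D F (P.erase (D.simple j)),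
      (xGL R.xadd (D.simple j) a * u1) * (xGL R.xadd (D.simple j) a * u1) = 1 →
      ∃ v ∈ rootsSubgroup D F (P.erase (D.simple j)), ∃ u2 ∈ rootsSubgroup D F Fix,
        v * (xGL R.xadd (D.simple j) a * u1) * v⁻¹ = xGL R.xadd (D.simple j) a * u2 := by
  intro a ha u1 hu1 hinv
  obtain ⟨v, hv, u2, hu2, e⟩ := invol_cocycle R hW hE (D.simple j) Fix S hp hS a ha u1
    (rootsSubgroup_mono h1 hu1) hinv
  exact ⟨v, rootsSubgroup_mono h2 hv, u2, hu2, e⟩

end generic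

theorem f4_mem : chevF4 ∈ [chevG2, chevB2, chevD4, chevF4, chevE6, chevE7, chevE8] := by simp

variable {F : Type*} [Field F] {η : ℕ → ℕ → ℤ}

/-! ### `J = [0, 1, 2, 3]` -/

set_option maxRecDepth 100000 in
theorem f4LowOK_0123 : LowOK chevF4 [24, 25, 26, 27, 28, 29, 30, 31, 32, 33, 34, 35, 36, 37, 38, 39, 40, 41, 42, 43, 44, 45, 46, 47] [0, 1, 2, 3] := by
  decide +kernel

theorem f4Low_0123 (R : BRel chevF4 F η) :
    ∀ u ∈ rootsSubgroup chevF4 F [24, 25, 26, 27, 28, 29, 30, 31, 32, 33, 34, 35, 36, 37, 38, 39, 40, 41, 42, 43, 44, 45, 46, 47], u ≠ 1 →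
      ∃ L : List ℕ, (∀ i ∈ L, i ∈ [0, 1, 2, 3]) ∧ ∃ j ∈ [0, 1, 2, 3], ∃ a : F, a ≠ 0 ∧
        ∃ u1 ∈ rootsSubgroup chevF4 F (([24, 25, 26, 27, 28, 29, 30, 31, 32, 33, 34, 35, 36, 37, 38, 39, 40, 41, 42, 43, 44, 45, 46, 47] : List ℕ).erase (chevF4.simple j)),
          R.nW L * u * (R.nW L)⁻¹ = xGL R.xadd (chevF4.simple j) a * u1 := by
  obtain ⟨f, hW⟩ := wtFacts_of_mem f4_mem
  exact lower_erase R hW (rootElts_of_mem f4_mem) _ _ f4LowOK_0123

set_option maxRecDepth 100000 in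
theorem f4StrOK_0123_0 : StrOK chevF4 (chevF4.simple 0) [24, 25, 26, 37, 38, 39, 45, 46, 47] [(27, 34), (28, 35), (29, 36), (30, 41), (31, 42), (32, 43), (40, 44)] := by
  decide +kernel

theorem f4Coc_0123_0 [CharP F 2] (R : BRel chevF4 F η) :
    ∀ a : F, a ≠ 0 → ∀ u1 ∈ rootsSubgroup chevF4 F (([24, 25, 26, 27, 28, 29, 30, 31, 32, 33, 34, 35, 36, 37, 38, 39, 40, 41, 42, 43, 44, 45, 46, 47] : List ℕ).erase (chevF4.simple 0)),
      (xGL R.xadd (chevF4.simple 0) a * u1) * (xGL R.xadd (chevF4.simple 0) a * u1) = 1 →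
      ∃ v ∈ rootsSubgroup chevF4 F (([24, 25, 26, 27, 28, 29, 30, 31, 32, 33, 34, 35, 36, 37, 38, 39, 40, 41, 42, 43, 44, 45, 46, 47] : List ℕ).erase (chevF4.simple 0)),
        ∃ u2 ∈ rootsSubgroup chevF4 F [24, 25, 26, 37, 38, 39, 45, 46, 47],
        v * (xGL R.xadd (chevF4.simple 0) a * u1) * v⁻¹ = xGL R.xadd (chevF4.simple 0) a * u2 := by
  obtain ⟨f, hW⟩ := wtFacts_of_mem f4_mem
  exact cocycle_erase R hW (rootElts_of_mem f4_mem) _ 0 _ [(27, 34), (28, 35), (29, 36), (30, 41), (31, 42), (32, 43), (40, 44)] (by decide) f4StrOK_0123_0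
    (by decide) (by decide)

set_option maxRecDepth 100000 in
theorem f4StrOK_0123_1 : StrOK chevF4 (chevF4.simple 1) [24, 28, 29, 32, 41, 42, 44, 46, 47] [(25, 30), (26, 31), (33, 34), (35, 37), (36, 38), (39, 40), (43, 45)] := by
  decide +kernel

theorem f4Coc_0123_1 [CharP F 2] (R : BRel chevF4 F η) :
    ∀ a : F, a ≠ 0 → ∀ u1 ∈ rootsSubgroup chevF4 F (([24, 25, 26, 27, 28, 29, 30, 31, 32, 33, 34, 35, 36, 37, 38, 39, 40, 41, 42, 43, 44, 45, 46, 47] : List ℕ).erase (chevF4.simple 1)),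
      (xGL R.xadd (chevF4.simple 1) a * u1) * (xGL R.xadd (chevF4.simple 1) a * u1) = 1 →
      ∃ v ∈ rootsSubgroup chevF4 F (([24, 25, 26, 27, 28, 29, 30, 31, 32, 33, 34, 35, 36, 37, 38, 39, 40, 41, 42, 43, 44, 45, 46, 47] : List ℕ).erase (chevF4.simple 1)),
        ∃ u2 ∈ rootsSubgroup chevF4 F [24, 28, 29, 32, 41, 42, 44, 46, 47],
        v * (xGL R.xadd (chevF4.simple 1) a * u1) * v⁻¹ = xGL R.xadd (chevF4.simple 1) a * u2 := by
  obtain ⟨f, hW⟩ := wtFacts_of_mem f4_mem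
  exact cocycle_erase R hW (rootElts_of_mem f4_mem) _ 1 _ [(25, 30), (26, 31), (33, 34), (35, 37), (36, 38), (39, 40), (43, 45)] (by decide) f4StrOK_0123_1
    (by decide) (by decide)

set_option maxRecDepth 100000 in
theorem f4StrOK_0123_2 : StrOK chevF4 (chevF4.simple 2) [29, 30, 33, 36, 37, 40, 41, 44, 47] [(24, 26), (27, 28), (31, 32), (34, 35), (38, 39), (42, 43), (45, 46)] := by
  decide +kernel

theorem f4Coc_0123_2 [CharP F 2] (R : BRel chevF4 F η) :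
    ∀ a : F, a ≠ 0 → ∀ u1 ∈ rootsSubgroup chevF4 F (([24, 25, 26, 27, 28, 29, 30, 31, 32, 33, 34, 35, 36, 37, 38, 39, 40, 41, 42, 43, 44, 45, 46, 47] : List ℕ).erase (chevF4.simple 2)),
      (xGL R.xadd (chevF4.simple 2) a * u1) * (xGL R.xadd (chevF4.simple 2) a * u1) = 1 →
      ∃ v ∈ rootsSubgroup chevF4 F (([24, 25, 26, 27, 28, 29, 30, 31, 32, 33, 34, 35, 36, 37, 38, 39, 40, 41, 42, 43, 44, 45, 46, 47] : List ℕ).erase (chevF4.simple 2)),
        ∃ u2 ∈ rootsSubgroup chevF4 F [29, 30, 33, 36, 37, 40, 41, 44, 47],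
        v * (xGL R.xadd (chevF4.simple 2) a * u1) * v⁻¹ = xGL R.xadd (chevF4.simple 2) a * u2 := by
  obtain ⟨f, hW⟩ := wtFacts_of_mem f4_mem
  exact cocycle_erase R hW (rootElts_of_mem f4_mem) _ 2 _ [(24, 26), (27, 28), (31, 32), (34, 35), (38, 39), (42, 43), (45, 46)] (by decide) f4StrOK_0123_2
    (by decide) (by decide)

set_option maxRecDepth 100000 in
theorem f4StrOK_0123_3 : StrOK chevF4 (chevF4.simple 3) [27, 32, 33, 34, 39, 40, 43, 44, 45] [(25, 26), (28, 29), (30, 31), (35, 36), (37, 38), (41, 42), (46, 47)] := by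
  decide +kernel

theorem f4Coc_0123_3 [CharP F 2] (R : BRel chevF4 F η) :
    ∀ a : F, a ≠ 0 → ∀ u1 ∈ rootsSubgroup chevF4 F (([24, 25, 26, 27, 28, 29, 30, 31, 32, 33, 34, 35, 36, 37, 38, 39, 40, 41, 42, 43, 44, 45, 46, 47] : List ℕ).erase (chevF4.simple 3)),
      (xGL R.xadd (chevF4.simple 3) a * u1) * (xGL R.xadd (chevF4.simple 3) a * u1) = 1 →
      ∃ v ∈ rootsSubgroup chevF4 F (([24, 25, 26, 27, 28, 29, 30, 31, 32, 33, 34, 35, 36, 37, 38, 39, 40, 41, 42, 43, 44, 45, 46, 47] : List ℕ).erase (chevF4.simple 3)),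
        ∃ u2 ∈ rootsSubgroup chevF4 F [27, 32, 33, 34, 39, 40, 43, 44, 45],
        v * (xGL R.xadd (chevF4.simple 3) a * u1) * v⁻¹ = xGL R.xadd (chevF4.simple 3) a * u2 := by
  obtain ⟨f, hW⟩ := wtFacts_of_mem f4_mem
  exact cocycle_erase R hW (rootElts_of_mem f4_mem) _ 3 _ [(25, 26), (28, 29), (30, 31), (35, 36), (37, 38), (41, 42), (46, 47)] (by decide) f4StrOK_0123_3
    (by decide) (by decide)

/-! ### `J = [0, 1, 2]` -/

set_option maxRecDepth 100000 in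
theorem f4LowOK_012 : LowOK chevF4 [25, 27, 28, 30, 33, 34, 35, 37, 41] [0, 1, 2] := by
  decide +kernel

theorem f4Low_012 (R : BRel chevF4 F η) :
    ∀ u ∈ rootsSubgroup chevF4 F [25, 27, 28, 30, 33, 34, 35, 37, 41], u ≠ 1 →
      ∃ L : List ℕ, (∀ i ∈ L, i ∈ [0, 1, 2]) ∧ ∃ j ∈ [0, 1, 2], ∃ a : F, a ≠ 0 ∧
        ∃ u1 ∈ rootsSubgroup chevF4 F (([25, 27, 28, 30, 33, 34, 35, 37, 41] : List ℕ).erase (chevF4.simple j)),
          R.nW L * u * (R.nW L)⁻¹ = xGL R.xadd (chevF4.simple j) a * u1 := by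
  obtain ⟨f, hW⟩ := wtFacts_of_mem f4_mem
  exact lower_erase R hW (rootElts_of_mem f4_mem) _ _ f4LowOK_012

set_option maxRecDepth 100000 in
theorem f4StrOK_012_0 : StrOK chevF4 (chevF4.simple 0) [25, 37] [(27, 34), (28, 35), (30, 41)] := by
  decide +kernel

theorem f4Coc_012_0 [CharP F 2] (R : BRel chevF4 F η) :
    ∀ a : F, a ≠ 0 → ∀ u1 ∈ rootsSubgroup chevF4 F (([25, 27, 28, 30, 33, 34, 35, 37, 41] : List ℕ).erase (chevF4.simple 0)),
      (xGL R.xadd (chevF4.simple 0) a * u1) * (xGL R.xadd (chevF4.simple 0) a * u1) = 1 →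
      ∃ v ∈ rootsSubgroup chevF4 F (([25, 27, 28, 30, 33, 34, 35, 37, 41] : List ℕ).erase (chevF4.simple 0)),
        ∃ u2 ∈ rootsSubgroup chevF4 F [25, 37],
        v * (xGL R.xadd (chevF4.simple 0) a * u1) * v⁻¹ = xGL R.xadd (chevF4.simple 0) a * u2 := by
  obtain ⟨f, hW⟩ := wtFacts_of_mem f4_mem
  exact cocycle_erase R hW (rootElts_of_mem f4_mem) _ 0 _ [(27, 34), (28, 35), (30, 41)] (by decide) f4StrOK_012_0
    (by decide) (by decide)

set_option maxRecDepth 100000 in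
theorem f4StrOK_012_1 : StrOK chevF4 (chevF4.simple 1) [28, 41] [(25, 30), (33, 34), (35, 37)] := by
  decide +kernel

theorem f4Coc_012_1 [CharP F 2] (R : BRel chevF4 F η) :
    ∀ a : F, a ≠ 0 → ∀ u1 ∈ rootsSubgroup chevF4 F (([25, 27, 28, 30, 33, 34, 35, 37, 41] : List ℕ).erase (chevF4.simple 1)),
      (xGL R.xadd (chevF4.simple 1) a * u1) * (xGL R.xadd (chevF4.simple 1) a * u1) = 1 →
      ∃ v ∈ rootsSubgroup chevF4 F (([25, 27, 28, 30, 33, 34, 35, 37, 41] : List ℕ).erase (chevF4.simple 1)),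
        ∃ u2 ∈ rootsSubgroup chevF4 F [28, 41],
        v * (xGL R.xadd (chevF4.simple 1) a * u1) * v⁻¹ = xGL R.xadd (chevF4.simple 1) a * u2 := by
  obtain ⟨f, hW⟩ := wtFacts_of_mem f4_mem
  exact cocycle_erase R hW (rootElts_of_mem f4_mem) _ 1 _ [(25, 30), (33, 34), (35, 37)] (by decide) f4StrOK_012_1
    (by decide) (by decide)

set_option maxRecDepth 100000 in
theorem f4StrOK_012_2 : StrOK chevF4 (chevF4.simple 2) [30, 33, 37, 41] [(27, 28), (34, 35)] := by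
  decide +kernel

theorem f4Coc_012_2 [CharP F 2] (R : BRel chevF4 F η) :
    ∀ a : F, a ≠ 0 → ∀ u1 ∈ rootsSubgroup chevF4 F (([25, 27, 28, 30, 33, 34, 35, 37, 41] : List ℕ).erase (chevF4.simple 2)),
      (xGL R.xadd (chevF4.simple 2) a * u1) * (xGL R.xadd (chevF4.simple 2) a * u1) = 1 →
      ∃ v ∈ rootsSubgroup chevF4 F (([25, 27, 28, 30, 33, 34, 35, 37, 41] : List ℕ).erase (chevF4.simple 2)),
        ∃ u2 ∈ rootsSubgroup chevF4 F [30, 33, 37, 41],
        v * (xGL R.xadd (chevF4.simple 2) a * u1) * v⁻¹ = xGL R.xadd (chevF4.simple 2) a * u2 := by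
  obtain ⟨f, hW⟩ := wtFacts_of_mem f4_mem
  exact cocycle_erase R hW (rootElts_of_mem f4_mem) _ 2 _ [(27, 28), (34, 35)] (by decide) f4StrOK_012_2
    (by decide) (by decide)

/-! ### `J = [1, 2, 3]` -/

set_option maxRecDepth 100000 in
theorem f4LowOK_123 : LowOK chevF4 [24, 25, 26, 27, 28, 29, 30, 31, 32] [1, 2, 3] := by
  decide +kernel

theorem f4Low_123 (R : BRel chevF4 F η) :
    ∀ u ∈ rootsSubgroup chevF4 F [24, 25, 26, 27, 28, 29, 30, 31, 32], u ≠ 1 →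
      ∃ L : List ℕ, (∀ i ∈ L, i ∈ [1, 2, 3]) ∧ ∃ j ∈ [1, 2, 3], ∃ a : F, a ≠ 0 ∧
        ∃ u1 ∈ rootsSubgroup chevF4 F (([24, 25, 26, 27, 28, 29, 30, 31, 32] : List ℕ).erase (chevF4.simple j)),
          R.nW L * u * (R.nW L)⁻¹ = xGL R.xadd (chevF4.simple j) a * u1 := by
  obtain ⟨f, hW⟩ := wtFacts_of_mem f4_mem
  exact lower_erase R hW (rootElts_of_mem f4_mem) _ _ f4LowOK_123

set_option maxRecDepth 100000 in
theorem f4StrOK_123_1 : StrOK chevF4 (chevF4.simple 1) [24, 28, 29, 32] [(25, 30), (26, 31)] := by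
  decide +kernel

theorem f4Coc_123_1 [CharP F 2] (R : BRel chevF4 F η) :
    ∀ a : F, a ≠ 0 → ∀ u1 ∈ rootsSubgroup chevF4 F (([24, 25, 26, 27, 28, 29, 30, 31, 32] : List ℕ).erase (chevF4.simple 1)),
      (xGL R.xadd (chevF4.simple 1) a * u1) * (xGL R.xadd (chevF4.simple 1) a * u1) = 1 →
      ∃ v ∈ rootsSubgroup chevF4 F (([24, 25, 26, 27, 28, 29, 30, 31, 32] : List ℕ).erase (chevF4.simple 1)),
        ∃ u2 ∈ rootsSubgroup chevF4 F [24, 28, 29, 32],
        v * (xGL R.xadd (chevF4.simple 1) a * u1) * v⁻¹ = xGL R.xadd (chevF4.simple 1) a * u2 := by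
  obtain ⟨f, hW⟩ := wtFacts_of_mem f4_mem
  exact cocycle_erase R hW (rootElts_of_mem f4_mem) _ 1 _ [(25, 30), (26, 31)] (by decide) f4StrOK_123_1
    (by decide) (by decide)

set_option maxRecDepth 100000 in
theorem f4StrOK_123_2 : StrOK chevF4 (chevF4.simple 2) [29, 30] [(24, 26), (27, 28), (31, 32)] := by
  decide +kernel

theorem f4Coc_123_2 [CharP F 2] (R : BRel chevF4 F η) :
    ∀ a : F, a ≠ 0 → ∀ u1 ∈ rootsSubgroup chevF4 F (([24, 25, 26, 27, 28, 29, 30, 31, 32] : List ℕ).erase (chevF4.simple 2)),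
      (xGL R.xadd (chevF4.simple 2) a * u1) * (xGL R.xadd (chevF4.simple 2) a * u1) = 1 →
      ∃ v ∈ rootsSubgroup chevF4 F (([24, 25, 26, 27, 28, 29, 30, 31, 32] : List ℕ).erase (chevF4.simple 2)),
        ∃ u2 ∈ rootsSubgroup chevF4 F [29, 30],
        v * (xGL R.xadd (chevF4.simple 2) a * u1) * v⁻¹ = xGL R.xadd (chevF4.simple 2) a * u2 := by
  obtain ⟨f, hW⟩ := wtFacts_of_mem f4_mem
  exact cocycle_erase R hW (rootElts_of_mem f4_mem) _ 2 _ [(24, 26), (27, 28), (31, 32)] (by decide) f4StrOK_123_2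
    (by decide) (by decide)

set_option maxRecDepth 100000 in
theorem f4StrOK_123_3 : StrOK chevF4 (chevF4.simple 3) [27, 32] [(25, 26), (28, 29), (30, 31)] := by
  decide +kernel

theorem f4Coc_123_3 [CharP F 2] (R : BRel chevF4 F η) :
    ∀ a : F, a ≠ 0 → ∀ u1 ∈ rootsSubgroup chevF4 F (([24, 25, 26, 27, 28, 29, 30, 31, 32] : List ℕ).erase (chevF4.simple 3)),
      (xGL R.xadd (chevF4.simple 3) a * u1) * (xGL R.xadd (chevF4.simple 3) a * u1) = 1 →
      ∃ v ∈ rootsSubgroup chevF4 F (([24, 25, 26, 27, 28, 29, 30, 31, 32] : List ℕ).erase (chevF4.simple 3)),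
        ∃ u2 ∈ rootsSubgroup chevF4 F [27, 32],
        v * (xGL R.xadd (chevF4.simple 3) a * u1) * v⁻¹ = xGL R.xadd (chevF4.simple 3) a * u2 := by
  obtain ⟨f, hW⟩ := wtFacts_of_mem f4_mem
  exact cocycle_erase R hW (rootElts_of_mem f4_mem) _ 3 _ [(25, 26), (28, 29), (30, 31)] (by decide) f4StrOK_123_3
    (by decide) (by decide)

/-! ### `J = [1, 2]` -/

set_option maxRecDepth 100000 in
theorem f4LowOK_12 : LowOK chevF4 [25, 27, 28, 30] [1, 2] := by
  decide +kernel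

theorem f4Low_12 (R : BRel chevF4 F η) :
    ∀ u ∈ rootsSubgroup chevF4 F [25, 27, 28, 30], u ≠ 1 →
      ∃ L : List ℕ, (∀ i ∈ L, i ∈ [1, 2]) ∧ ∃ j ∈ [1, 2], ∃ a : F, a ≠ 0 ∧
        ∃ u1 ∈ rootsSubgroup chevF4 F (([25, 27, 28, 30] : List ℕ).erase (chevF4.simple j)),
          R.nW L * u * (R.nW L)⁻¹ = xGL R.xadd (chevF4.simple j) a * u1 := by
  obtain ⟨f, hW⟩ := wtFacts_of_mem f4_mem
  exact lower_erase R hW (rootElts_of_mem f4_mem) _ _ f4LowOK_12

set_option maxRecDepth 100000 in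
theorem f4StrOK_12_1 : StrOK chevF4 (chevF4.simple 1) [28] [(25, 30)] := by
  decide +kernel

theorem f4Coc_12_1 [CharP F 2] (R : BRel chevF4 F η) :
    ∀ a : F, a ≠ 0 → ∀ u1 ∈ rootsSubgroup chevF4 F (([25, 27, 28, 30] : List ℕ).erase (chevF4.simple 1)),
      (xGL R.xadd (chevF4.simple 1) a * u1) * (xGL R.xadd (chevF4.simple 1) a * u1) = 1 →
      ∃ v ∈ rootsSubgroup chevF4 F (([25, 27, 28, 30] : List ℕ).erase (chevF4.simple 1)),
        ∃ u2 ∈ rootsSubgroup chevF4 F [28],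
        v * (xGL R.xadd (chevF4.simple 1) a * u1) * v⁻¹ = xGL R.xadd (chevF4.simple 1) a * u2 := by
  obtain ⟨f, hW⟩ := wtFacts_of_mem f4_mem
  exact cocycle_erase R hW (rootElts_of_mem f4_mem) _ 1 _ [(25, 30)] (by decide) f4StrOK_12_1
    (by decide) (by decide)

set_option maxRecDepth 100000 in
theorem f4StrOK_12_2 : StrOK chevF4 (chevF4.simple 2) [30] [(27, 28)] := by
  decide +kernel

theorem f4Coc_12_2 [CharP F 2] (R : BRel chevF4 F η) :
    ∀ a : F, a ≠ 0 → ∀ u1 ∈ rootsSubgroup chevF4 F (([25, 27, 28, 30] : List ℕ).erase (chevF4.simple 2)),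
      (xGL R.xadd (chevF4.simple 2) a * u1) * (xGL R.xadd (chevF4.simple 2) a * u1) = 1 →
      ∃ v ∈ rootsSubgroup chevF4 F (([25, 27, 28, 30] : List ℕ).erase (chevF4.simple 2)),
        ∃ u2 ∈ rootsSubgroup chevF4 F [30],
        v * (xGL R.xadd (chevF4.simple 2) a * u1) * v⁻¹ = xGL R.xadd (chevF4.simple 2) a * u2 := by
  obtain ⟨f, hW⟩ := wtFacts_of_mem f4_mem
  exact cocycle_erase R hW (rootElts_of_mem f4_mem) _ 2 _ [(27, 28)] (by decide) f4StrOK_12_2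
    (by decide) (by decide)

/-! ### `J = [0, 2]` -/

set_option maxRecDepth 100000 in
theorem f4LowOK_02 : LowOK chevF4 [25, 33] [0, 2] := by
  decide +kernel

theorem f4Low_02 (R : BRel chevF4 F η) :
    ∀ u ∈ rootsSubgroup chevF4 F [25, 33], u ≠ 1 →
      ∃ L : List ℕ, (∀ i ∈ L, i ∈ [0, 2]) ∧ ∃ j ∈ [0, 2], ∃ a : F, a ≠ 0 ∧
        ∃ u1 ∈ rootsSubgroup chevF4 F (([25, 33] : List ℕ).erase (chevF4.simple j)),
          R.nW L * u * (R.nW L)⁻¹ = xGL R.xadd (chevF4.simple j) a * u1 := by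
  obtain ⟨f, hW⟩ := wtFacts_of_mem f4_mem
  exact lower_erase R hW (rootElts_of_mem f4_mem) _ _ f4LowOK_02

set_option maxRecDepth 100000 in
theorem f4StrOK_02_0 : StrOK chevF4 (chevF4.simple 0) [25] [] := by
  decide +kernel

theorem f4Coc_02_0 [CharP F 2] (R : BRel chevF4 F η) :
    ∀ a : F, a ≠ 0 → ∀ u1 ∈ rootsSubgroup chevF4 F (([25, 33] : List ℕ).erase (chevF4.simple 0)),
      (xGL R.xadd (chevF4.simple 0) a * u1) * (xGL R.xadd (chevF4.simple 0) a * u1) = 1 →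
      ∃ v ∈ rootsSubgroup chevF4 F (([25, 33] : List ℕ).erase (chevF4.simple 0)),
        ∃ u2 ∈ rootsSubgroup chevF4 F [25],
        v * (xGL R.xadd (chevF4.simple 0) a * u1) * v⁻¹ = xGL R.xadd (chevF4.simple 0) a * u2 := by
  obtain ⟨f, hW⟩ := wtFacts_of_mem f4_mem
  exact cocycle_erase R hW (rootElts_of_mem f4_mem) _ 0 _ [] (by decide) f4StrOK_02_0
    (by decide) (by decide)

set_option maxRecDepth 100000 in
theorem f4StrOK_02_2 : StrOK chevF4 (chevF4.simple 2) [33] [] := by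
  decide +kernel

theorem f4Coc_02_2 [CharP F 2] (R : BRel chevF4 F η) :
    ∀ a : F, a ≠ 0 → ∀ u1 ∈ rootsSubgroup chevF4 F (([25, 33] : List ℕ).erase (chevF4.simple 2)),
      (xGL R.xadd (chevF4.simple 2) a * u1) * (xGL R.xadd (chevF4.simple 2) a * u1) = 1 →
      ∃ v ∈ rootsSubgroup chevF4 F (([25, 33] : List ℕ).erase (chevF4.simple 2)),
        ∃ u2 ∈ rootsSubgroup chevF4 F [33],
        v * (xGL R.xadd (chevF4.simple 2) a * u1) * v⁻¹ = xGL R.xadd (chevF4.simple 2) a * u2 := by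
  obtain ⟨f, hW⟩ := wtFacts_of_mem f4_mem
  exact cocycle_erase R hW (rootElts_of_mem f4_mem) _ 2 _ [] (by decide) f4StrOK_02_2
    (by decide) (by decide)

/-! ### `J = [1, 3]` -/

set_option maxRecDepth 100000 in
theorem f4LowOK_13 : LowOK chevF4 [24, 27] [1, 3] := by
  decide +kernel

theorem f4Low_13 (R : BRel chevF4 F η) :
    ∀ u ∈ rootsSubgroup chevF4 F [24, 27], u ≠ 1 →
      ∃ L : List ℕ, (∀ i ∈ L, i ∈ [1, 3]) ∧ ∃ j ∈ [1, 3], ∃ a : F, a ≠ 0 ∧
        ∃ u1 ∈ rootsSubgroup chevF4 F (([24, 27] : List ℕ).erase (chevF4.simple j)),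
          R.nW L * u * (R.nW L)⁻¹ = xGL R.xadd (chevF4.simple j) a * u1 := by
  obtain ⟨f, hW⟩ := wtFacts_of_mem f4_mem
  exact lower_erase R hW (rootElts_of_mem f4_mem) _ _ f4LowOK_13

set_option maxRecDepth 100000 in
theorem f4StrOK_13_1 : StrOK chevF4 (chevF4.simple 1) [24] [] := by
  decide +kernel

theorem f4Coc_13_1 [CharP F 2] (R : BRel chevF4 F η) :
    ∀ a : F, a ≠ 0 → ∀ u1 ∈ rootsSubgroup chevF4 F (([24, 27] : List ℕ).erase (chevF4.simple 1)),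
      (xGL R.xadd (chevF4.simple 1) a * u1) * (xGL R.xadd (chevF4.simple 1) a * u1) = 1 →
      ∃ v ∈ rootsSubgroup chevF4 F (([24, 27] : List ℕ).erase (chevF4.simple 1)),
        ∃ u2 ∈ rootsSubgroup chevF4 F [24],
        v * (xGL R.xadd (chevF4.simple 1) a * u1) * v⁻¹ = xGL R.xadd (chevF4.simple 1) a * u2 := by
  obtain ⟨f, hW⟩ := wtFacts_of_mem f4_mem
  exact cocycle_erase R hW (rootElts_of_mem f4_mem) _ 1 _ [] (by decide) f4StrOK_13_1
    (by decide) (by decide)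

set_option maxRecDepth 100000 in
theorem f4StrOK_13_3 : StrOK chevF4 (chevF4.simple 3) [27] [] := by
  decide +kernel

theorem f4Coc_13_3 [CharP F 2] (R : BRel chevF4 F η) :
    ∀ a : F, a ≠ 0 → ∀ u1 ∈ rootsSubgroup chevF4 F (([24, 27] : List ℕ).erase (chevF4.simple 3)),
      (xGL R.xadd (chevF4.simple 3) a * u1) * (xGL R.xadd (chevF4.simple 3) a * u1) = 1 →
      ∃ v ∈ rootsSubgroup chevF4 F (([24, 27] : List ℕ).erase (chevF4.simple 3)),
        ∃ u2 ∈ rootsSubgroup chevF4 F [27],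
        v * (xGL R.xadd (chevF4.simple 3) a * u1) * v⁻¹ = xGL R.xadd (chevF4.simple 3) a * u2 := by
  obtain ⟨f, hW⟩ := wtFacts_of_mem f4_mem
  exact cocycle_erase R hW (rootElts_of_mem f4_mem) _ 3 _ [] (by decide) f4StrOK_13_3
    (by decide) (by decide)

end Cfsg.Agent.Helper18.RSub
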