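import Cfsg.Agent.Helper18.D4Tor4
import Cfsg.Prelude.Def_ChevF4

/-!
# Rank one Lang identities and the elements `n_r(c)` in `F₄` (helper18)

Generic lemmas: `lang_of_braid` (the rank one Lang identity from a symbolic check), `Mv` (`N x_β(u) =
x_β'(d u) N`), `mv_of_chk`, the step lemmas `lang_step2`, `lang_step4` for Lang elements built along a
chain of orthogonal roots, `nMat_charDiag_of`.  For `chevF4`: the braid checks for the roots `24`, `27`,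
`45`, `26` (mutually orthogonal, product of reflections of order `8`) and the monomial shape of the
corresponding `n_r(c)`.
-/

set_option autoImplicit false
set_option maxRecDepth 1000000

namespace Cfsg.Agent.Helper18

open Cfsg Cfsg.Lie Cfsg.Agent.Helper36 Cfsg.Agent.Helper17

section

variable {D : ChevalleyDatum} {F : Type*} [Field F]

/-- The rank one Lang identity `x_r(x + a) x_{-r}(-a⁻¹) = x_r(x) x_{-r}(a⁻¹) n_r(a)`, from the symbolic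
check of `x_{-r}(-a⁻¹) x_r(a) x_{-r}(-a⁻¹) = n_r(a)`. -/
theorem lang_of_braid (hX : XAdd D F) (r r' : ℕ)
    (hchk : checkEqW D [(r', tinvNegR), (r, tR), (r', tinvNegR)] (nWordS D r) = true) (x a : F)
    (ha : a ≠ 0) :
    xGL hX r (x + a) * xGL hX r' (-a⁻¹) = xGL hX r x * xGL hX r' a⁻¹ * nGL hX r a := by
  have hb : xGL hX r' (-a⁻¹) * xGL hX r a * xGL hX r' (-a⁻¹) = nGL hX r a := by
    apply Units.ext
    rw [Units.val_mul, Units.val_mul, xGL_val, xGL_val, nGL_val]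
    have h := wordMat_eq_of_checkEqW D (Units.mk0 a ha) (0 : F) (0 : F) hchk
    rw [evW_nWordS] at h
    have hL : evW (Units.mk0 a ha) (0 : F) (0 : F) [(r', tinvNegR), (r, tR), (r', tinvNegR)] =
        [(r', -a⁻¹), (r, a), (r', -a⁻¹)] := by
      simp [evW_cons, evW_nil]
    rw [hL, wordMat_cons, wordMat_cons, wordMat_singleton] at h
    rw [mul_assoc]
    exact h
  have e : xGL hX r' a⁻¹ * xGL hX r' (-a⁻¹) = 1 := by rw [xGL_mul, add_neg_cancel, xGL_zero]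
  rw [← hb, ← xGL_mul hX r x a]
  calc xGL hX r x * xGL hX r a * xGL hX r' (-a⁻¹)
      = xGL hX r x * (xGL hX r' a⁻¹ * xGL hX r' (-a⁻¹)) * xGL hX r a * xGL hX r' (-a⁻¹) := by
        rw [e, mul_one]
    _ = xGL hX r x * xGL hX r' a⁻¹ * (xGL hX r' (-a⁻¹) * xGL hX r a * xGL hX r' (-a⁻¹)) := by
        simp only [mul_assoc]

/-- `N x_β(u) = x_β'(d u) N` for all `u`. -/
def Mv (hX : XAdd D F) (N : GL D.Idx F) (β β' : ℕ) (d : F) : Prop :=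
  ∀ u : F, N * xGL hX β u = xGL hX β' (d * u) * N

theorem mv_of_chk (hX : XAdd D F) (γ β β' : ℕ) (c k : ℤ)
    (h : checkEqW D (nWordS D γ ++ [(β, uR)]) ((β', [(c, k, 1, 0)]) :: nWordS D γ) = true)
    (a : F) (ha : a ≠ 0) : Mv hX (nGL hX γ a) β β' ((c : F) * a ^ k) := by
  intro u
  apply Units.ext
  rw [Units.val_mul, Units.val_mul, xGL_val, xGL_val, nGL_val]
  have h1 := wordMat_eq_of_checkEqW D (Units.mk0 a ha) u (0 : F) h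
  rw [evW_append, evW_cons, evW_nWordS, wordMat_append, evW_cons, evW_nil, wordMat_singleton,
    wordMat_cons, evW_nWordS] at h1
  have e1 : ev (Units.mk0 a ha) u (0 : F) uR = u := ev_uR _ _ _
  have e2 : ev (Units.mk0 a ha) u (0 : F) [(c, k, 1, 0)] = (c : F) * a ^ k * u := by
    simp [g2_evT_eq]
  simp only [e1, e2] at h1
  exact h1

theorem Mv.mul {hX : XAdd D F} {N1 N2 : GL D.Idx F} {β β' β'' : ℕ} {d1 d2 : F}
    (h1 : Mv hX N1 β' β'' d1) (h2 : Mv hX N2 β β' d2) : Mv hX (N1 * N2) β β'' (d1 * d2) := by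
  intro u
  rw [mul_assoc, h2 u, ← mul_assoc, h1 (d2 * u), mul_assoc, mul_assoc]

theorem Mv.congr {hX : XAdd D F} {N : GL D.Idx F} {β β' : ℕ} {d d' : F}
    (h : Mv hX N β β' d) (e : d = d') : Mv hX N β β' d' := e ▸ h

theorem Mv.pair {hX : XAdd D F} {N : GL D.Idx F} {β β' γ γ' : ℕ} {d d' : F}
    (h : Mv hX N β β' d) (h' : Mv hX N γ γ' d') (u v : F) :
    N * (xGL hX β u * xGL hX γ v) = xGL hX β' (d * u) * xGL hX γ' (d' * v) * N := by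
  rw [← mul_assoc, h u, mul_assoc, h' v, mul_assoc]

end

section

variable {G : Type*} [Group G]

theorem lang_step2 (σ : G →* G) (Q N p0 p1 m : G) (hQ : σ Q = Q * N)
    (h0 : N * σ p0 = p1 * N) (h1 : N * σ p1 = p0 * m * N) (c1 : Commute p0 p1) :
    σ (Q * (p0 * p1)) = Q * (p0 * p1) * (m * N) := by
  rw [map_mul, map_mul, hQ]
  calc Q * N * (σ p0 * σ p1) = Q * (N * σ p0) * σ p1 := by group
    _ = Q * p1 * (N * σ p1) := by rw [h0]; group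
    _ = Q * (p1 * p0) * (m * N) := by rw [h1]; group
    _ = Q * (p0 * p1) * (m * N) := by rw [c1.eq]

theorem lang_step4 (σ : G →* G) (Q N p0 p1 p2 p3 m : G) (hQ : σ Q = Q * N)
    (h0 : N * σ p0 = p1 * N) (h1 : N * σ p1 = p2 * N) (h2 : N * σ p2 = p3 * N)
    (h3 : N * σ p3 = p0 * m * N)
    (c1 : Commute p0 p1) (c2 : Commute p0 p2) (c3 : Commute p0 p3) :
    σ (Q * (p0 * p1 * p2 * p3)) = Q * (p0 * p1 * p2 * p3) * (m * N) := by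
  rw [map_mul, map_mul, map_mul, map_mul, hQ]
  have e : p1 * p2 * p3 * p0 = p0 * p1 * p2 * p3 := by
    rw [((c1.mul_right c2).mul_right c3).eq.symm]
    simp only [mul_assoc]
  calc Q * N * (σ p0 * σ p1 * σ p2 * σ p3) = Q * (N * σ p0) * σ p1 * σ p2 * σ p3 := by group
    _ = Q * p1 * (N * σ p1) * σ p2 * σ p3 := by rw [h0]; group
    _ = Q * p1 * p2 * (N * σ p2) * σ p3 := by rw [h1]; group
    _ = Q * p1 * p2 * p3 * (N * σ p3) := by rw [h2]; group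
    _ = Q * (p1 * p2 * p3 * p0) * (m * N) := by rw [h3]; group
    _ = Q * (p0 * p1 * p2 * p3) * (m * N) := by rw [e]

end


section

variable {F : Type*} [Field F]

theorem nMat_charDiag_of (D : ChevalleyDatum) {r : ℕ} {E : ℕ → SVec} {ρ : ℕ → ℕ}
    (h : checkCols D (nWordS D r) E = true) (hm : monoOK D E ρ = true) (c : F) (hc : c ≠ 0)
    (χ : ℕ → Fˣ) :
    D.nMat F r c * D.charDiag F (fun s => χ (ρ s)) = D.charDiag F χ * D.nMat F r c := by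
  have h' := wordMat_mul_charDiag D (Units.mk0 c hc) 0 0 h hm χ
  rw [evW_nWordS] at h'
  exact h'

end

/-! ### `F₄` -/

theorem f4_braid24_chk :
    checkEqW chevF4 [(23, tinvNegR), (24, tR), (23, tinvNegR)] (nWordS chevF4 24) = true := by
  decide +kernel

theorem f4_braid27_chk :
    checkEqW chevF4 [(20, tinvNegR), (27, tR), (20, tinvNegR)] (nWordS chevF4 27) = true := by
  decide +kernel

theorem f4_braid45_chk :
    checkEqW chevF4 [(2, tinvNegR), (45, tR), (2, tinvNegR)] (nWordS chevF4 45) = true := by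
  decide +kernel

theorem f4_braid26_chk :
    checkEqW chevF4 [(21, tinvNegR), (26, tR), (21, tinvNegR)] (nWordS chevF4 26) = true := by
  decide +kernel

def f4NCols24 : ℕ → SVec
  | 0 => [(0, [(1, 0, 0, 0)])]
  | 1 => [(1, [(1, 0, 0, 0)])]
  | 2 => [(2, [(1, 0, 0, 0)]), (3, [(1, 0, 0, 0)])]
  | 3 => [(3, [(-1, 0, 0, 0)])]
  | 4 => [(5, [(-1, 1, 0, 0)])]
  | 5 => [(4, [(1, -1, 0, 0)])]
  | 6 => [(6, [(1, 0, 0, 0)])]
  | 7 => [(7, [(1, 0, 0, 0)])]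
  | 8 => [(8, [(1, 0, 0, 0)])]
  | 9 => [(10, [(-1, 1, 0, 0)])]
  | 10 => [(9, [(1, -1, 0, 0)])]
  | 11 => [(11, [(1, 0, 0, 0)])]
  | 12 => [(12, [(1, 0, 0, 0)])]
  | 13 => [(14, [(-1, 1, 0, 0)])]
  | 14 => [(13, [(1, -1, 0, 0)])]
  | 15 => [(16, [(-1, 1, 0, 0)])]
  | 16 => [(15, [(1, -1, 0, 0)])]
  | 17 => [(17, [(1, 0, 0, 0)])]
  | 18 => [(18, [(1, 0, 0, 0)])]
  | 19 => [(19, [(1, 0, 0, 0)])]
  | 20 => [(21, [(-1, 1, 0, 0)])]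
  | 21 => [(20, [(1, -1, 0, 0)])]
  | 22 => [(23, [(-1, 1, 0, 0)])]
  | 23 => [(22, [(1, -1, 0, 0)])]
  | 24 => [(24, [(1, 0, 0, 0)])]
  | 25 => [(26, [(-1, 1, 0, 0)])]
  | 26 => [(25, [(1, -1, 0, 0)])]
  | 27 => [(28, [(-1, 2, 0, 0)])]
  | 28 => [(27, [(-1, -2, 0, 0)])]
  | 29 => [(30, [(1, 1, 0, 0)])]
  | 30 => [(29, [(-1, -1, 0, 0)])]
  | 31 => [(31, [(1, 0, 0, 0)])]
  | 32 => [(33, [(1, 1, 0, 0)])]
  | 33 => [(32, [(-1, -1, 0, 0)])]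
  | 34 => [(35, [(1, 1, 0, 0)])]
  | 35 => [(34, [(-1, -1, 0, 0)])]
  | 36 => [(36, [(1, 0, 0, 0)])]
  | 37 => [(37, [(1, 0, 0, 0)])]
  | 38 => [(38, [(1, 0, 0, 0)])]
  | 39 => [(40, [(1, 1, 0, 0)])]
  | 40 => [(39, [(-1, -1, 0, 0)])]
  | 41 => [(42, [(1, 1, 0, 0)])]
  | 42 => [(41, [(-1, -1, 0, 0)])]
  | 43 => [(43, [(1, 0, 0, 0)])]
  | 44 => [(44, [(1, 0, 0, 0)])]
  | 45 => [(46, [(1, 1, 0, 0)])]
  | 46 => [(45, [(-1, -1, 0, 0)])]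
  | 47 => [(47, [(1, 0, 0, 0)])]
  | 48 => [(48, [(1, 0, 0, 0)])]
  | 49 => [(49, [(1, 0, 0, 0)])]
  | 50 => [(51, [(1, 1, 0, 0)])]
  | 51 => [(50, [(-1, -1, 0, 0)])]
  | _ => []

/-- The reflection in the root `24`, on root indices. -/
def f4Rho24 (s : ℕ) : ℕ :=
  [1, 0, 2, 3, 4, 6, 5, 7, 8, 10, 9, 12, 11, 13, 14, 15, 17, 16, 19, 18, 20, 22, 21, 24, 23, 26, 25, 27, 29, 28, 31, 30, 32, 33, 34, 36, 35, 38, 37, 39, 40, 42, 41, 43, 44, 45, 47, 46].getD s 0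

theorem f4_nCols24_chk : checkCols chevF4 (nWordS chevF4 24) f4NCols24 = true := by decide +kernel
theorem f4_nCols24_mono : monoOK chevF4 f4NCols24 f4Rho24 = true := by decide +kernel

def f4NCols27 : ℕ → SVec
  | 0 => [(0, [(1, 0, 0, 0)]), (1, [(1, 0, 0, 0)])]
  | 1 => [(1, [(-1, 0, 0, 0)])]
  | 2 => [(1, [(1, 0, 0, 0)]), (2, [(1, 0, 0, 0)])]
  | 3 => [(3, [(1, 0, 0, 0)])]
  | 4 => [(4, [(1, 0, 0, 0)])]
  | 5 => [(5, [(1, 0, 0, 0)])]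
  | 6 => [(8, [(1, 2, 0, 0)])]
  | 7 => [(7, [(-1, 0, 0, 0)])]
  | 8 => [(6, [(1, -2, 0, 0)])]
  | 9 => [(9, [(1, 0, 0, 0)])]
  | 10 => [(10, [(1, 0, 0, 0)])]
  | 11 => [(12, [(-1, 1, 0, 0)])]
  | 12 => [(11, [(1, -1, 0, 0)])]
  | 13 => [(15, [(-1, 1, 0, 0)])]
  | 14 => [(16, [(-1, 1, 0, 0)])]
  | 15 => [(13, [(1, -1, 0, 0)])]
  | 16 => [(14, [(1, -1, 0, 0)])]
  | 17 => [(18, [(-1, 1, 0, 0)])]
  | 18 => [(17, [(1, -1, 0, 0)])]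
  | 19 => [(19, [(1, 0, 0, 0)])]
  | 20 => [(25, [(-1, 2, 0, 0)])]
  | 21 => [(26, [(-1, 2, 0, 0)])]
  | 22 => [(22, [(-1, 0, 0, 0)])]
  | 23 => [(23, [(-1, 0, 0, 0)])]
  | 24 => [(31, [(-1, 2, 0, 0)])]
  | 25 => [(20, [(-1, -2, 0, 0)])]
  | 26 => [(21, [(-1, -2, 0, 0)])]
  | 27 => [(27, [(1, 0, 0, 0)])]
  | 28 => [(28, [(1, 0, 0, 0)])]
  | 29 => [(34, [(-1, 2, 0, 0)])]
  | 30 => [(35, [(-1, 2, 0, 0)])]
  | 31 => [(24, [(-1, -2, 0, 0)])]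
  | 32 => [(32, [(-1, 0, 0, 0)])]
  | 33 => [(33, [(-1, 0, 0, 0)])]
  | 34 => [(29, [(-1, -2, 0, 0)])]
  | 35 => [(30, [(-1, -2, 0, 0)])]
  | 36 => [(36, [(1, 0, 0, 0)])]
  | 37 => [(38, [(1, 1, 0, 0)])]
  | 38 => [(37, [(-1, -1, 0, 0)])]
  | 39 => [(41, [(1, 1, 0, 0)])]
  | 40 => [(42, [(1, 1, 0, 0)])]
  | 41 => [(39, [(-1, -1, 0, 0)])]
  | 42 => [(40, [(-1, -1, 0, 0)])]
  | 43 => [(44, [(1, 1, 0, 0)])]
  | 44 => [(43, [(-1, -1, 0, 0)])]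
  | 45 => [(45, [(1, 0, 0, 0)])]
  | 46 => [(46, [(1, 0, 0, 0)])]
  | 47 => [(49, [(1, 2, 0, 0)])]
  | 48 => [(48, [(-1, 0, 0, 0)])]
  | 49 => [(47, [(1, -2, 0, 0)])]
  | 50 => [(50, [(1, 0, 0, 0)])]
  | 51 => [(51, [(1, 0, 0, 0)])]
  | _ => []

/-- The reflection in the root `27`, on root indices. -/
def f4Rho27 (s : ℕ) : ℕ :=
  [0, 1, 4, 3, 2, 5, 6, 8, 7, 11, 12, 9, 10, 14, 13, 15, 21, 22, 18, 19, 27, 16, 17, 23, 24, 30, 31, 20, 28, 29, 25, 26, 32, 34, 33, 37, 38, 35, 36, 40, 39, 41, 42, 45, 44, 43, 46, 47].getD s 0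

theorem f4_nCols27_chk : checkCols chevF4 (nWordS chevF4 27) f4NCols27 = true := by decide +kernel
theorem f4_nCols27_mono : monoOK chevF4 f4NCols27 f4Rho27 = true := by decide +kernel

def f4NCols45 : ℕ → SVec
  | 0 => [(0, [(1, 0, 0, 0)])]
  | 1 => [(0, [(-2, 0, 0, 0)]), (1, [(-3, 0, 0, 0)]), (2, [(-4, 0, 0, 0)]), (3, [(-2, 0, 0, 0)])]
  | 2 => [(0, [(1, 0, 0, 0)]), (1, [(2, 0, 0, 0)]), (2, [(3, 0, 0, 0)]), (3, [(1, 0, 0, 0)])]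
  | 3 => [(3, [(1, 0, 0, 0)])]
  | 4 => [(25, [(1, 1, 0, 0)])]
  | 5 => [(26, [(1, 1, 0, 0)])]
  | 6 => [(49, [(-1, 2, 0, 0)])]
  | 7 => [(31, [(1, 1, 0, 0)])]
  | 8 => [(8, [(1, 0, 0, 0)])]
  | 9 => [(34, [(-1, 1, 0, 0)])]
  | 10 => [(35, [(1, 1, 0, 0)])]
  | 11 => [(38, [(1, 1, 0, 0)])]
  | 12 => [(12, [(1, 0, 0, 0)])]
  | 13 => [(41, [(-1, 1, 0, 0)])]
  | 14 => [(42, [(1, 1, 0, 0)])]
  | 15 => [(15, [(1, 0, 0, 0)])]
  | 16 => [(16, [(1, 0, 0, 0)])]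
  | 17 => [(44, [(-1, 1, 0, 0)])]
  | 18 => [(18, [(1, 0, 0, 0)])]
  | 19 => [(19, [(1, 0, 0, 0)])]
  | 20 => [(45, [(-1, 1, 0, 0)])]
  | 21 => [(46, [(1, 1, 0, 0)])]
  | 22 => [(22, [(1, 0, 0, 0)])]
  | 23 => [(23, [(1, 0, 0, 0)])]
  | 24 => [(48, [(-1, 1, 0, 0)])]
  | 25 => [(4, [(-1, -1, 0, 0)])]
  | 26 => [(5, [(-1, -1, 0, 0)])]
  | 27 => [(27, [(1, 0, 0, 0)])]
  | 28 => [(28, [(1, 0, 0, 0)])]
  | 29 => [(50, [(-1, 1, 0, 0)])]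
  | 30 => [(51, [(-1, 1, 0, 0)])]
  | 31 => [(7, [(-1, -1, 0, 0)])]
  | 32 => [(32, [(1, 0, 0, 0)])]
  | 33 => [(33, [(1, 0, 0, 0)])]
  | 34 => [(9, [(1, -1, 0, 0)])]
  | 35 => [(10, [(-1, -1, 0, 0)])]
  | 36 => [(36, [(1, 0, 0, 0)])]
  | 37 => [(37, [(1, 0, 0, 0)])]
  | 38 => [(11, [(-1, -1, 0, 0)])]
  | 39 => [(39, [(1, 0, 0, 0)])]
  | 40 => [(40, [(1, 0, 0, 0)])]
  | 41 => [(13, [(1, -1, 0, 0)])]
  | 42 => [(14, [(-1, -1, 0, 0)])]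
  | 43 => [(43, [(1, 0, 0, 0)])]
  | 44 => [(17, [(1, -1, 0, 0)])]
  | 45 => [(20, [(1, -1, 0, 0)])]
  | 46 => [(21, [(-1, -1, 0, 0)])]
  | 47 => [(47, [(1, 0, 0, 0)])]
  | 48 => [(24, [(1, -1, 0, 0)])]
  | 49 => [(6, [(-1, -2, 0, 0)])]
  | 50 => [(29, [(1, -1, 0, 0)])]
  | 51 => [(30, [(1, -1, 0, 0)])]
  | _ => []

/-- The reflection in the root `45`, on root indices. -/
def f4Rho45 (s : ℕ) : ℕ :=
  [21, 22, 45, 27, 4, 30, 31, 34, 8, 37, 38, 11, 12, 40, 14, 15, 41, 42, 18, 19, 44, 0, 1, 23, 24, 46, 47, 3, 28, 29, 5, 6, 32, 33, 7, 35, 36, 9, 10, 39, 13, 16, 17, 43, 20, 2, 25, 26].getD s 0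

theorem f4_nCols45_chk : checkCols chevF4 (nWordS chevF4 45) f4NCols45 = true := by decide +kernel
theorem f4_nCols45_mono : monoOK chevF4 f4NCols45 f4Rho45 = true := by decide +kernel

def f4NCols26 : ℕ → SVec
  | 0 => [(0, [(1, 0, 0, 0)])]
  | 1 => [(1, [(1, 0, 0, 0)]), (2, [(2, 0, 0, 0)]), (3, [(2, 0, 0, 0)])]
  | 2 => [(3, [(-1, 0, 0, 0)])]
  | 3 => [(2, [(-1, 0, 0, 0)])]
  | 4 => [(6, [(-1, 1, 0, 0)])]
  | 5 => [(5, [(1, 0, 0, 0)])]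
  | 6 => [(4, [(1, -1, 0, 0)])]
  | 7 => [(7, [(1, 0, 0, 0)])]
  | 8 => [(10, [(1, 1, 0, 0)])]
  | 9 => [(9, [(1, 0, 0, 0)])]
  | 10 => [(8, [(-1, -1, 0, 0)])]
  | 11 => [(11, [(1, 0, 0, 0)])]
  | 12 => [(14, [(1, 1, 0, 0)])]
  | 13 => [(13, [(1, 0, 0, 0)])]
  | 14 => [(12, [(-1, -1, 0, 0)])]
  | 15 => [(17, [(-1, 1, 0, 0)])]
  | 16 => [(16, [(1, 0, 0, 0)])]
  | 17 => [(15, [(1, -1, 0, 0)])]
  | 18 => [(18, [(1, 0, 0, 0)])]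
  | 19 => [(21, [(1, 1, 0, 0)])]
  | 20 => [(20, [(1, 0, 0, 0)])]
  | 21 => [(19, [(-1, -1, 0, 0)])]
  | 22 => [(24, [(-1, 1, 0, 0)])]
  | 23 => [(23, [(1, 0, 0, 0)])]
  | 24 => [(22, [(1, -1, 0, 0)])]
  | 25 => [(30, [(-1, 2, 0, 0)])]
  | 26 => [(28, [(1, 1, 0, 0)])]
  | 27 => [(29, [(-1, 1, 0, 0)])]
  | 28 => [(26, [(-1, -1, 0, 0)])]
  | 29 => [(27, [(1, -1, 0, 0)])]
  | 30 => [(25, [(-1, -2, 0, 0)])]
  | 31 => [(33, [(1, 1, 0, 0)])]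
  | 32 => [(32, [(1, 0, 0, 0)])]
  | 33 => [(31, [(-1, -1, 0, 0)])]
  | 34 => [(36, [(-1, 1, 0, 0)])]
  | 35 => [(35, [(1, 0, 0, 0)])]
  | 36 => [(34, [(1, -1, 0, 0)])]
  | 37 => [(37, [(1, 0, 0, 0)])]
  | 38 => [(40, [(1, 1, 0, 0)])]
  | 39 => [(39, [(1, 0, 0, 0)])]
  | 40 => [(38, [(-1, -1, 0, 0)])]
  | 41 => [(43, [(-1, 1, 0, 0)])]
  | 42 => [(42, [(1, 0, 0, 0)])]
  | 43 => [(41, [(1, -1, 0, 0)])]
  | 44 => [(44, [(1, 0, 0, 0)])]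
  | 45 => [(47, [(-1, 1, 0, 0)])]
  | 46 => [(46, [(1, 0, 0, 0)])]
  | 47 => [(45, [(1, -1, 0, 0)])]
  | 48 => [(48, [(1, 0, 0, 0)])]
  | 49 => [(51, [(1, 1, 0, 0)])]
  | 50 => [(50, [(1, 0, 0, 0)])]
  | 51 => [(49, [(-1, -1, 0, 0)])]
  | _ => []

/-- The reflection in the root `26`, on root indices. -/
def f4Rho26 (s : ℕ) : ℕ :=
  [2, 1, 0, 3, 6, 5, 4, 7, 10, 9, 8, 13, 12, 11, 14, 17, 16, 15, 20, 19, 18, 26, 24, 25, 22, 23, 21, 29, 28, 27, 32, 31, 30, 33, 36, 35, 34, 39, 38, 37, 40, 43, 42, 41, 44, 47, 46, 45].getD s 0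

theorem f4_nCols26_chk : checkCols chevF4 (nWordS chevF4 26) f4NCols26 = true := by decide +kernel
theorem f4_nCols26_mono : monoOK chevF4 f4NCols26 f4Rho26 = true := by decide +kernel

/-- The product `w` of the reflections in the roots `26`, `45`, `27`, `24`, on root indices. -/
def f4W (s : ℕ) : ℕ := f4Rho26 (f4Rho45 (f4Rho27 (f4Rho24 s)))

section

variable {F : Type*} [Field F]

/-- `n_26(a₄) n_45(a₃) n_27(a) n_24(a)` conjugates the diagonal matrix of `χ ∘ w` to that of `χ`. -/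
theorem f4_w_charDiag (a a3 a4 : F) (ha : a ≠ 0) (ha3 : a3 ≠ 0) (ha4 : a4 ≠ 0) (χ : ℕ → Fˣ) :
    (chevF4.nMat F 26 a4 * chevF4.nMat F 45 a3 * chevF4.nMat F 27 a * chevF4.nMat F 24 a) *
        chevF4.charDiag F (fun s => χ (f4W s)) =
      chevF4.charDiag F χ *
        (chevF4.nMat F 26 a4 * chevF4.nMat F 45 a3 * chevF4.nMat F 27 a * chevF4.nMat F 24 a) := by
  have h24 := nMat_charDiag_of chevF4 f4_nCols24_chk f4_nCols24_mono a ha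
    (fun s => χ (f4Rho26 (f4Rho45 (f4Rho27 s))))
  have h27 := nMat_charDiag_of chevF4 f4_nCols27_chk f4_nCols27_mono a ha
    (fun s => χ (f4Rho26 (f4Rho45 s)))
  have h45 := nMat_charDiag_of chevF4 f4_nCols45_chk f4_nCols45_mono a3 ha3 (fun s => χ (f4Rho26 s))
  have h26 := nMat_charDiag_of chevF4 f4_nCols26_chk f4_nCols26_mono a4 ha4 χ
  have e : (fun s => χ (f4W s)) =
      fun s => (fun s' => χ (f4Rho26 (f4Rho45 (f4Rho27 s')))) (f4Rho24 s) := rfl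
  rw [e, mul_assoc, h24, ← mul_assoc, mul_assoc (chevF4.nMat F 26 a4 * chevF4.nMat F 45 a3), h27,
    ← mul_assoc, mul_assoc (chevF4.nMat F 26 a4), h45, ← mul_assoc, h26]
  simp only [mul_assoc]

end

end Cfsg.Agent.Helper18
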