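import Cfsg.Agent.Helper18.F4Tor2
import Cfsg.Agent.Helper36.ChevCFFinal

/-!
# A Lang element for an element of order `8` of the Weyl group of `F₄` (helper18)

`f4_lang`: for a ring endomorphism `φ` of a field `L` and elements `θ`, `θ₃`, `θ₄` with `φ² θ = θ ≠ φ θ`,
`φ⁴ θ₃ = θ₃ ≠ φ² θ₃`, `φ⁸ θ₄ = θ₄ ≠ φ⁴ θ₄`, there is an element `P` of `F₄(L)` with
`φ(P) = P n_26(a₄) n_45(a₃) n_27(a) n_24(a)`, where `a = φ θ - θ`, `a₃ = φ² θ₃ - θ₃`, `a₄ = φ⁴ θ₄ - θ₄`.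
The roots `24`, `27`, `45`, `26` are mutually orthogonal and the product of their reflections has order
`8`; `P` is built in four steps along the chain of the centralisers.
-/

set_option autoImplicit false
set_option maxRecDepth 1000000

namespace Cfsg.Agent.Helper18

open Cfsg Cfsg.Lie Cfsg.Agent.Helper36 Cfsg.Agent.Helper17

section

variable {G : Type*} [Group G]

theorem lang_step1 (σ : G →* G) (Q N p0 m : G) (hQ : σ Q = Q * N)
    (h0 : N * σ p0 = p0 * m * N) : σ (Q * p0) = Q * p0 * (m * N) := by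
  rw [map_mul, hQ, mul_assoc, h0]
  group

end

theorem f4_strorth : StrOrth chevF4 45 43 ∧ StrOrth chevF4 45 4 ∧ StrOrth chevF4 2 43 ∧
    StrOrth chevF4 2 4 ∧
    (∀ x ∈ [26, 21], ∀ y ∈ [5, 42, 31, 16, 46, 1], StrOrth chevF4 x y) := by decide +kernel

section

variable {L : Type*} [Field L]

theorem f4_lang (hX : XAdd chevF4 L) (φ : L →+* L) (θ θ3 θ4 : L)
    (h2 : φ (φ θ) = θ) (h2' : φ θ ≠ θ)
    (h4 : φ (φ (φ (φ θ3))) = θ3) (h4' : φ (φ θ3) ≠ θ3)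
    (h8 : φ (φ (φ (φ (φ (φ (φ (φ θ4))))))) = θ4) (h8' : φ (φ (φ (φ θ4))) ≠ θ4) :
    ∃ P ∈ chevF4.group L, glMap chevF4 φ P =
      P * (nGL hX 26 (φ (φ (φ (φ θ4))) - θ4) * (nGL hX 45 (φ (φ θ3) - θ3) *
        (nGL hX 27 (φ θ - θ) * nGL hX 24 (φ θ - θ)))) := by
  have hD : chevF4 ∈ [chevG2, chevB2, chevD4, chevF4, chevE6, chevE7, chevE8] := by simp
  have hcf : ∀ r < chevF4.nroots, ∀ s < chevF4.nroots, s ≠ r → s ≠ chevF4.neg r →
      CF chevF4 L r s := fun r hr s hs h1 h2 => CF_of_mem hD r hr s hs h1 h2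
  set a : L := φ θ - θ with ha_def
  set a3 : L := φ (φ θ3) - θ3 with ha3_def
  set a4 : L := φ (φ (φ (φ θ4))) - θ4 with ha4_def
  have ha : a ≠ 0 := sub_ne_zero.mpr h2'
  have ha3 : a3 ≠ 0 := sub_ne_zero.mpr h4'
  have ha4 : a4 ≠ 0 := sub_ne_zero.mpr h8'
  have hφa : φ a = -a := by rw [ha_def, map_sub, h2]; ring
  have hφa3 : φ (φ a3) = -a3 := by rw [ha3_def, map_sub, map_sub, h4]; ring
  have hφa4 : φ (φ (φ (φ a4))) = -a4 := by
    rw [ha4_def, map_sub, map_sub, map_sub, map_sub, h8]; ring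
  have hb3 : φ a3 ≠ 0 := (map_ne_zero φ).mpr ha3
  have e1 : φ θ = θ + a := by rw [ha_def]; ring
  have e3 : φ (φ θ3) = θ3 + a3 := by rw [ha3_def]; ring
  have e4 : φ (φ (φ (φ θ4))) = θ4 + a4 := by rw [ha4_def]; ring
  have hσx : ∀ (r : ℕ) (t : L), glMap chevF4 φ (xGL hX r t) = xGL hX r (φ t) :=
    fun r t => glMap_xGL_of φ hX hX r t
  have hx : ∀ (r : ℕ) (t : L), xGL hX r t ∈ chevF4.group L := xGL_mem_group hX
  obtain ⟨o1, o2, o3, o4, o5⟩ := f4_strorth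
  -- step 1
  set p1 : GL chevF4.Idx L := xGL hX 24 θ * xGL hX 23 a⁻¹ with hp1
  have s1 : glMap chevF4 φ (1 * p1) = 1 * p1 * (nGL hX 24 a * 1) := by
    apply lang_step1 (glMap chevF4 φ) 1 1 p1 (nGL hX 24 a) (by rw [map_one, one_mul])
    rw [one_mul, mul_one, hp1, map_mul, hσx, hσx, map_inv₀, hφa, e1, inv_neg]
    exact lang_of_braid hX 24 23 f4_braid24_chk θ a ha
  rw [mul_one] at s1
  -- step 2
  set p2 : GL chevF4.Idx L := xGL hX 27 θ * xGL hX 20 a⁻¹ with hp2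
  have s2 := lang_step1 (glMap chevF4 φ) (1 * p1) (nGL hX 24 a) p2 (nGL hX 27 a) s1 (by
    rw [hp2, map_mul, hσx, hσx, map_inv₀, hφa, e1, inv_neg,
      (f4_mv1_27 hX a ha).pair (f4_mv1_20 hX a ha), one_mul, one_mul]
    rw [lang_of_braid hX 27 20 f4_braid27_chk θ a ha])
  -- step 3
  set q0 : GL chevF4.Idx L := xGL hX 45 θ3 * xGL hX 2 a3⁻¹ with hq0
  set q1 : GL chevF4.Idx L := xGL hX 43 ((a * a)⁻¹ * φ θ3) * xGL hX 4 (a * a * φ a3⁻¹) with hq1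
  have s3 := lang_step2 (glMap chevF4 φ) (1 * p1 * p2) (nGL hX 27 a * nGL hX 24 a) q0 q1
    (nGL hX 45 a3) s2
    (by
      rw [hq0, map_mul, hσx, hσx, (f4_mv2_45 hX a ha).pair (f4_mv2_2 hX a ha)])
    (by
      rw [hq1, map_mul, hσx, hσx, (f4_mv2_43 hX a ha).pair (f4_mv2_4 hX a ha)]
      have c1 : a * a * φ ((a * a)⁻¹ * φ θ3) = θ3 + a3 := by
        rw [map_mul, map_inv₀, map_mul, hφa, e3]
        field_simp
      have c2 : (a * a)⁻¹ * φ (a * a * φ a3⁻¹) = -a3⁻¹ := by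
        rw [map_mul, map_mul, hφa, map_inv₀, map_inv₀, hφa3]
        field_simp
      rw [c1, c2, lang_of_braid hX 45 2 f4_braid45_chk θ3 a3 ha3])
    (by
      rw [hq0, hq1]
      exact ((xGL_commute hX hcf o1 _ _).mul_right (xGL_commute hX hcf o2 _ _)).mul_left
        ((xGL_commute hX hcf o3 _ _).mul_right (xGL_commute hX hcf o4 _ _)))
  -- step 4
  set t2 : L := a * a3⁻¹ * φ θ4 with ht2
  set u2 : L := a3 * a⁻¹ * φ a4⁻¹ with hu2
  set t3 : L := -(a * a3) * φ t2 with ht3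
  set u3 : L := -(a * a3)⁻¹ * φ u2 with hu3
  set t4 : L := -(a3 * (a * a * a)⁻¹) * φ t3 with ht4
  set u4 : L := -(a * a * a * a3⁻¹) * φ u3 with hu4
  set r0 : GL chevF4.Idx L := xGL hX 26 θ4 * xGL hX 21 a4⁻¹ with hr0
  set r1 : GL chevF4.Idx L := xGL hX 5 t2 * xGL hX 42 u2 with hr1
  set r2 : GL chevF4.Idx L := xGL hX 31 t3 * xGL hX 16 u3 with hr2
  set r3 : GL chevF4.Idx L := xGL hX 46 t4 * xGL hX 1 u4 with hr3
  have hcomm : ∀ (x y : ℕ), x ∈ [5, 31, 46] → y ∈ [42, 16, 1] → ∀ t u : L,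
      Commute r0 (xGL hX x t * xGL hX y u) := by
    intro x y hx' hy' t u
    have m1 : (26 : ℕ) ∈ [26, 21] := by simp
    have m2 : (21 : ℕ) ∈ [26, 21] := by simp
    have mx : x ∈ [5, 42, 31, 16, 46, 1] := by
      simp only [List.mem_cons, List.not_mem_nil, or_false] at hx' ⊢; tauto
    have my : y ∈ [5, 42, 31, 16, 46, 1] := by
      simp only [List.mem_cons, List.not_mem_nil, or_false] at hy' ⊢; tauto
    rw [hr0]
    exact ((xGL_commute hX hcf (o5 26 m1 x mx) _ _).mul_right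
      (xGL_commute hX hcf (o5 26 m1 y my) _ _)).mul_left
        ((xGL_commute hX hcf (o5 21 m2 x mx) _ _).mul_right
          (xGL_commute hX hcf (o5 21 m2 y my) _ _))
  have s4 := lang_step4 (glMap chevF4 φ) (1 * p1 * p2 * (q0 * q1))
    (nGL hX 45 a3 * (nGL hX 27 a * nGL hX 24 a)) r0 r1 r2 r3 (nGL hX 26 a4) s3
    (by
      rw [hr0, map_mul, hσx, hσx, (f4_mv3_26 hX a a3 ha ha3).pair (f4_mv3_21 hX a a3 ha ha3)])
    (by
      rw [hr1, map_mul, hσx, hσx, (f4_mv3_5 hX a a3 ha ha3).pair (f4_mv3_42 hX a a3 ha ha3)])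
    (by
      rw [hr2, map_mul, hσx, hσx, (f4_mv3_31 hX a a3 ha ha3).pair (f4_mv3_16 hX a a3 ha ha3)])
    (by
      rw [hr3, map_mul, hσx, hσx, (f4_mv3_46 hX a a3 ha ha3).pair (f4_mv3_1 hX a a3 ha ha3)]
      have c1 : a * a3⁻¹ * φ t4 = θ4 + a4 := by
        rw [ht4, ht3, ht2]
        simp only [map_mul, map_neg, map_inv₀, hφa, hφa3, e4]
        field_simp
      have c2 : a3 * a⁻¹ * φ u4 = -a4⁻¹ := by
        rw [hu4, hu3, hu2]
        simp only [map_mul, map_neg, map_inv₀, hφa, hφa3, hφa4]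
        field_simp
      rw [c1, c2, lang_of_braid hX 26 21 f4_braid26_chk θ4 a4 ha4])
    (hcomm 5 42 (by simp) (by simp) _ _) (hcomm 31 16 (by simp) (by simp) _ _)
    (hcomm 46 1 (by simp) (by simp) _ _)
  refine ⟨1 * p1 * p2 * (q0 * q1) * (r0 * r1 * r2 * r3), ?_, s4⟩
  have m2 : ∀ (r r' : ℕ) (t t' : L), xGL hX r t * xGL hX r' t' ∈ chevF4.group L :=
    fun r r' t t' => mul_mem (hx r t) (hx r' t')
  rw [hp1, hp2, hq0, hq1, hr0, hr1, hr2, hr3]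
  exact mul_mem (mul_mem (mul_mem (mul_mem (one_mem _) (m2 _ _ _ _)) (m2 _ _ _ _))
    (mul_mem (m2 _ _ _ _) (m2 _ _ _ _)))
    (mul_mem (mul_mem (mul_mem (m2 _ _ _ _) (m2 _ _ _ _)) (m2 _ _ _ _)) (m2 _ _ _ _))

end

end Cfsg.Agent.Helper18
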