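import Cfsg.Agent.Helper18.F4Tor1
import Cfsg.Agent.Helper18.F4Tor4
import Cfsg.Agent.Helper20.F4PieceB

/-!
# The twisted torus of order `q⁴ + 1` in `F₄(q)`: characters (helper18)

Table facts on the Cartan integers of `chevF4` and the element `f4W` of order `8` of the Weyl group, the
characters `χ_z` of the torus in coordinates, the twisted equations `χ_z(s)^q = χ_z(w s)` and their
consequences.  The coordinates `f4C s` of a root `s` are taken in the basis `7, 10, 13, 14` (an orbit of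
`w`), in which `w` is the companion matrix of `X⁴ + 1`.
-/

set_option autoImplicit false
set_option maxRecDepth 1000000

namespace Cfsg.Agent.Helper18

open Cfsg Cfsg.Lie Cfsg.Agent.Helper36 Cfsg.Agent.Helper17

/-- The coordinates of the root `s` in the basis `7, 10, 13, 14`. -/
def f4C (s : ℕ) : ℤ × ℤ × ℤ × ℤ :=
  (-chevF4.cartan 0 s - 2 * chevF4.cartan 1 s - 3 * chevF4.cartan 2 s - 2 * chevF4.cartan 3 s,
    chevF4.cartan 3 s, chevF4.cartan 2 s,
    -chevF4.cartan 0 s - chevF4.cartan 1 s - 2 * chevF4.cartan 2 s - chevF4.cartan 3 s)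

theorem f4_tab1 : ∀ s < 48, f4W s < 48 ∧
    f4C (f4W s) = (-(f4C s).2.2.2, (f4C s).1, (f4C s).2.1, (f4C s).2.2.1) := by decide +kernel

theorem f4_tab2 : ∀ s < 48, f4C s ∈ Cfsg.Agent.Helper20.F4Piece.f4List := by decide +kernel

theorem f4_tab3 : ∀ r < 48, ∀ s < 48, f4C r = f4C s → r = s := by decide +kernel

/-- The exponent of the character at a coordinate vector. -/
def f4E (q : ℕ) (c : ℤ × ℤ × ℤ × ℤ) : ℤ :=
  c.1 + c.2.1 * (q : ℤ) + c.2.2.1 * (q : ℤ) ^ 2 + c.2.2.2 * (q : ℤ) ^ 3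

theorem f4_tab4 : ∀ s < 48, f4E 2 (f4C s) % 17 = ((f4E2 s : ℕ) : ℤ) := by decide +kernel

theorem f4_tab5 : f4W 7 = 10 ∧ f4W 10 = 13 ∧ f4W 13 = 14 ∧ f4W 14 = 40 ∧
    chevF4.simple 0 = 33 ∧ chevF4.simple 1 = 27 ∧ chevF4.simple 2 = 25 ∧ chevF4.simple 3 = 24 ∧
    (∀ i < 4, chevF4.cartan i 40 = - chevF4.cartan i 7) ∧
    (∀ i < 4, chevF4.cartan i 33 = - chevF4.cartan i 14) ∧
    (∀ i < 4, chevF4.cartan i 27 = chevF4.cartan i 14 + chevF4.cartan i 34) ∧
    (∀ i < 4, chevF4.cartan i 34 = - chevF4.cartan i 13) ∧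
    (∀ i < 4, chevF4.cartan i 25 = 0 * chevF4.cartan i 7 + (-1) * chevF4.cartan i 10 +
      2 * chevF4.cartan i 13 + (-1) * chevF4.cartan i 14) ∧
    (∀ i < 4, chevF4.cartan i 24 = (-1) * chevF4.cartan i 7 + 2 * chevF4.cartan i 10 +
      (-1) * chevF4.cartan i 13 + 0 * chevF4.cartan i 14) ∧
    f4C 7 = (1, 0, 0, 0) := by decide +kernel

section

variable {L : Type*} [Field L]

theorem torusChar_comb4 {D : ChevalleyDatum} (z : ℕ → Lˣ) {r s1 s2 s3 s4 : ℕ} (n1 n2 n3 n4 : ℤ)
    (h : ∀ i < D.rank, D.cartan i r = n1 * D.cartan i s1 + n2 * D.cartan i s2 +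
      n3 * D.cartan i s3 + n4 * D.cartan i s4) :
    torusChar D z r = torusChar D z s1 ^ n1 * torusChar D z s2 ^ n2 * torusChar D z s3 ^ n3 *
      torusChar D z s4 ^ n4 := by
  unfold torusChar
  have key : ∀ l : List ℕ, (∀ i ∈ l, i < D.rank) →
      (l.map fun i => z i ^ D.cartan i r).prod =
        (l.map fun i => z i ^ D.cartan i s1).prod ^ n1 *
          (l.map fun i => z i ^ D.cartan i s2).prod ^ n2 *
          (l.map fun i => z i ^ D.cartan i s3).prod ^ n3 *
          (l.map fun i => z i ^ D.cartan i s4).prod ^ n4 := by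
    intro l
    induction l with
    | nil => intro _; simp
    | cons i l ih =>
      intro hl
      rw [List.map_cons, List.prod_cons, List.map_cons, List.prod_cons, List.map_cons, List.prod_cons,
        List.map_cons, List.prod_cons, List.map_cons, List.prod_cons,
        ih (fun j hj => hl j (List.mem_cons_of_mem _ hj)), h i (hl i List.mem_cons_self), zpow_add,
        zpow_add, zpow_add, mul_zpow, mul_zpow, mul_zpow, mul_zpow, zpow_mul', zpow_mul', zpow_mul',
        zpow_mul']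
      simp only [mul_left_comm, mul_assoc]
  exact key _ (fun i hi => List.mem_range.mp hi)

/-- The twisted equations. -/
def F4Tw (q : ℕ) (z : Fin chevF4.rank → Lˣ) : Prop :=
  ∀ s < 48, torusChar chevF4 (extOne z) s ^ q = torusChar chevF4 (extOne z) (f4W s)

/-- The twisted equations make the value `A` of the character at the root `7` a root of unity of order
dividing `q⁴ + 1`, and the parameter is trivial when `A = 1`. -/
theorem f4_pow_of_twist (z : Fin chevF4.rank → Lˣ) (q : ℕ) (h : F4Tw q z) :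
    torusChar chevF4 (extOne z) 7 ^ (q ^ 4 + 1) = 1 ∧
    (torusChar chevF4 (extOne z) 7 = 1 → torusHom chevF4 L z = 1) := by
  obtain ⟨w7, w10, w13, w14, s0, s1, s2, s3, c40, c33, c27, c34, c25, c24, -⟩ := f4_tab5
  have e7 := h 7 (by norm_num)
  have e10 := h 10 (by norm_num)
  have e13 := h 13 (by norm_num)
  have e14 := h 14 (by norm_num)
  rw [w7] at e7
  rw [w10] at e10
  rw [w13] at e13
  rw [w14, torusChar_neg_of (extOne z) (D := chevF4) c40] at e14
  constructor
  · have e : torusChar chevF4 (extOne z) 7 ^ (q ^ 4) = (torusChar chevF4 (extOne z) 7)⁻¹ := by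
      rw [show q ^ 4 = q * q * q * q by ring, pow_mul, pow_mul, pow_mul, e7, e10, e13, e14]
    rw [pow_succ, e, inv_mul_cancel]
  · intro hA
    have h10 : torusChar chevF4 (extOne z) 10 = 1 := by rw [← e7, hA, one_pow]
    have h13 : torusChar chevF4 (extOne z) 13 = 1 := by rw [← e10, h10, one_pow]
    have h14 : torusChar chevF4 (extOne z) 14 = 1 := by rw [← e13, h13, one_pow]
    apply torusHom_eq_one_of_simple (simpleOK_of_mem (by simp)) smithData_F4
    intro j hj
    have hj' : j < 4 := hj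
    interval_cases j
    · rw [s0, torusChar_neg_of (extOne z) (D := chevF4) c33, h14, inv_one]
    · rw [s1, torusChar_add_of (extOne z) (D := chevF4) c27,
        torusChar_neg_of (extOne z) (D := chevF4) c34, h14, h13, inv_one, one_mul]
    · rw [s2, torusChar_comb4 (extOne z) (D := chevF4) _ _ _ _ c25, hA, h10, h13, h14]
      simp
    · rw [s3, torusChar_comb4 (extOne z) (D := chevF4) _ _ _ _ c24, hA, h10, h13, h14]
      simp

/-- The parameter with the given four coordinates. -/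
def f4Z (a b c d : Lˣ) : Fin chevF4.rank → Lˣ :=
  fun i => if i.val = 0 then a else if i.val = 1 then b else if i.val = 2 then c else d

theorem f4Z_torusChar (a b c d : Lˣ) (s : ℕ) :
    torusChar chevF4 (extOne (f4Z a b c d)) s =
      a ^ chevF4.cartan 0 s * b ^ chevF4.cartan 1 s * c ^ chevF4.cartan 2 s *
        d ^ chevF4.cartan 3 s := by
  have hr : List.range chevF4.rank = [0, 1, 2, 3] := by decide
  have e0 : extOne (f4Z a b c d) 0 = a := extOne_of_lt _ (by decide)
  have e1 : extOne (f4Z a b c d) 1 = b := extOne_of_lt _ (by decide)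
  have e2 : extOne (f4Z a b c d) 2 = c := extOne_of_lt _ (by decide)
  have e3 : extOne (f4Z a b c d) 3 = d := extOne_of_lt _ (by decide)
  unfold torusChar
  rw [hr]
  simp only [List.map_cons, List.map_nil, List.prod_cons, List.prod_nil, mul_one, e0, e1, e2, e3,
    mul_assoc]

/-- The parameters of the twisted torus attached to `y`. -/
def f4Zx (y : Lˣ) (q : ℕ) : Fin chevF4.rank → Lˣ :=
  f4Z (y ^ (-1 - (q : ℤ) ^ 3)) (y ^ (-2 - (q : ℤ) ^ 3)) (y ^ (-3 + (q : ℤ) ^ 2 - 2 * (q : ℤ) ^ 3))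
    (y ^ (-2 + (q : ℤ) - (q : ℤ) ^ 3))

theorem f4_chi_eq (y : Lˣ) (q : ℕ) (s : ℕ) :
    torusChar chevF4 (extOne (f4Zx y q)) s = y ^ f4E q (f4C s) := by
  unfold f4Zx f4E f4C
  rw [f4Z_torusChar]
  simp only [← zpow_mul, ← zpow_add]
  congr 1
  ring

/-- The twisted equations hold for `f4Zx y q` when `y ^ (q⁴ + 1) = 1`. -/
theorem f4_twist_of_pow (y : Lˣ) (q : ℕ) (hy : y ^ (q ^ 4 + 1) = 1) : F4Tw q (f4Zx y q) := by
  intro s hs
  obtain ⟨-, t1⟩ := f4_tab1 s hs
  rw [f4_chi_eq, f4_chi_eq, ← zpow_natCast, ← zpow_mul, t1]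
  have e : f4E q (f4C s) * (q : ℤ) =
      f4E q (-(f4C s).2.2.2, (f4C s).1, (f4C s).2.1, (f4C s).2.2.1) +
        ((q ^ 4 + 1 : ℕ) : ℤ) * (f4C s).2.2.2 := by
    unfold f4E
    push_cast
    ring
  rw [e, zpow_add, zpow_mul, zpow_natCast, hy, one_zpow, mul_one]

theorem f4_chi_seven (y : Lˣ) (q : ℕ) : torusChar chevF4 (extOne (f4Zx y q)) 7 = y := by
  rw [f4_chi_eq, f4_tab5.2.2.2.2.2.2.2.2.2.2.2.2.2.2]
  unfold f4E
  simp

/-- Regularity of the character of `f4Zx y q` for `y` of order `q⁴ + 1`: nowhere `1` on the roots, trivial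
stabiliser in the Weyl group. -/
theorem f4_chi_regular (y : Lˣ) (q : ℕ) (hq : 2 ≤ q) (hy : orderOf y = q ^ 4 + 1) :
    (∀ r < 48, torusChar chevF4 (extOne (f4Zx y q)) r ≠ 1) ∧
    (∀ W, ValidW chevF4 W →
      (∀ s < 48, torusChar chevF4 (extOne (f4Zx y q)) (wW chevF4 W s) =
        torusChar chevF4 (extOne (f4Zx y q)) s) → ∀ s < 48, wW chevF4 W s = s) := by
  have hn : ((orderOf y : ℕ) : ℤ) = (q : ℤ) ^ 4 + 1 := by rw [hy]; push_cast; ring
  have hdvd : ∀ k : ℤ, y ^ k = 1 → ((q : ℤ) ^ 4 + 1) ∣ k := by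
    intro k hk
    have h1 := (orderOf_dvd_iff_zpow_eq_one).mpr hk
    rw [hn] at h1
    exact h1
  have hD : chevF4 ∈ [chevG2, chevB2, chevD4, chevF4, chevE6, chevE7, chevE8] := by simp
  constructor
  · intro r hr h
    rw [f4_chi_eq] at h
    exact Cfsg.Agent.Helper20.F4Piece.f4_exponents_ne_zero q hq _ (f4_tab2 r hr) (hdvd _ h)
  · intro W hW h
    have hdiff : ∀ s < 48, ((q : ℤ) ^ 4 + 1) ∣ f4E q (f4C (wW chevF4 W s)) - f4E q (f4C s) := by
      intro s hs
      apply hdvd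
      have h1 := h s hs
      rw [f4_chi_eq, f4_chi_eq] at h1
      rw [zpow_sub, h1, mul_inv_cancel]
    have hlt : ∀ s < 48, wW chevF4 W s < 48 := fun s hs => (wFacts_of_mem hD).wW_lt hW hs
    rcases Nat.lt_or_ge q 3 with h3 | h3
    · have hq' : q = 2 := by omega
      subst hq'
      refine f4_hstab2 W hW ?_
      intro s hs
      have h1 := hdiff s hs
      have h2 : f4E 2 (f4C (wW chevF4 W s)) % 17 = f4E 2 (f4C s) % 17 := by
        have h1' : (17 : ℤ) ∣ f4E 2 (f4C (wW chevF4 W s)) - f4E 2 (f4C s) := by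
          have e : ((2 : ℕ) : ℤ) ^ 4 + 1 = 17 := by norm_num
          rw [e] at h1
          exact h1
        exact (Int.emod_emod_of_dvd _ (dvd_refl _)).symm.trans
          ((Int.emod_emod_of_dvd _ (dvd_refl _)).trans (Int.emod_eq_emod_iff_emod_sub_eq_zero.mpr
            (Int.emod_eq_zero_of_dvd h1')))
      rw [f4_tab4 _ (hlt s hs), f4_tab4 s hs] at h2
      exact_mod_cast h2
    · intro s hs
      by_contra hne'
      have hc : f4C (wW chevF4 W s) ≠ f4C s := fun h' => hne' (f4_tab3 _ (hlt s hs) _ hs h')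
      refine Cfsg.Agent.Helper20.F4Piece.f4_exponents_distinct q h3 _ _ (f4_tab2 _ (hlt s hs))
        (f4_tab2 s hs) hc ?_
      have e : ∀ a b : ℤ × ℤ × ℤ × ℤ, f4E q a - f4E q b =
          (a.1 - b.1) + (a.2.1 - b.2.1) * (q : ℤ) + (a.2.2.1 - b.2.2.1) * (q : ℤ) ^ 2 +
            (a.2.2.2 - b.2.2.2) * (q : ℤ) ^ 3 := by
        intro a b
        unfold f4E
        ring
      rw [← e]
      exact hdiff s hs

end

end Cfsg.Agent.Helper18
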