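import Cfsg.Agent.Helper18.G2Tor3

/-!
# The twisted torus of order `q² + q + 1` in `G₂(q)` (helper18)

`g2_twisted_torus`: given a cubic extension `L` of `F` with Frobenius `σ`, an element `θ` of `L` outside
`F` and an element `ζ` of order `q² + q + 1` of `Lˣ`, the subgroup `C` of the elements `g` of `G₂(F)`
with `P⁻¹ g P` in the torus of `G₂(L)` (`P` the Lang element of `G2Tor1`) carries an injective character
into the `(q²+q+1)`-th roots of unity, taking a value of order `q² + q + 1` at an element whose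
centraliser is contained in `C`.
-/

set_option autoImplicit false

namespace Cfsg.Agent.Helper18

open Cfsg Cfsg.Lie Cfsg.Agent.Helper36 Cfsg.Agent.Helper17

theorem g2PWord_map {L : Type*} [Field L] (σ : L →+* L) (x a b : L) :
    (g2PWord x a b).map (fun p => (p.1, σ p.2)) = g2PWord (σ x) (σ a) (σ b) := by
  simp [g2PWord, map_inv₀, map_ofNat]

theorem g2_twisted_torus {F : Type*} [Field F] [Fintype F] {L : Type*} [Field L] [Fintype L]
    (ι : F →+* L) (σ : L →+* L) (q : ℕ) (hq : 3 ≤ q)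
    (hσpow : ∀ x : L, σ x = x ^ q)
    (hσfix : ∀ x : L, σ x = x → ∃ y : F, ι y = x)
    (hσι : ∀ y : F, σ (ι y) = ι y)
    (hσ3 : ∀ x : L, σ (σ (σ x)) = x)
    (θ : L) (hθ1 : σ θ ≠ θ) (hθ2 : σ (σ θ) ≠ θ) (hθ3 : σ (σ θ) ≠ σ θ)
    (ζ : Lˣ) (hζ : orderOf ζ = q ^ 2 + q + 1) :
    ∃ (C : Subgroup ↥(chevG2.group F)) (f : C →* Lˣ), Function.Injective f ∧
      (∀ c : C, f c ^ (q ^ 2 + q + 1) = 1) ∧
      ∃ s : C, orderOf (f s) = q ^ 2 + q + 1 ∧
        ∀ g : ↥(chevG2.group F), g * (s : ↥(chevG2.group F)) = (s : ↥(chevG2.group F)) * g → g ∈ C := by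
  classical
  have hD : chevG2 ∈ [chevG2, chevB2, chevD4, chevF4, chevE6, chevE7, chevE8] := by simp
  have R₀ : BRel chevG2 F (etaN chevG2) := bRel_of_mem hD
  have R : BRel chevG2 L (etaN chevG2) := bRel_of_mem hD
  have hH : chevG2.diagonalSubgroup L = torus chevG2 L :=
    diagonalSubgroup_eq_torus (simpleOK_of_mem hD) (hDiag_of_mem hD) (rootElts_of_mem hD)
  have hH₀ : chevG2.diagonalSubgroup F = torus chevG2 F :=
    diagonalSubgroup_eq_torus (simpleOK_of_mem hD) (hDiag_of_mem hD) (rootElts_of_mem hD)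
  have hinjT : Function.Injective (torusHom chevG2 L) :=
    torusHom_injective (simpleOK_of_mem hD) smithData_G2 (by
      intro i hi
      have hi' : i < 2 := hi
      interval_cases i <;> rfl)
  have hU := (posUnipotent_unique_product_of_mem (F := L) hD
    (fun r s hr hs h1 h2 => CF_of_mem hD r hr s hs h1 h2)).1
  have hU₀ := (posUnipotent_unique_product_of_mem (F := F) hD
    (fun r s hr hs h1 h2 => CF_of_mem hD r hr s hs h1 h2)).2
  set a : L := σ θ - θ with ha_def
  set b : L := σ (σ θ) - θ with hb_def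
  have ha : a ≠ 0 := sub_ne_zero.mpr hθ1
  have hb : b ≠ 0 := sub_ne_zero.mpr hθ2
  have hab : a ≠ b := by
    intro h
    apply hθ3
    have h1 : σ θ - θ = σ (σ θ) - θ := h
    exact (sub_left_inj.mp h1).symm
  set P : GL chevG2.Idx L := wordGL R.xadd (g2PWord θ a b) with hPdef
  set N : GL chevG2.Idx L := nGL R.xadd 6 a * nGL R.xadd 0 b with hNdef
  have hPG : P ∈ chevG2.group L := wordGL_mem_group R.xadd _
  have hFP : glMap chevG2 σ P = P * N := by
    apply Units.ext
    rw [glMap_word σ (wordGL_val R.xadd _), Units.val_mul, Units.val_mul, wordGL_val, nGL_val,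
      nGL_val, g2PWord_map]
    have e1 : σ θ = θ + a := by rw [ha_def]; ring
    have e2 : σ a = b - a := by rw [ha_def, hb_def, map_sub]; ring
    have e3 : σ b = -a := by rw [ha_def, hb_def, map_sub, hσ3]; ring
    rw [e1, e2, e3, g2_lang_identity θ a b ha hb hab, mul_assoc]
  have hNχ : ∀ χ : ℕ → Lˣ, (N : Matrix chevG2.Idx chevG2.Idx L) *
      chevG2.charDiag L (fun s => χ (g2W s)) =
        chevG2.charDiag L χ * (N : Matrix chevG2.Idx chevG2.Idx L) := by
    intro χ
    rw [hNdef, Units.val_mul, nGL_val, nGL_val]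
    exact g2_w_charDiag a b ha hb χ
  have hσu : ∀ u : Lˣ, Units.map (σ : L →* L) u = u ^ q := by
    intro u
    apply Units.ext
    rw [Units.val_pow_eq_pow_val, ← hσpow]
    rfl
  let T2 : (Fin 2 → Lˣ) →* GL chevG2.Idx L := torusHom chevG2 L
  have hT2val : ∀ z : Fin 2 → Lˣ, ((T2 z : GL chevG2.Idx L) : Matrix chevG2.Idx chevG2.Idx L) =
      chevG2.charDiag L (torusChar chevG2 (extOne z)) :=
    fun z => torusHom_val (D := chevG2) (F := L) z
  have hinjT2 : Function.Injective T2 := hinjT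
  have hT2mem : ∀ z : Fin 2 → Lˣ, T2 z ∈ torus chevG2 L := by
    intro z
    rw [← range_torusHom]
    exact ⟨z, rfl⟩
  have htw : ∀ z : Fin 2 → Lˣ, (N * glMap chevG2 σ (T2 z) = T2 z * N ↔
      ∀ s < 12, torusChar chevG2 (extOne z) s ^ q = torusChar chevG2 (extOne z) (g2W s)) := by
    intro z
    have e1 : ((glMap chevG2 σ (T2 z) : GL chevG2.Idx L) :
        Matrix chevG2.Idx chevG2.Idx L) =
          chevG2.charDiag L (fun s => torusChar chevG2 (extOne z) s ^ q) := by
      rw [glMap_val, hT2val, charDiag_map]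
      congr 1
      funext s
      exact hσu _
    constructor
    · intro h
      have h1 := congrArg (fun x : GL chevG2.Idx L => (x : Matrix chevG2.Idx chevG2.Idx L)) h
      simp only [Units.val_mul] at h1
      rw [e1, hT2val, ← hNχ] at h1
      have h2 := congrArg (fun M => ((N⁻¹ : GL chevG2.Idx L) : Matrix chevG2.Idx chevG2.Idx L) * M) h1
      simp only [← mul_assoc] at h2
      rw [← Units.val_mul, inv_mul_cancel, Units.val_one, one_mul, one_mul] at h2
      exact charDiag_inj' chevG2 h2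
    · intro h
      apply Units.ext
      show (N : Matrix chevG2.Idx chevG2.Idx L) *
          ((glMap chevG2 σ (T2 z) : GL chevG2.Idx L) : Matrix chevG2.Idx chevG2.Idx L) =
        ((T2 z : GL chevG2.Idx L) : Matrix chevG2.Idx chevG2.Idx L) *
          (N : Matrix chevG2.Idx chevG2.Idx L)
      rw [e1, hT2val, ← hNχ]
      congr 1
      exact charDiag_congr' chevG2 h
  let conjHom : ↥(chevG2.group F) →* GL chevG2.Idx L :=
    (MulAut.conj P⁻¹).toMonoidHom.comp ((glMap chevG2 ι).comp (chevG2.group F).subtype)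
  have hconj : ∀ g : ↥(chevG2.group F), conjHom g = P⁻¹ * glMap chevG2 ι g.1 * P := by
    intro g
    simp [conjHom]
  have hσconj : ∀ g : ↥(chevG2.group F), glMap chevG2 σ (conjHom g) = N⁻¹ * conjHom g * N := by
    intro g
    rw [hconj, map_mul, map_mul, map_inv, hFP, glMap_comp]
    have e : σ.comp ι = ι := RingHom.ext hσι
    rw [e]
    group
  let C : Subgroup ↥(chevG2.group F) := (torus chevG2 L).comap conjHom
  have hz : ∀ c : C, ∃ z : Fin 2 → Lˣ, T2 z = conjHom c.1 := by
    intro c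
    have h1 : conjHom c.1 ∈ (torusHom chevG2 L).range := by
      rw [range_torusHom]
      exact c.2
    obtain ⟨z, hz⟩ := h1
    exact ⟨z, hz⟩
  choose zc hzc using hz
  have hzc_mul : ∀ c c' : C, zc (c * c') = zc c * zc c' := by
    intro c c'
    apply hinjT2
    rw [hzc, map_mul, hzc, hzc]
    exact map_mul conjHom c.1 c'.1
  have hzc_one : zc 1 = 1 := by
    apply hinjT2
    rw [hzc, map_one]
    exact map_one conjHom
  have hzc_tw : ∀ c : C, ∀ s < 12, torusChar chevG2 (extOne (zc c)) s ^ q =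
      torusChar chevG2 (extOne (zc c)) (g2W s) := by
    intro c
    apply (htw (zc c)).mp
    rw [hzc, hσconj]
    group
  let f : C →* Lˣ :=
    { toFun := fun c => zc c 0
      map_one' := by rw [hzc_one]; rfl
      map_mul' := fun c c' => by rw [hzc_mul]; rfl }
  have hf : ∀ c : C, f c = zc c 0 := fun _ => rfl
  refine ⟨C, f, ?_, ?_, ?_⟩
  · rw [injective_iff_map_eq_one]
    intro c hc
    have hc0 : zc c 0 = 1 := hc
    obtain ⟨h1, -⟩ := g2_pow_of_twist (zc c) q (hzc_tw c)
    have hz1 : zc c = 1 := by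
      funext i
      fin_cases i
      · exact hc0
      · show zc c 1 = 1
        rw [h1, hc0, one_pow]
    have h2 : conjHom c.1 = 1 := by rw [← hzc, hz1, map_one]
    rw [hconj] at h2
    have h3 : glMap chevG2 ι c.1.1 = 1 := by
      have e : glMap chevG2 ι c.1.1 = P * (P⁻¹ * glMap chevG2 ι c.1.1 * P) * P⁻¹ := by group
      rw [e, h2]
      group
    have h4 : c.1.1 = 1 := glMap_injective ι (by rw [h3, map_one])
    exact Subtype.ext (Subtype.ext h4)
  · intro c
    rw [hf]
    exact (g2_pow_of_twist (zc c) q (hzc_tw c)).2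
  · set z₀ : Fin 2 → Lˣ := ![ζ, ζ ^ (q + 2)] with hz₀
    set h₀ : GL chevG2.Idx L := T2 z₀ with hh₀
    have hζn : ζ ^ (q ^ 2 + q + 1) = 1 := by rw [← hζ]; exact pow_orderOf_eq_one ζ
    have htw₀ : N * glMap chevG2 σ h₀ = h₀ * N := (htw z₀).mpr (g2_twist_of_pow ζ q hζn)
    have hh₀T : h₀ ∈ torus chevG2 L := hT2mem z₀
    have hh₀G : h₀ ∈ chevG2.group L :=
      Cfsg.Agent.Helper36.diagonalSubgroup_le_group R.xadd (hH ▸ hh₀T)
    have hfix : glMap chevG2 σ (P * h₀ * P⁻¹) = P * h₀ * P⁻¹ := by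
      rw [map_mul, map_mul, map_inv, hFP]
      have e : glMap chevG2 σ h₀ = N⁻¹ * h₀ * N := by rw [mul_assoc, ← htw₀]; group
      rw [e]
      group
    obtain ⟨g₀, hg₀, e⟩ := fixed_group R R₀ σ ι hσfix hU hU₀ hH hH₀ hinjT
      (mul_mem (mul_mem hPG hh₀G) (inv_mem hPG)) hfix
    have hconj_s : conjHom ⟨g₀, hg₀⟩ = h₀ := by
      rw [hconj]
      show P⁻¹ * glMap chevG2 ι g₀ * P = h₀
      rw [e]
      group
    have hsC : (⟨g₀, hg₀⟩ : ↥(chevG2.group F)) ∈ C := by
      show conjHom ⟨g₀, hg₀⟩ ∈ torus chevG2 L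
      rw [hconj_s]
      exact hh₀T
    refine ⟨⟨⟨g₀, hg₀⟩, hsC⟩, ?_, ?_⟩
    · have e2 : zc ⟨⟨g₀, hg₀⟩, hsC⟩ = z₀ := hinjT2 (by rw [hzc]; exact hconj_s)
      rw [hf, e2]
      exact hζ
    · intro g hgs
      show conjHom g ∈ torus chevG2 L
      rw [← hH]
      obtain ⟨hinj, hne⟩ := g2_chi_regular ζ q hq hζ
      have hinj' : ∀ r < chevG2.nroots, ∀ s < chevG2.nroots,
          torusChar chevG2 (extOne z₀) r = torusChar chevG2 (extOne z₀) s → r = s := hinj
      have hne' : ∀ r < chevG2.nroots, torusChar chevG2 (extOne z₀) r ≠ 1 := hne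
      have hc : h₀ * conjHom g * h₀⁻¹ = conjHom g := by
        have h1 : conjHom g * h₀ = h₀ * conjHom g := by
          rw [← hconj_s, ← map_mul, ← map_mul]
          exact congrArg conjHom hgs
        rw [← h1]
        group
      have hgG : conjHom g ∈ chevG2.group L := by
        rw [hconj]
        exact mul_mem (mul_mem (inv_mem hPG) (glMap_group ι g.2)) hPG
      exact cent_regular_torus hD (hT2val z₀) hinj' hne' hgG hc

end Cfsg.Agent.Helper18
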