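import Cfsg.Agent.Helper18.F4Tor3
import Cfsg.Agent.Helper18.F4Tor5
import Cfsg.Agent.Helper18.G2Tor4

/-!
# The twisted torus of order `q⁴ + 1` in `F₄(q)` (helper18)

`f4_twisted_torus`: given an extension `L` of `F` of degree `8` with Frobenius `φ`, elements `θ`, `θ₃`, `θ₄`
of `L` generating the subfields of degrees `2`, `4`, `8`, and an element `y` of order `q⁴ + 1` of `Lˣ`, the
subgroup `C` of the elements `g` of `F₄(F)` with `P⁻¹ g P` in the torus of `F₄(L)` (`P` the Lang element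
of `F4Tor3`) carries an injective character into the `(q⁴+1)`-th roots of unity, taking a value of order
`q⁴ + 1` at an element whose centraliser is contained in `C`.
-/

set_option autoImplicit false
set_option maxRecDepth 1000000

namespace Cfsg.Agent.Helper18

open Cfsg Cfsg.Lie Cfsg.Agent.Helper36 Cfsg.Agent.Helper17

theorem f4_twisted_torus {F : Type*} [Field F] [Fintype F] {L : Type*} [Field L] [Fintype L]
    (ι : F →+* L) (φ : L →+* L) (q : ℕ) (hq : 2 ≤ q)
    (hφpow : ∀ x : L, φ x = x ^ q)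
    (hφfix : ∀ x : L, φ x = x → ∃ y : F, ι y = x)
    (hφι : ∀ y : F, φ (ι y) = ι y)
    (θ θ3 θ4 : L) (h2' : φ θ ≠ θ) (h2 : φ (φ θ) = θ)
    (h4' : φ (φ θ3) ≠ θ3) (h4 : φ (φ (φ (φ θ3))) = θ3)
    (h8' : φ (φ (φ (φ θ4))) ≠ θ4) (h8 : φ (φ (φ (φ (φ (φ (φ (φ θ4))))))) = θ4)
    (y : Lˣ) (hy : orderOf y = q ^ 4 + 1) :
    ∃ (C : Subgroup ↥(chevF4.group F)) (f : C →* Lˣ), Function.Injective f ∧
      (∀ c : C, f c ^ (q ^ 4 + 1) = 1) ∧
      ∃ s : C, orderOf (f s) = q ^ 4 + 1 ∧
        ∀ g : ↥(chevF4.group F), g * (s : ↥(chevF4.group F)) = (s : ↥(chevF4.group F)) * g → g ∈ C := by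
  classical
  have hD : chevF4 ∈ [chevG2, chevB2, chevD4, chevF4, chevE6, chevE7, chevE8] := by simp
  have R₀ : BRel chevF4 F (etaN chevF4) := bRel_of_mem hD
  have R : BRel chevF4 L (etaN chevF4) := bRel_of_mem hD
  have hH : chevF4.diagonalSubgroup L = torus chevF4 L :=
    diagonalSubgroup_eq_torus (simpleOK_of_mem hD) (hDiag_of_mem hD) (rootElts_of_mem hD)
  have hH₀ : chevF4.diagonalSubgroup F = torus chevF4 F :=
    diagonalSubgroup_eq_torus (simpleOK_of_mem hD) (hDiag_of_mem hD) (rootElts_of_mem hD)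
  have hinjT : Function.Injective (torusHom chevF4 L) :=
    torusHom_injective (simpleOK_of_mem hD) smithData_F4 (by
      intro i hi
      have hi' : i < 4 := hi
      interval_cases i <;> rfl)
  have hU := (posUnipotent_unique_product_of_mem (F := L) hD
    (fun r s hr hs h1 h2 => CF_of_mem hD r hr s hs h1 h2)).1
  have hU₀ := (posUnipotent_unique_product_of_mem (F := F) hD
    (fun r s hr hs h1 h2 => CF_of_mem hD r hr s hs h1 h2)).2
  obtain ⟨P, hPG, hFP⟩ := f4_lang R.xadd φ θ θ3 θ4 h2 h2' h4 h4' h8 h8'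
  set a : L := φ θ - θ with ha_def
  set a3 : L := φ (φ θ3) - θ3 with ha3_def
  set a4 : L := φ (φ (φ (φ θ4))) - θ4 with ha4_def
  have ha : a ≠ 0 := sub_ne_zero.mpr h2'
  have ha3 : a3 ≠ 0 := sub_ne_zero.mpr h4'
  have ha4 : a4 ≠ 0 := sub_ne_zero.mpr h8'
  set N : GL chevF4.Idx L :=
    nGL R.xadd 26 a4 * (nGL R.xadd 45 a3 * (nGL R.xadd 27 a * nGL R.xadd 24 a)) with hNdef
  have hNχ : ∀ χ : ℕ → Lˣ, (N : Matrix chevF4.Idx chevF4.Idx L) *
      chevF4.charDiag L (fun s => χ (f4W s)) =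
        chevF4.charDiag L χ * (N : Matrix chevF4.Idx chevF4.Idx L) := by
    intro χ
    rw [hNdef, Units.val_mul, Units.val_mul, Units.val_mul, nGL_val, nGL_val, nGL_val, nGL_val]
    have h := f4_w_charDiag a a3 a4 ha ha3 ha4 χ
    simp only [mul_assoc] at h ⊢
    exact h
  have hσu : ∀ u : Lˣ, Units.map (φ : L →* L) u = u ^ q := by
    intro u
    apply Units.ext
    rw [Units.val_pow_eq_pow_val, ← hφpow]
    rfl
  let T4 : (Fin chevF4.rank → Lˣ) →* GL chevF4.Idx L := torusHom chevF4 L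
  have hT4val : ∀ z : Fin chevF4.rank → Lˣ,
      ((T4 z : GL chevF4.Idx L) : Matrix chevF4.Idx chevF4.Idx L) =
        chevF4.charDiag L (torusChar chevF4 (extOne z)) :=
    fun z => torusHom_val (D := chevF4) (F := L) z
  have hinjT4 : Function.Injective T4 := hinjT
  have hT4mem : ∀ z : Fin chevF4.rank → Lˣ, T4 z ∈ torus chevF4 L := by
    intro z
    rw [← range_torusHom]
    exact ⟨z, rfl⟩
  have htw : ∀ z : Fin chevF4.rank → Lˣ,
      (N * glMap chevF4 φ (T4 z) = T4 z * N ↔ F4Tw q z) := by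
    intro z
    have e1 : ((glMap chevF4 φ (T4 z) : GL chevF4.Idx L) :
        Matrix chevF4.Idx chevF4.Idx L) =
          chevF4.charDiag L (fun s => torusChar chevF4 (extOne z) s ^ q) := by
      rw [glMap_val, hT4val, charDiag_map]
      congr 1
      funext s
      exact hσu _
    constructor
    · intro h
      have h1 := congrArg (fun x : GL chevF4.Idx L => (x : Matrix chevF4.Idx chevF4.Idx L)) h
      simp only [Units.val_mul] at h1
      rw [e1, hT4val, ← hNχ] at h1
      have h2 := congrArg (fun M => ((N⁻¹ : GL chevF4.Idx L) : Matrix chevF4.Idx chevF4.Idx L) * M) h1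
      simp only [← mul_assoc] at h2
      rw [← Units.val_mul, inv_mul_cancel, Units.val_one, one_mul, one_mul] at h2
      exact charDiag_inj' chevF4 h2
    · intro h
      apply Units.ext
      show (N : Matrix chevF4.Idx chevF4.Idx L) *
          ((glMap chevF4 φ (T4 z) : GL chevF4.Idx L) : Matrix chevF4.Idx chevF4.Idx L) =
        ((T4 z : GL chevF4.Idx L) : Matrix chevF4.Idx chevF4.Idx L) *
          (N : Matrix chevF4.Idx chevF4.Idx L)
      have e3 : chevF4.charDiag L (fun s => torusChar chevF4 (extOne z) s ^ q) =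
          chevF4.charDiag L (fun s => torusChar chevF4 (extOne z) (f4W s)) :=
        charDiag_congr' chevF4 h
      rw [e1, hT4val, ← hNχ, e3]
  let conjHom : ↥(chevF4.group F) →* GL chevF4.Idx L :=
    (MulAut.conj P⁻¹).toMonoidHom.comp ((glMap chevF4 ι).comp (chevF4.group F).subtype)
  have hconj : ∀ g : ↥(chevF4.group F), conjHom g = P⁻¹ * glMap chevF4 ι g.1 * P := by
    intro g
    simp [conjHom]
  have hσconj : ∀ g : ↥(chevF4.group F), glMap chevF4 φ (conjHom g) = N⁻¹ * conjHom g * N := by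
    intro g
    rw [hconj, map_mul, map_mul, map_inv, hFP, glMap_comp]
    have e : φ.comp ι = ι := RingHom.ext hφι
    rw [e]
    group
  let C : Subgroup ↥(chevF4.group F) := (torus chevF4 L).comap conjHom
  have hz : ∀ c : C, ∃ z : Fin chevF4.rank → Lˣ, T4 z = conjHom c.1 := by
    intro c
    have h1 : conjHom c.1 ∈ (torusHom chevF4 L).range := by
      rw [range_torusHom]
      exact c.2
    obtain ⟨z, hz⟩ := h1
    exact ⟨z, hz⟩
  choose zc hzc using hz
  have hzc_tw : ∀ c : C, F4Tw q (zc c) := by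
    intro c
    apply (htw (zc c)).mp
    rw [hzc, hσconj]
    group
  let χc : C → ℕ → Lˣ := fun c => torusChar chevF4 (extOne (zc c))
  have hχval : ∀ c : C, ((conjHom c.1 : GL chevF4.Idx L) : Matrix chevF4.Idx chevF4.Idx L) =
      chevF4.charDiag L (χc c) := fun c => by rw [← hzc, hT4val]
  have hχmul : ∀ c c' : C, ∀ s < 48, χc (c * c') s = χc c s * χc c' s := by
    intro c c'
    apply charDiag_inj' chevF4
    rw [← charDiag_mul, ← hχval, ← hχval, ← hχval, ← Units.val_mul, ← map_mul]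
    rfl
  have hχone : ∀ s < 48, χc 1 s = 1 := by
    apply charDiag_inj' chevF4 (χ' := fun _ => 1)
    rw [← hχval, charDiag_one]
    have : conjHom (1 : C).1 = 1 := map_one conjHom
    rw [this, Units.val_one]
  let fC : C →* Lˣ :=
    { toFun := fun c => χc c 7
      map_one' := hχone 7 (by norm_num)
      map_mul' := fun c c' => hχmul c c' 7 (by norm_num) }
  refine ⟨C, fC, ?_, ?_, ?_⟩
  · rw [injective_iff_map_eq_one]
    intro c hc
    have hA : torusChar chevF4 (extOne (zc c)) 7 = 1 := hc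
    have h1 : T4 (zc c) = 1 := (f4_pow_of_twist (zc c) q (hzc_tw c)).2 hA
    have h2 : conjHom c.1 = 1 := by rw [← hzc]; exact h1
    rw [hconj] at h2
    have h3 : glMap chevF4 ι c.1.1 = 1 := by
      have e : glMap chevF4 ι c.1.1 = P * (P⁻¹ * glMap chevF4 ι c.1.1 * P) * P⁻¹ := by group
      rw [e, h2]
      group
    have h4 : c.1.1 = 1 := glMap_injective ι (by rw [h3, map_one])
    exact Subtype.ext (Subtype.ext h4)
  · intro c
    exact (f4_pow_of_twist (zc c) q (hzc_tw c)).1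
  · have hyn : y ^ (q ^ 4 + 1) = 1 := by rw [← hy]; exact pow_orderOf_eq_one y
    set z₀ : Fin chevF4.rank → Lˣ := f4Zx y q with hz₀
    set h₀ : GL chevF4.Idx L := T4 z₀ with hh₀
    have htw₀ : N * glMap chevF4 φ h₀ = h₀ * N := (htw z₀).mpr (f4_twist_of_pow y q hyn)
    have hh₀T : h₀ ∈ torus chevF4 L := hT4mem z₀
    have hh₀G : h₀ ∈ chevF4.group L :=
      Cfsg.Agent.Helper36.diagonalSubgroup_le_group R.xadd (hH ▸ hh₀T)
    have hfix : glMap chevF4 φ (P * h₀ * P⁻¹) = P * h₀ * P⁻¹ := by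
      rw [map_mul, map_mul, map_inv, hFP]
      have e : glMap chevF4 φ h₀ = N⁻¹ * h₀ * N := by rw [mul_assoc, ← htw₀]; group
      rw [e]
      group
    obtain ⟨g₀, hg₀, e⟩ := fixed_group R R₀ φ ι hφfix hU hU₀ hH hH₀ hinjT
      (mul_mem (mul_mem hPG hh₀G) (inv_mem hPG)) hfix
    have hconj_s : conjHom ⟨g₀, hg₀⟩ = h₀ := by
      rw [hconj]
      show P⁻¹ * glMap chevF4 ι g₀ * P = h₀
      rw [e]
      group
    have hsC : (⟨g₀, hg₀⟩ : ↥(chevF4.group F)) ∈ C := by
      show conjHom ⟨g₀, hg₀⟩ ∈ torus chevF4 L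
      rw [hconj_s]
      exact hh₀T
    refine ⟨⟨⟨g₀, hg₀⟩, hsC⟩, ?_, ?_⟩
    · have e2 : zc ⟨⟨g₀, hg₀⟩, hsC⟩ = z₀ := hinjT4 (by rw [hzc]; exact hconj_s)
      show orderOf (torusChar chevF4 (extOne (zc ⟨⟨g₀, hg₀⟩, hsC⟩)) 7) = _
      rw [e2, hz₀, f4_chi_seven]
      exact hy
    · intro g hgs
      show conjHom g ∈ torus chevF4 L
      rw [← hH]
      obtain ⟨hne, hstab⟩ := f4_chi_regular y q hq hy
      have hc : h₀ * conjHom g * h₀⁻¹ = conjHom g := by
        have h1 : conjHom g * h₀ = h₀ * conjHom g := by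
          rw [← hconj_s, ← map_mul, ← map_mul]
          exact congrArg conjHom hgs
        rw [← h1]
        group
      have hgG : conjHom g ∈ chevF4.group L := by
        rw [hconj]
        exact mul_mem (mul_mem (inv_mem hPG) (glMap_group ι g.2)) hPG
      exact cent_torus_of_stab hD (hT4val z₀) hstab hne hgG hc

end Cfsg.Agent.Helper18
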