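import Cfsg.Agent.Helper18.FoldTab
import Cfsg.Agent.Helper18.TwD4f
import Cfsg.Agent.Helper18.FoldAut

/-!
# The fixed points of the triality graph automorphism of `D₄(K)` form `G₂(K)` (helper18)
-/

set_option autoImplicit false

namespace Cfsg.Agent.Helper18

open Cfsg Cfsg.Lie Cfsg.Agent.Helper17 Cfsg.Agent.Helper36

/-- The row table of the folding matrix of `D4` onto `G2`. -/
def d4Rt (a : ℕ) : ℕ × ℤ :=
  ([(0, 1), (1, 1), (0, 1), (0, 1), (2, -1), (3, -1), (4, -1), (4, -1), (5, 1), (6, 1), (4, 1), (5,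
  -1), (5, -1), (7, 1), (6, 1), (6, 1), (9, 1), (9, 1), (8, 1), (10, -1), (10, -1), (11, 1), (9,
  1), (10, 1), (11, -1), (11, -1), (12, -1), (13, -1)] : List (ℕ × ℤ)).getD a (0, 0)

/-- The table of the left inverse. -/
def d4Pt (k : ℕ) : ℕ × ℤ :=
  ([(0, 1), (1, 1), (4, -1), (5, -1), (10, 1), (8, 1), (9, 1), (13, 1), (18, 1), (22, 1), (23, 1),
  (21, 1), (26, -1), (27, -1)] : List (ℕ × ℤ)).getD k (0, 0)

/-- The orbits of the roots, with the root of `G2` and the sign. -/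
def d4Ftab : List (List ℕ × ℕ × ℤ) :=
  [([18, 13, 12], 7, 1),
  ([14], 6, 1),
  ([19, 16, 15], 8, 1),
  ([17, 20, 21], 9, 1),
  ([22], 10, -1),
  ([23], 11, -1),
  ([5, 10, 11], 4, 1),
  ([9], 5, 1),
  ([4, 7, 8], 3, 1),
  ([6, 3, 2], 2, 1),
  ([1], 1, -1),
  ([0], 0, -1)]

/-- The orbits of the positive roots. -/
def d4FOrbs : List (List ℕ) := [[18, 13, 12], [14], [19, 16, 15], [17, 20, 21], [22], [23]]

/-- The positive roots. -/
def d4FPos : List ℕ := [12, 13, 14, 15, 16, 17, 18, 19, 20, 21, 22, 23]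

theorem d4_foldTab : FoldTab chevD4 chevG2 gautP_D4a d4Rt d4Pt d4Ftab where
  rtOK := by decide +kernel
  pj := by decide +kernel
  fold := by decide +kernel
  orb := by decide +kernel
  cover := by decide +kernel

theorem d4_fold_bl : (∀ j < chevG2.rank, orbOK chevD4 (d4bl j) = true) ∧
    (∀ j < chevG2.rank, ((d4bl j).map chevD4.simple, chevG2.simple j, (1 : ℤ)) ∈ d4Ftab ∧
      ((d4bl j).map (fun i => chevD4.neg (chevD4.simple i)), chevG2.neg (chevG2.simple j), (1 : ℤ)) ∈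
        d4Ftab) ∧
    (∀ O ∈ d4FOrbs, ∃ x ∈ d4Ftab, x.1 = O ∧ chevG2.IsPosRoot x.2.1) ∧
    (∀ s < chevG2.nroots, chevG2.IsPosRoot s → ∃ x ∈ d4Ftab, x.1 ∈ d4FOrbs ∧ x.2.1 = s) ∧
    d4FOrbs.length = chevG2.nroots / 2 ∧ chevG2.simple 0 < chevG2.nroots ∧
    chevG2.simple 1 < chevG2.nroots :=
  ⟨by decide +kernel, by decide +kernel, by decide +kernel, by decide +kernel, by decide +kernel⟩

section

variable {K : Type*} [Field K]

theorem g2R (K : Type*) [Field K] : BRel chevG2 K (etaN chevG2) := bRel_of_mem g2_mem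

theorem d4_fold_hOrb (a b : K) :
    hGL (d4R K).xadd 18 a * hGL (d4R K).xadd 13 a * hGL (d4R K).xadd 12 a * hGL (d4R K).xadd 14 b =
      hOrb (d4R K).xadd (d4bl 0) (fun _ => a) * hOrb (d4R K).xadd (d4bl 1) (fun _ => b) := by
  obtain ⟨-, -, -, -, s0, s1, s2, s3⟩ := d4_negs
  have e0 : d4bl 0 = [0, 2, 3] := rfl
  have e1 : d4bl 1 = [1] := rfl
  have hnil : ∀ c : ℕ → K, hOrb (d4R K).xadd [] c = 1 := fun _ => rfl
  rw [e0, e1, hOrb_cons, hOrb_cons, hOrb_cons, hOrb_cons, hnil, hnil, s0, s1, s2, s3, mul_one, mul_one,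
    mul_assoc, mul_assoc, mul_assoc, mul_assoc]

/-- The elements of `H` fixed by the triality are related to elements of the torus of `G₂`. -/
theorem d4_fold_H : ∀ a ∈ chevD4.diagonalSubgroup K,
    twSig chevD4 (spGL K chevD4 gautP_D4a gautQ_D4a d4_hinv) (RingHom.id K) a = a →
      ∃ A ∈ chevG2.diagonalSubgroup K, FoldRel (jMat K chevD4 chevG2 d4Rt) a A := by
  intro a ha hfix
  obtain ⟨hOK, hTab, -, -, -, hs0, hs1⟩ := d4_fold_bl
  obtain ⟨a', b, -, -, rfl⟩ := d4_fixedH_param (RingHom.id K) ha hfix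
  have e1 : ∀ u : Kˣ, Units.map ((RingHom.id K : K →+* K) : K →* K) u = u := fun u => Units.ext rfl
  rw [e1, e1, d4_torusHom_eq]
  have key : ∀ x1 x2 x3 x4 : GL chevD4.Idx K, x1 ∈ (torusHom chevD4 K).range →
      x2 ∈ (torusHom chevD4 K).range → x3 ∈ (torusHom chevD4 K).range →
      x4 ∈ (torusHom chevD4 K).range → x1 * x2 * x3 * x4 = x1 * x3 * x4 * x2 := by
    rintro _ _ _ _ ⟨u1, rfl⟩ ⟨u2, rfl⟩ ⟨u3, rfl⟩ ⟨u4, rfl⟩
    simp only [← map_mul]
    congr 1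
    ac_rfl
  have hr : ∀ (r : ℕ) (_ : r < chevD4.nroots) (t : Kˣ),
      hGL (d4R K).xadd r (t : K) ∈ (torusHom chevD4 K).range := by
    intro r hr t
    rw [range_torusHom, ← d4_hH]
    exact hGL_mem _ hr t.ne_zero
  rw [key _ _ _ _ (hr 18 (by decide) a') (hr 14 (by decide) b) (hr 13 (by decide) a')
    (hr 12 (by decide) a'), d4_fold_hOrb]
  refine ⟨hGL (g2R K).xadd (chevG2.simple 0) (a' : K) * hGL (g2R K).xadd (chevG2.simple 1) (b : K),
    mul_mem (hGL_mem _ hs0 a'.ne_zero) (hGL_mem _ hs1 b.ne_zero), ?_⟩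
  exact (d4_foldTab.rel_hOrb (d4R K) (g2R K) twTab_D4a d4bl hOK hTab (by decide : 0 < chevG2.rank)
    (a' : K)).mul (d4_foldTab.rel_hOrb (d4R K) (g2R K) twTab_D4a d4bl hOK hTab
      (by decide : 1 < chevG2.rank) (b : K))

/-- The fixed points of the triality graph automorphism of `D₄(K)` form a group isomorphic to `G₂(K)`. -/
theorem fold_D4 [Fintype K] :
    Nonempty (↥(chevD4.group K ⊓
      twFix chevD4 (spGL K chevD4 gautP_D4a gautQ_D4a d4_hinv) (RingHom.id K)) ≃* ↥(chevG2.group K)) := by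
  obtain ⟨hOK, hTab, hIn, hCov, hlen, -, -⟩ := d4_fold_bl
  obtain ⟨h1, h2, h3, h4, h5, h6⟩ := d4_fold
  obtain ⟨fw, hW⟩ := wtFacts_of_mem d4_mem
  have hB := blocks_of_checks twTab_D4a twTab2_D4a (d4R K).wf d4_hn blocksChk_D4
  have hx := d4_last_mem
  have CF := commFormulaPos_of_full hW (fun r s hr hs h1 h2 => (d4R K).cf r hr s hs h1 h2)
  have hbl : ∀ j < chevG2.rank, ValidW chevD4 (d4bl j) := fun j hj => hB.lt _ (h1 j hj)
  have hcov : ∀ b ∈ d4Blocks, ∃ j < chevG2.rank, (d4R K).nW b = (d4R K).nW (d4bl j) := by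
    intro b hb
    simp only [d4Blocks, List.mem_cons, List.not_mem_nil, or_false] at hb
    rcases hb with rfl | rfl | rfl
    · exact ⟨1, by decide, rfl⟩
    · exact ⟨0, by decide, rfl⟩
    · exact ⟨0, by decide, d4_nW_rev⟩
  have hrel : ∀ i j : Fin chevG2.rank,
      ((rootSys chevD4 (d4R K).wf d4_hn).ev (d4bl i) * (rootSys chevD4 (d4R K).wf d4_hn).ev (d4bl j)) ^
        (CoxeterMatrix.G₂) i j = 1 := by
    intro i j
    have e : (CoxeterMatrix.G₂) i j = cmN wC_G2 i.val j.val := wM_G2 i j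
    rw [e, ← RootSys.ev_append]
    exact ev_pow_eq_one (d4R K).wf d4_hn
      (ValidW.append (hB.lt _ (h1 i.val i.isLt)) (hB.lt _ (h1 j.val j.isLt))) _
      (h6 i.val i.isLt j.val j.isLt)
  have hU := d4_foldTab.relU (d4R K) (g2R K) d4_hinv gaut_roots_D4a twTab_D4a hW
    (rootElts_of_mem d4_mem) htFacts_D4 twTab2_D4a rho_ht_D4a CF 3 d4FOrbs d4FPos d4_posRoots
    (d4Data_orb _ hx) (d4Data_sorted _ hx) (d4Data_closed _ hx) hIn
  have hU0 := d4_foldTab.relU_one (d4R K) (g2R K) d4_hinv gaut_roots_D4a twTab_D4a hW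
    (rootElts_of_mem d4_mem) htFacts_D4 twTab2_D4a rho_ht_D4a CF 3 d4FOrbs d4FPos d4_posRoots
    (d4Data_orb _ hx) (d4Data_sorted _ hx) (d4Data_closed _ hx) hIn
    (fun s hs => hCov s hs.1 hs) hlen
    (card_posUnipotent_of_mem g2_mem (fun r s hr hs h1 h2 => (g2R K).cf r hr s hs h1 h2))
  exact fold_equiv (d4R K) d4_hn (weylOK_D4 (d4R K).wf d4_hn) d4_hinv gaut_roots_D4a twTab_D4a
    twTab2_D4a hB d4_hnfix (d4_hH K) (g2R K) g2_hn (weylOK_G2 (g2R K).wf g2_hn)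
    (jMat K chevD4 chevG2 d4Rt) (pMat K chevD4 chevG2 d4Pt) (pMat_mul_jMat d4_foldTab.pj) d4bl hbl hcov
    (fun j hj => d4_foldTab.rel_nW (d4R K) (g2R K) twTab_D4a d4bl hOK hTab hj) hrel hU d4_fold_H
    (d4_foldTab.surj (d4R K) (g2R K) d4_hinv gaut_roots_D4a) hU0
    (d4_foldTab.diag_one (d4_hH K))

theorem d4_long : ∀ i < chevD4.rank, chevD4.isLong (chevD4.simple i) = false := by decide +kernel

/-- The fixed points of an automorphism of `D₄(K)` acting as the triality on the root elements of the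
fundamental roots. -/
theorem d4_fix_equiv [Fintype K] (τ ψ : ↥(chevD4.group K) ≃* ↥(chevD4.group K))
    (hψ : GActL chevD4 K ψ [2, 1, 3, 0]) (hfix : ∀ g, τ g = g ↔ ψ g = g) :
    Nonempty (↥(MonoidHom.eqLocus τ.toMonoidHom (MonoidHom.id ↥(chevD4.group K))) ≃*
      ↥(chevG2.group K)) := by
  have e := fun g => hψ.eq_twSig d4_mem _ _ _ _ gaut_chk_D4a d4_hinv g
  obtain ⟨E1⟩ := fix_equiv_of (chevD4.group K)
    (MonoidHom.eqLocus τ.toMonoidHom (MonoidHom.id ↥(chevD4.group K)))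
    (twFix chevD4 (spGL K chevD4 gautP_D4a gautQ_D4a d4_hinv) (RingHom.id K)) (fun g => by
      show τ g = g ↔ _
      rw [hfix g, mem_twFix, ← e g]
      exact ⟨fun h => congrArg Subtype.val h, fun h => Subtype.ext h⟩)
  obtain ⟨E2⟩ := fold_D4 (K := K)
  exact ⟨E1.trans E2⟩

end

end Cfsg.Agent.Helper18
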