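import Cfsg.Agent.Helper18.G2OddW0
import Cfsg.Agent.Helper17.ChevUniMem

/-!
# The centraliser of the torus involution of `G₂(q)`, `q` odd: normal forms (helper18, S4279)
-/

set_option autoImplicit false

namespace Cfsg.Agent.Helper18.G2C

open Cfsg Cfsg.Lie Cfsg.Agent.Helper36 Cfsg.Agent.Helper17 Cfsg.Agent.Helper18
open Cfsg.Agent.Helper18.G2O

theorem g2_posRoots : chevG2.posRoots = [6, 7, 8, 9, 10, 11] := by decide +kernel

theorem g2_orth69 : chevG2.commTerms 6 9 = [] ∧ chevG2.commTerms 6 2 = [] ∧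
    chevG2.commTerms 5 9 = [] ∧ chevG2.commTerms 5 2 = [] := by decide

section

variable {F : Type*} [Field F]

/-- the character of `t0`. -/
def chi0 (r : ℕ) : F := if r = 2 ∨ r = 5 ∨ r = 6 ∨ r = 9 then 1 else -1

theorem chi0_eq {r : ℕ} (hr : r < 12) :
    (((1 : Fˣ) ^ chevG2.cartan 0 r * (-1) ^ chevG2.cartan 1 r : Fˣ) : F) = chi0 r := by
  have c := g2_cartan_tab r hr
  interval_cases r <;>
    simp only [List.getD_cons_succ, List.getD_cons_zero, Prod.mk.injEq] at c <;>
    rw [c.1, c.2] <;> simp [chi0, zpow_neg]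

theorem t0_conj_x {s : ℕ} (hs : s < 12) (t : F) :
    t0 F * xGL (g2B F).xadd s t * (t0 F)⁻¹ = xGL (g2B F).xadd s (chi0 s * t) := by
  have h := (isTor_n1_sq (F := F)).conj_x hs t
  rw [chi0_eq hs] at h
  exact h

theorem t0_conj_word (w : List (ℕ × F)) (hw : ∀ p ∈ w, p.1 < 12) :
    t0 F * wordGL (g2B F).xadd w * (t0 F)⁻¹ =
      wordGL (g2B F).xadd (w.map fun p => (p.1, chi0 p.1 * p.2)) := by
  induction w with
  | nil => simp [wordGL_nil]
  | cons p w ih =>
    rw [wordGL_cons, List.map_cons, wordGL_cons,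
      ← ih (fun q hq => hw q (List.mem_cons_of_mem _ hq)), ← t0_conj_x (hw p List.mem_cons_self)]
    group

/-- The elements `x_6(a) x_9(d)`. -/
noncomputable def u69 (a d : F) : GL chevG2.Idx F :=
  xGL (g2B F).xadd 6 a * xGL (g2B F).xadd 9 d

/-- the coordinate function of `u69 a d`. -/
def tf (a d : F) (r : ℕ) : F := if r = 6 then a else if r = 9 then d else 0

theorem u69_val (a d : F) : ((u69 a d : GL chevG2.Idx F) : Matrix chevG2.Idx chevG2.Idx F) =
    chevG2.wordMat F (chevG2.posRoots.map fun r => (r, tf a d r)) := by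
  rw [g2_posRoots, ← wordGL_val (g2B F).xadd]
  congr 1
  simp only [List.map_cons, List.map_nil, wordGL_cons, wordGL_nil, tf]
  simp [u69, xGL_zero]

theorem u69_mem (a d : F) : u69 a d ∈ chevG2.posUnipotent F :=
  mul_mem (xGL_mem_posUnipotent _ (by decide) _) (xGL_mem_posUnipotent _ (by decide) _)

theorem u69_inj {a d a' d' : F} (h : u69 a d = u69 a' d') : a = a' ∧ d = d' := by
  obtain ⟨t, -, huniq⟩ := (posUnipotent_unique_product_of_mem g2_mem
    (fun r s hr hs h1 h2 => (g2B F).cf r hr s hs h1 h2)).1 (u69 a d) (u69_mem a d)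
  have hz : ∀ a d : F, ∀ r, ¬ chevG2.IsPosRoot r → tf a d r = 0 := by
    intro a d r hr
    unfold tf
    rw [if_neg (by rintro rfl; exact hr (by decide)), if_neg (by rintro rfl; exact hr (by decide))]
  have h1 := huniq (tf a d) ⟨hz a d, u69_val a d⟩
  have h2 := huniq (tf a' d') ⟨hz a' d', by rw [h]; exact u69_val a' d'⟩
  have h3 : tf a d = tf a' d' := h1.trans h2.symm
  exact ⟨by simpa [tf] using congrFun h3 6, by simpa [tf] using congrFun h3 9⟩

theorem u69_mul (a d a' d' : F) : u69 a d * u69 a' d' = u69 (a + a') (d + d') := by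
  unfold u69
  have hc := x_comm (F := F) (a := 6) (b := 9) (by norm_num) (by norm_num) (by norm_num)
    (by decide) g2_orth69.1 a' d
  calc xGL (g2B F).xadd 6 a * xGL (g2B F).xadd 9 d *
        (xGL (g2B F).xadd 6 a' * xGL (g2B F).xadd 9 d')
      = xGL (g2B F).xadd 6 a * (xGL (g2B F).xadd 9 d * xGL (g2B F).xadd 6 a') *
        xGL (g2B F).xadd 9 d' := by group
    _ = xGL (g2B F).xadd 6 a * (xGL (g2B F).xadd 6 a' * xGL (g2B F).xadd 9 d) *
        xGL (g2B F).xadd 9 d' := by rw [hc]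
    _ = (xGL (g2B F).xadd 6 a * xGL (g2B F).xadd 6 a') *
        (xGL (g2B F).xadd 9 d * xGL (g2B F).xadd 9 d') := by group
    _ = _ := by rw [xGL_mul, xGL_mul]

theorem u69_zero : u69 (0 : F) 0 = 1 := by
  unfold u69; rw [xGL_zero, xGL_zero, mul_one]

theorem u69_comm_t0 (a d : F) : t0 F * u69 a d * (t0 F)⁻¹ = u69 a d := by
  unfold u69
  have h6 := t0_conj_x (F := F) (s := 6) (by norm_num) a
  have h9 := t0_conj_x (F := F) (s := 9) (by norm_num) d
  have e : t0 F * (xGL (g2B F).xadd 6 a * xGL (g2B F).xadd 9 d) * (t0 F)⁻¹ =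
      (t0 F * xGL (g2B F).xadd 6 a * (t0 F)⁻¹) * (t0 F * xGL (g2B F).xadd 9 d * (t0 F)⁻¹) := by
    group
  rw [e, h6, h9]
  simp [chi0]

/-- The fixed points of `t0` on `U`. -/
theorem fix_U (h2 : (2 : F) ≠ 0) {u : GL chevG2.Idx F} (hu : u ∈ chevG2.posUnipotent F)
    (hc : t0 F * u * (t0 F)⁻¹ = u) : ∃ a d : F, u = u69 a d := by
  obtain ⟨t, ⟨ht0, ht⟩, huniq⟩ := (posUnipotent_unique_product_of_mem g2_mem
    (fun r s hr hs h1 h2 => (g2B F).cf r hr s hs h1 h2)).1 u hu
  have hu' : u = wordGL (g2B F).xadd (chevG2.posRoots.map fun r => (r, t r)) :=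
    Units.ext (by rw [ht, wordGL_val])
  have h1 := t0_conj_word (F := F) (chevG2.posRoots.map fun r => (r, t r)) (by
    intro p hp
    rw [List.mem_map] at hp
    obtain ⟨r, hr, rfl⟩ := hp
    exact (mem_posRoots.mp hr).1)
  rw [← hu', hc, List.map_map] at h1
  have h3 := huniq (fun r => chi0 r * t r) ⟨fun r hr => by
    show chi0 r * t r = 0
    rw [ht0 r hr, mul_zero], by
    rw [h1, wordGL_val]; rfl⟩
  have hneg : ∀ r, chi0 (F := F) r = -1 → t r = 0 := by
    intro r hr
    have h4 := congrFun h3 r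
    simp only [hr] at h4
    have h5 : (2 : F) * t r = 0 := by linear_combination -h4
    rcases mul_eq_zero.mp h5 with h6 | h6
    · exact absurd h6 h2
    · exact h6
  have e7 := hneg 7 (by simp [chi0])
  have e8 := hneg 8 (by simp [chi0])
  have e10 := hneg 10 (by simp [chi0])
  have e11 := hneg 11 (by simp [chi0])
  refine ⟨t 6, t 9, ?_⟩
  rw [hu', g2_posRoots]
  simp only [List.map_cons, List.map_nil, wordGL_cons, wordGL_nil, e7, e8, e10, e11, xGL_zero,
    mul_one, one_mul, u69]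

end

end Cfsg.Agent.Helper18.G2C
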