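import Cfsg.Agent.Helper18.G2CentA
import Cfsg.Agent.Helper4.G2OWL

/-!
# The centraliser of the torus involution of `G₂(q)`, `q` odd: the cells (helper18, S4279)
-/

set_option autoImplicit false

namespace Cfsg.Agent.Helper18.G2C

open Cfsg Cfsg.Lie Cfsg.Agent.Helper36 Cfsg.Agent.Helper17 Cfsg.Agent.Helper18
open Cfsg.Agent.Helper18.G2O

/-- the roots on which `t0` acts trivially. -/
def inS (r : ℕ) : Prop := r = 2 ∨ r = 5 ∨ r = 6 ∨ r = 9

instance (r : ℕ) : Decidable (inS r) := by unfold inS; infer_instance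

theorem cent_words_tab : ∀ L ∈ ([[], [0], [1], [0, 1], [1, 0], [0, 1, 0], [1, 0, 1], [0, 1, 0, 1],
      [1, 0, 1, 0], [0, 1, 0, 1, 0], [1, 0, 1, 0, 1], [0, 1, 0, 1, 0, 1], [1, 0, 1, 0, 1, 0]] :
      List (List ℕ)), (∀ s < 12, inS (wW chevG2 L s) ↔ inS s) →
    L ∈ ([[], [1], [0, 1, 0, 1, 0], [0, 1, 0, 1, 0, 1], [1, 0, 1, 0, 1, 0]] : List (List ℕ)) := by
  decide +kernel

theorem w5_tab : ∀ L ∈ ([[], [1], [0, 1, 0, 1, 0], [0, 1, 0, 1, 0, 1], [1, 0, 1, 0, 1, 0]] :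
    List (List ℕ)), ValidW chevG2 L ∧ (wW chevG2 L 6 = 6 ∨ wW chevG2 L 6 = 5) ∧
      (wW chevG2 L 9 = 9 ∨ wW chevG2 L 9 = 2) := by
  unfold ValidW
  decide +kernel

section

variable {F : Type*} [Field F]

theorem tor_comm {h h' : GL chevG2.Idx F} (hh : h ∈ chevG2.diagonalSubgroup F)
    (hh' : h' ∈ chevG2.diagonalSubgroup F) : h * h' = h' * h := by
  obtain ⟨z0, z1, hz⟩ := mem_H_iff.mp hh
  obtain ⟨w0, w1, hw⟩ := mem_H_iff.mp hh'
  exact ((hz.mul hw).congr (mul_comm _ _) (mul_comm _ _)).eq (hw.mul hz)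

theorem t0_mem_H : t0 F ∈ chevG2.diagonalSubgroup F := (isTor_n1_sq (F := F)).mem

/-- The normal form of an element of the centraliser of `t0`. -/
theorem cent_nf {g : GL chevG2.Idx F} (hg : g ∈ chevG2.group F)
    (hc : t0 F * g * (t0 F)⁻¹ = g) :
    ∃ u₁ ∈ chevG2.posUnipotent F, ∃ h₁ ∈ chevG2.diagonalSubgroup F, ∃ L, ValidW chevG2 L ∧
      RedW chevG2 L ∧ ∃ u ∈ Subgroup.closure (umGens (g2B F).xadd L),
        g = u₁ * h₁ * (g2B F).nW L * u ∧ t0 F * u₁ * (t0 F)⁻¹ = u₁ ∧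
          t0 F * (g2B F).nW L = (g2B F).nW L * t0 F ∧ t0 F * u * (t0 F)⁻¹ = u := by
  have R := g2B F
  have hh : t0 F ∈ chevG2.diagonalSubgroup F := t0_mem_H
  obtain ⟨b, hb, L, hL, hred, u, hu, rfl⟩ := exists_normal_form_red (g2B F) g hg
  have hu' : t0 F * u * (t0 F)⁻¹ ∈ Subgroup.closure (umGens (g2B F).xadd L) :=
    (g2B F).conj_umGens L _ hh u hu
  have hh3 : t0 F * ((g2B F).nW L * (t0 F)⁻¹ * ((g2B F).nW L)⁻¹) ∈ chevG2.diagonalSubgroup F :=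
    mul_mem hh ((g2B F).nW_conj_H hL _ (inv_mem hh))
  have hn := (g2B F).nW_mem_monomial hL
  have hsub := Subgroup.closure_mono ((g2B F).umGens_subset (F := F) hL)
  have e : b * (g2B F).nW L * u =
      (t0 F * b * (t0 F)⁻¹ * (t0 F * ((g2B F).nW L * (t0 F)⁻¹ * ((g2B F).nW L)⁻¹))) *
        (g2B F).nW L * (t0 F * u * (t0 F)⁻¹) := by
    conv_lhs => rw [← hc]
    group
  have hb' : t0 F * b * (t0 F)⁻¹ * (t0 F * ((g2B F).nW L * (t0 F)⁻¹ * ((g2B F).nW L)⁻¹)) ∈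
      chevG2.borelSubgroup F :=
    mul_mem (mul_mem (mul_mem (BRel.H_le_B chevG2 F hh) hb) (inv_mem (BRel.H_le_B chevG2 F hh)))
      (BRel.H_le_B chevG2 F hh3)
  obtain ⟨hbb, huu⟩ := ((g2B F).normal_form_unique hb hb' hn hn (hsub hu) (hsub hu') e).2 rfl
  have hbm : b ∈ ((chevG2.posUnipotent F ⊔ chevG2.diagonalSubgroup F :
      Subgroup (GL chevG2.Idx F)) : Set (GL chevG2.Idx F)) := hb
  rw [Subgroup.coe_mul_of_right_le_normalizer_left _ _ (g2B F).hU] at hbm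
  obtain ⟨u₁, hu₁', h₁, hh₁', hbe⟩ := hbm
  have hu₁ : u₁ ∈ chevG2.posUnipotent F := hu₁'
  have hh₁ : h₁ ∈ chevG2.diagonalSubgroup F := hh₁'
  have hbe' : b = u₁ * h₁ := hbe.symm
  subst hbe'
  have hcu : t0 F * u₁ * (t0 F)⁻¹ ∈ chevG2.posUnipotent F :=
    (Subgroup.mem_normalizer_iff.mp ((g2B F).hU hh) u₁).mp hu₁
  have hcomm : t0 F * h₁ = h₁ * t0 F := tor_comm hh hh₁
  have hx : u₁⁻¹ * (t0 F * u₁ * (t0 F)⁻¹) =
      h₁ * (h₁ * (t0 F * ((g2B F).nW L * (t0 F)⁻¹ * ((g2B F).nW L)⁻¹)))⁻¹ := by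
    have e2 : t0 F * (u₁ * h₁) * (t0 F)⁻¹ *
        (t0 F * ((g2B F).nW L * (t0 F)⁻¹ * ((g2B F).nW L)⁻¹)) =
        (t0 F * u₁ * (t0 F)⁻¹) *
          (h₁ * (t0 F * ((g2B F).nW L * (t0 F)⁻¹ * ((g2B F).nW L)⁻¹))) := by
      have : t0 F * (u₁ * h₁) * (t0 F)⁻¹ = (t0 F * u₁ * (t0 F)⁻¹) * (t0 F * h₁ * (t0 F)⁻¹) := by
        group
      rw [this, hcomm, mul_assoc h₁ (t0 F) (t0 F)⁻¹, mul_inv_cancel, mul_one, mul_assoc]
    rw [e2] at hbb
    have e3 : t0 F * u₁ * (t0 F)⁻¹ =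
        u₁ * h₁ * (h₁ * (t0 F * ((g2B F).nW L * (t0 F)⁻¹ * ((g2B F).nW L)⁻¹)))⁻¹ := by
      rw [hbb]; group
    rw [e3]; group
  have hmem : u₁⁻¹ * (t0 F * u₁ * (t0 F)⁻¹) ∈
      chevG2.posUnipotent F ⊓ chevG2.diagonalSubgroup F :=
    Subgroup.mem_inf.mpr ⟨mul_mem (inv_mem hu₁) hcu, by
      rw [hx]; exact mul_mem hh₁ (inv_mem (mul_mem hh₁ hh3))⟩
  rw [(g2B F).uh, Subgroup.mem_bot] at hmem
  have hcu1 : t0 F * u₁ * (t0 F)⁻¹ = u₁ := by
    rw [inv_mul_eq_one] at hmem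
    exact hmem.symm
  have hnh : t0 F * ((g2B F).nW L * (t0 F)⁻¹ * ((g2B F).nW L)⁻¹) = 1 := by
    rw [hmem] at hx
    have h5 : h₁ * (t0 F * ((g2B F).nW L * (t0 F)⁻¹ * ((g2B F).nW L)⁻¹)) = h₁ := by
      have h6 := hx.symm
      rw [mul_inv_eq_one] at h6
      exact h6.symm
    exact mul_left_cancel (a := h₁) (by rw [h5, mul_one])
  have hnh' : t0 F * (g2B F).nW L = (g2B F).nW L * t0 F := by
    have : t0 F * ((g2B F).nW L * (t0 F)⁻¹ * ((g2B F).nW L)⁻¹) * ((g2B F).nW L * t0 F) =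
        t0 F * (g2B F).nW L := by group
    rw [← this, hnh, one_mul]
  exact ⟨u₁, hu₁, h₁, hh₁, L, hL, hred, u, hu, rfl, hcu1, hnh', huu.symm⟩

theorem chi0_eq_iff (h2 : (2 : F) ≠ 0) (a b : ℕ) : chi0 (F := F) a = chi0 b ↔ (inS a ↔ inS b) := by
  have hne : (1 : F) ≠ -1 := by
    intro h
    apply h2
    linear_combination h
  unfold chi0 inS
  by_cases ha : a = 2 ∨ a = 5 ∨ a = 6 ∨ a = 9 <;> by_cases hb : b = 2 ∨ b = 5 ∨ b = 6 ∨ b = 9
  · simp [ha, hb]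
  · simp [ha, hb, hne]
  · simp [ha, hb, hne.symm]
  · simp [ha, hb]

/-- The reduced words whose lift commutes with `t0`. -/
theorem cent_words (h2 : (2 : F) ≠ 0) {L : List ℕ} (hL : ValidW chevG2 L) (hred : RedW chevG2 L)
    (hc : t0 F * (g2B F).nW L = (g2B F).nW L * t0 F) :
    L ∈ ([[], [1], [0, 1, 0, 1, 0], [0, 1, 0, 1, 0, 1], [1, 0, 1, 0, 1, 0]] : List (List ℕ)) := by
  apply cent_words_tab L (Cfsg.Agent.Helper4.G2O.g2o_red_mem L hL hred)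
  intro s hs
  rw [← chi0_eq_iff h2]
  have hws : wW chevG2 L s < 12 := (g2B F).wf.wW_lt hL hs
  have h1 := (g2B F).nW_conj_x hL hs (1 : F)
  have h3 : t0 F * ((g2B F).nW L * xGL (g2B F).xadd s 1 * ((g2B F).nW L)⁻¹) * (t0 F)⁻¹ =
      (g2B F).nW L * (t0 F * xGL (g2B F).xadd s 1 * (t0 F)⁻¹) * ((g2B F).nW L)⁻¹ := by
    have e3 : t0 F * ((g2B F).nW L * xGL (g2B F).xadd s 1 * ((g2B F).nW L)⁻¹) * (t0 F)⁻¹ =
        (t0 F * (g2B F).nW L) * xGL (g2B F).xadd s 1 * (t0 F * (g2B F).nW L)⁻¹ := by group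
    rw [e3, hc]
    group
  rw [h1, t0_conj_x hws, t0_conj_x hs, (g2B F).nW_conj_x hL hs] at h3
  have h4 := x_inj_of_bRel (g2B F) hws (congrArg Units.val h3)
  have h6 : ((eW chevG2 (etaN chevG2) L s : ℤ) : F) ≠ 0 := (g2B F).eW_ne_zero hL hs
  rw [mul_one, mul_one, mul_comm] at h4
  exact mul_left_cancel₀ h6 h4

theorem pos_V_zero {r : ℕ} (hr : chevG2.IsPosRoot r) {c : F}
    (h : xGL (g2B F).xadd r c ∈ chevG2.negUnipotent F) : c = 0 := by
  have h2 : xGL (g2B F).xadd r c ∈ chevG2.borelSubgroup F ⊓ chevG2.negUnipotent F :=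
    ⟨BRel.U_le_B chevG2 F (xGL_mem_posUnipotent _ hr _), h⟩
  rw [(g2B F).bv, Subgroup.mem_bot] at h2
  have h3 := congrArg (fun g : GL chevG2.Idx F => (g : Matrix chevG2.Idx chevG2.Idx F)) h2
  simp only [xGL_val, Units.val_one] at h3
  exact (g2B F).xinj _ hr.1 _ h3

theorem u69_mem_um {L : List ℕ} {s s' : F} (h6 : s = 0 ∨ chevG2.IsNegRoot (wW chevG2 L 6))
    (h9 : s' = 0 ∨ chevG2.IsNegRoot (wW chevG2 L 9)) :
    u69 s s' ∈ Subgroup.closure (umGens (g2B F).xadd L) := by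
  unfold u69
  apply mul_mem
  · rcases h6 with rfl | h6
    · rw [xGL_zero]; exact one_mem _
    · exact Subgroup.subset_closure ⟨6, s, by decide, h6, rfl⟩
  · rcases h9 with rfl | h9
    · rw [xGL_zero]; exact one_mem _
    · exact Subgroup.subset_closure ⟨9, s', by decide, h9, rfl⟩

/-- The elements `x_6(s) x_9(s')` of `U_w⁻`. -/
theorem cell_cond {L : List ℕ}
    (hL5 : L ∈ ([[], [1], [0, 1, 0, 1, 0], [0, 1, 0, 1, 0, 1], [1, 0, 1, 0, 1, 0]] :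
      List (List ℕ))) {s s' : F}
    (hu : u69 s s' ∈ Subgroup.closure (umGens (g2B F).xadd L)) :
    (s = 0 ∨ chevG2.IsNegRoot (wW chevG2 L 6)) ∧ (s' = 0 ∨ chevG2.IsNegRoot (wW chevG2 L 9)) := by
  obtain ⟨hL, h6, h9⟩ := w5_tab L hL5
  have hV : (g2B F).nW L * u69 s s' * ((g2B F).nW L)⁻¹ ∈ chevG2.negUnipotent F :=
    conj_unGens_mem _ _ (Subgroup.closure_mono ((g2B F).umGens_subset (F := F) hL) hu)
  have e : (g2B F).nW L * u69 s s' * ((g2B F).nW L)⁻¹ =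
      ((g2B F).nW L * xGL (g2B F).xadd 6 s * ((g2B F).nW L)⁻¹) *
        ((g2B F).nW L * xGL (g2B F).xadd 9 s' * ((g2B F).nW L)⁻¹) := by
    unfold u69; group
  rw [e, (g2B F).nW_conj_x hL (by decide), (g2B F).nW_conj_x hL (by decide)] at hV
  have he6 : ((eW chevG2 (etaN chevG2) L 6 : ℤ) : F) ≠ 0 := (g2B F).eW_ne_zero hL (by decide)
  have he9 : ((eW chevG2 (etaN chevG2) L 9 : ℤ) : F) ≠ 0 := (g2B F).eW_ne_zero hL (by decide)
  rcases h6 with h6 | h6 <;> rcases h9 with h9 | h9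
  · -- both positive
    rw [h6, h9] at hV
    have h1 : u69 ((eW chevG2 (etaN chevG2) L 6 : F) * s) ((eW chevG2 (etaN chevG2) L 9 : F) * s') ∈
        chevG2.borelSubgroup F ⊓ chevG2.negUnipotent F :=
      ⟨BRel.U_le_B chevG2 F (u69_mem _ _), hV⟩
    rw [(g2B F).bv, Subgroup.mem_bot, ← u69_zero] at h1
    obtain ⟨e1, e2⟩ := u69_inj h1
    exact ⟨Or.inl ((mul_eq_zero.mp e1).resolve_left he6),
      Or.inl ((mul_eq_zero.mp e2).resolve_left he9)⟩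
  · -- 6 positive, 9 negative
    rw [h6, h9] at hV
    have h1 : xGL (g2B F).xadd 6 ((eW chevG2 (etaN chevG2) L 6 : F) * s) ∈
        chevG2.negUnipotent F := by
      have := mul_mem hV (inv_mem (xGL_mem_negUnipotent (g2B F).xadd (s := 2) (by decide)
        ((eW chevG2 (etaN chevG2) L 9 : F) * s')))
      rwa [mul_inv_cancel_right] at this
    have e1 := pos_V_zero (by decide) h1
    exact ⟨Or.inl ((mul_eq_zero.mp e1).resolve_left he6), Or.inr (by rw [h9]; decide)⟩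
  · -- 6 negative, 9 positive
    rw [h6, h9] at hV
    have h1 : xGL (g2B F).xadd 9 ((eW chevG2 (etaN chevG2) L 9 : F) * s') ∈
        chevG2.negUnipotent F := by
      have := mul_mem (inv_mem (xGL_mem_negUnipotent (g2B F).xadd (s := 5) (by decide)
        ((eW chevG2 (etaN chevG2) L 6 : F) * s))) hV
      rwa [inv_mul_cancel_left] at this
    have e1 := pos_V_zero (by decide) h1
    exact ⟨Or.inr (by rw [h6]; decide), Or.inl ((mul_eq_zero.mp e1).resolve_left he9)⟩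
  · exact ⟨Or.inr (by rw [h6]; decide), Or.inr (by rw [h9]; decide)⟩

theorem conj5 {G : Type*} [Group G] (a b h : G) :
    a * (b * (a * (b * (a * 1)))) * h * (a * (b * (a * (b * (a * 1)))))⁻¹ =
      a * (b * (a * (b * (a * h * a⁻¹) * b⁻¹) * a⁻¹) * b⁻¹) * a⁻¹ := by group

/-- `t0` commutes with the lifts of the four elements of its stabiliser in the Weyl group. -/
theorem t0_comm_nW {L : List ℕ}
    (hL : L ∈ ([[], [1], [0, 1, 0, 1, 0], [0, 1, 0, 1, 0, 1]] : List (List ℕ))) :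
    t0 F * (g2B F).nW L = (g2B F).nW L * t0 F := by
  have hz := isTor_n1_sq (F := F)
  have e3 : ((-1 : Fˣ)) ^ 3 = -1 := Odd.neg_one_pow (by decide)
  have key : ∀ n : GL chevG2.Idx F, n * t0 F * n⁻¹ = t0 F → t0 F * n = n * t0 F := by
    intro n h
    have : n * t0 F = n * t0 F * n⁻¹ * n := by group
    rw [this, h]
  simp only [List.mem_cons, List.not_mem_nil, or_false] at hL
  rcases hL with rfl | rfl | rfl | rfl
  · rw [NRel.nW_nil, mul_one, one_mul]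
  · apply key
    have e1 : (g2B F).nW [1] = (g2B F).n 1 := by simp [NRel.nW]
    rw [e1]
    refine (hz.conj_n1.congr rfl ?_).eq hz
    simp
  · apply key
    have e1 : (g2B F).nW [0, 1, 0, 1, 0] = (g2B F).n 0 * ((g2B F).n 1 * ((g2B F).n 0 *
        ((g2B F).n 1 * ((g2B F).n 0 * 1)))) := by simp [NRel.nW]
    rw [e1, conj5]
    refine (hz.conj_n0.conj_n1.conj_n0.conj_n1.conj_n0.congr ?_ ?_).eq hz
    · simp [e3]
    · simp [e3]
  · apply key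
    have h1 := hz.conj_p1
    refine (h1.congr ?_ ?_).eq hz
    · simp
    · simp

end

end Cfsg.Agent.Helper18.G2C
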