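import Cfsg.Agent.Helper18.G2CentB

/-!
# The order of the centraliser of the torus involution of `G₂(q)`, `q` odd (helper18, S4279)
-/

set_option autoImplicit false

namespace Cfsg.Agent.Helper18.G2C

open Cfsg Cfsg.Lie Cfsg.Agent.Helper36 Cfsg.Agent.Helper17 Cfsg.Agent.Helper18
open Cfsg.Agent.Helper18.G2O

theorem w4_sep : ∀ L ∈ ([[], [1], [0, 1, 0, 1, 0], [0, 1, 0, 1, 0, 1]] : List (List ℕ)),
    ∀ L' ∈ ([[], [1], [0, 1, 0, 1, 0], [0, 1, 0, 1, 0, 1]] : List (List ℕ)), L ≠ L' →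
      ∃ s < 12, chevG2.IsPosRoot (wW chevG2 L s) ∧ chevG2.IsNegRoot (wW chevG2 L' s) := by
  decide +kernel

theorem w4_tab : ∀ L ∈ ([[], [1], [0, 1, 0, 1, 0], [0, 1, 0, 1, 0, 1]] : List (List ℕ)),
    ValidW chevG2 L := by
  unfold ValidW
  decide +kernel

theorem w_neg_tab : ¬ chevG2.IsNegRoot (wW chevG2 [] 6) ∧ ¬ chevG2.IsNegRoot (wW chevG2 [] 9) ∧
    chevG2.IsNegRoot (wW chevG2 [1] 6) ∧ ¬ chevG2.IsNegRoot (wW chevG2 [1] 9) ∧
    ¬ chevG2.IsNegRoot (wW chevG2 [0, 1, 0, 1, 0] 6) ∧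
    chevG2.IsNegRoot (wW chevG2 [0, 1, 0, 1, 0] 9) ∧
    chevG2.IsNegRoot (wW chevG2 [0, 1, 0, 1, 0, 1] 6) ∧
    chevG2.IsNegRoot (wW chevG2 [0, 1, 0, 1, 0, 1] 9) := by decide +kernel

section

variable {F : Type*} [Field F]

/-- The parameters of the four cells. -/
abbrev CellP (F : Type*) := Unit ⊕ F ⊕ F ⊕ (F × F)

/-- the word of a cell. -/
def cellW : CellP F → List ℕ
  | .inl _ => []
  | .inr (.inl _) => [1]
  | .inr (.inr (.inl _)) => [0, 1, 0, 1, 0]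
  | .inr (.inr (.inr _)) => [0, 1, 0, 1, 0, 1]

/-- the coordinates of the element of `U_w⁻` of a cell. -/
def cellS : CellP F → F × F
  | .inl _ => (0, 0)
  | .inr (.inl s) => (s, 0)
  | .inr (.inr (.inl s)) => (0, s)
  | .inr (.inr (.inr p)) => p

theorem cellW_mem (c : CellP F) :
    cellW c ∈ ([[], [1], [0, 1, 0, 1, 0], [0, 1, 0, 1, 0, 1]] : List (List ℕ)) := by
  rcases c with _ | _ | _ | _ <;> simp [cellW]

theorem cell_inj {c c' : CellP F} (hw : cellW c = cellW c') (hs : cellS c = cellS c') : c = c' := by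
  rcases c with _ | s | s | p <;> rcases c' with _ | s' | s' | p' <;>
    simp [cellW, cellS] at hw hs ⊢ <;> first | exact hs | exact hs.1 | exact hs.2 | skip

theorem cell_ok (c : CellP F) :
    ((cellS c).1 = 0 ∨ chevG2.IsNegRoot (wW chevG2 (cellW c) 6)) ∧
      ((cellS c).2 = 0 ∨ chevG2.IsNegRoot (wW chevG2 (cellW c) 9)) := by
  rcases c with _ | s | s | p
  · exact ⟨Or.inl rfl, Or.inl rfl⟩
  · exact ⟨Or.inr w_neg_tab.2.2.1, Or.inl rfl⟩
  · exact ⟨Or.inl rfl, Or.inr w_neg_tab.2.2.2.2.2.1⟩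
  · exact ⟨Or.inr w_neg_tab.2.2.2.2.2.2.1, Or.inr w_neg_tab.2.2.2.2.2.2.2⟩

/-- The torus element with coordinates `(z0, z1)`. -/
noncomputable def hzT (z0 z1 : Fˣ) : GL chevG2.Idx F :=
  hGL (g2B F).xadd 7 (z0 : F) * hGL (g2B F).xadd 6 (z1 : F)

theorem isTor_hzT (z0 z1 : Fˣ) : IsTor (hzT z0 z1) z0 z1 :=
  ((isTor_hGL7 z0).mul (isTor_hGL6 z1)).congr (mul_one _) (one_mul _)

/-- The parametrisation of the centraliser of `t0`. -/
noncomputable def cf (x : (F × F × Fˣ × Fˣ) × CellP F) : GL chevG2.Idx F :=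
  u69 x.1.1 x.1.2.1 * hzT x.1.2.2.1 x.1.2.2.2 * (g2B F).nW (cellW x.2) *
    u69 (cellS x.2).1 (cellS x.2).2

theorem u69_mem_group (a d : F) : u69 a d ∈ chevG2.group F :=
  mul_mem (xGL_mem_group _ _ _) (xGL_mem_group _ _ _)

theorem nW_mem_group {L : List ℕ} (hL : ValidW chevG2 L) : (g2B F).nW L ∈ chevG2.group F :=
  Cfsg.Agent.Helper36.monomialSubgroup_le_group (g2B F).xadd ((g2B F).nW_mem_monomial hL)

theorem cf_mem (x : (F × F × Fˣ × Fˣ) × CellP F) : cf x ∈ chevG2.group F := by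
  unfold cf
  exact mul_mem (mul_mem (mul_mem (u69_mem_group _ _)
    (Cfsg.Agent.Helper36.diagonalSubgroup_le_group (g2B F).xadd (isTor_hzT _ _).mem))
    (nW_mem_group (w4_tab _ (cellW_mem x.2)))) (u69_mem_group _ _)

theorem conj4 {G : Type*} [Group G] (t a b c d : G) (ha : t * a * t⁻¹ = a) (hb : t * b = b * t)
    (hc : t * c = c * t) (hd : t * d * t⁻¹ = d) : t * (a * b * c * d) * t⁻¹ = a * b * c * d := by
  have hb' : t * b * t⁻¹ = b := by rw [hb]; group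
  have hc' : t * c * t⁻¹ = c := by rw [hc]; group
  calc t * (a * b * c * d) * t⁻¹ = (t * a * t⁻¹) * (t * b * t⁻¹) * (t * c * t⁻¹) * (t * d * t⁻¹) := by
        group
    _ = a * b * c * d := by rw [ha, hb', hc', hd]

theorem cf_comm (x : (F × F × Fˣ × Fˣ) × CellP F) : t0 F * cf x * (t0 F)⁻¹ = cf x := by
  unfold cf
  exact conj4 _ _ _ _ _ (u69_comm_t0 _ _) (tor_comm t0_mem_H (isTor_hzT _ _).mem)
    (t0_comm_nW (cellW_mem x.2)) (u69_comm_t0 _ _)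

theorem w4_eq_of_mem_H {L L' : List ℕ}
    (hL : L ∈ ([[], [1], [0, 1, 0, 1, 0], [0, 1, 0, 1, 0, 1]] : List (List ℕ)))
    (hL' : L' ∈ ([[], [1], [0, 1, 0, 1, 0], [0, 1, 0, 1, 0, 1]] : List (List ℕ)))
    (h : ((g2B F).nW L)⁻¹ * (g2B F).nW L' ∈ chevG2.diagonalSubgroup F) : L = L' := by
  by_contra hne
  obtain ⟨s, hs, hpos, hneg⟩ := w4_sep L hL L' hL' hne
  have vL := w4_tab L hL
  have vL' := w4_tab L' hL'
  obtain ⟨c, hc⟩ := (g2B F).hx _ h s hs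
  have h1 := (g2B F).nW_conj_x vL' hs (1 : F)
  have h2 := (g2B F).nW_conj_x vL hs (c * 1)
  have e : (g2B F).nW L' * xGL (g2B F).xadd s 1 * ((g2B F).nW L')⁻¹ =
      (g2B F).nW L * ((((g2B F).nW L)⁻¹ * (g2B F).nW L') * xGL (g2B F).xadd s 1 *
        (((g2B F).nW L)⁻¹ * (g2B F).nW L')⁻¹) * ((g2B F).nW L)⁻¹ := by group
  rw [e, hc, h2] at h1
  have h3 : xGL (g2B F).xadd (wW chevG2 L' s) ((eW chevG2 (etaN chevG2) L' s : F) * 1) ∈
      chevG2.borelSubgroup F := by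
    rw [← h1]
    exact BRel.U_le_B chevG2 F (xGL_mem_posUnipotent _ hpos _)
  refine (g2B F).xneg_not_mem_B hneg ?_ h3
  rw [mul_one]
  exact (g2B F).eW_ne_zero vL' hs

theorem cf_inj : Function.Injective (cf (F := F)) := by
  rintro ⟨⟨a, d, z0, z1⟩, c⟩ ⟨⟨a', d', z0', z1'⟩, c'⟩ h
  unfold cf at h
  simp only at h
  have hb : u69 a d * hzT z0 z1 ∈ chevG2.borelSubgroup F :=
    mul_mem (BRel.U_le_B chevG2 F (u69_mem _ _)) (BRel.H_le_B chevG2 F (isTor_hzT _ _).mem)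
  have hb' : u69 a' d' * hzT z0' z1' ∈ chevG2.borelSubgroup F :=
    mul_mem (BRel.U_le_B chevG2 F (u69_mem _ _)) (BRel.H_le_B chevG2 F (isTor_hzT _ _).mem)
  have vL := w4_tab _ (cellW_mem c)
  have vL' := w4_tab _ (cellW_mem c')
  have hn := (g2B F).nW_mem_monomial vL
  have hn' := (g2B F).nW_mem_monomial vL'
  have hu := Subgroup.closure_mono ((g2B F).umGens_subset (F := F) vL)
    (u69_mem_um (cell_ok c).1 (cell_ok c).2)
  have hu' := Subgroup.closure_mono ((g2B F).umGens_subset (F := F) vL')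
    (u69_mem_um (cell_ok c').1 (cell_ok c').2)
  obtain ⟨h1, h2⟩ := (g2B F).normal_form_unique hb hb' hn hn' hu hu' h
  have hw : cellW c = cellW c' := w4_eq_of_mem_H (cellW_mem c) (cellW_mem c') h1
  obtain ⟨hbb, huu⟩ := h2 (by rw [hw])
  obtain ⟨e1, e2⟩ := u69_inj huu
  have hc : c = c' := cell_inj hw (Prod.ext e1 e2)
  have hmem : (u69 a' d')⁻¹ * u69 a d ∈ chevG2.posUnipotent F ⊓ chevG2.diagonalSubgroup F := by
    refine Subgroup.mem_inf.mpr ⟨mul_mem (inv_mem (u69_mem _ _)) (u69_mem _ _), ?_⟩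
    have : (u69 a' d')⁻¹ * u69 a d = hzT z0' z1' * (hzT z0 z1)⁻¹ := by
      have e3 : u69 a d = u69 a' d' * hzT z0' z1' * (hzT z0 z1)⁻¹ := by rw [← hbb]; group
      rw [e3]; group
    rw [this]
    exact mul_mem (isTor_hzT _ _).mem (inv_mem (isTor_hzT _ _).mem)
  rw [(g2B F).uh, Subgroup.mem_bot, inv_mul_eq_one] at hmem
  obtain ⟨e3, e4⟩ := u69_inj hmem.symm
  have hhh : hzT z0 z1 = hzT z0' z1' := by
    rw [← hmem] at hbb
    exact mul_left_cancel hbb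
  obtain ⟨e5, e6⟩ := (isTor_hzT z0 z1).coord (hhh ▸ isTor_hzT z0' z1')
  subst e3; subst e4; subst e5; subst e6; subst hc
  rfl

theorem cf_surj (h2 : (2 : F) ≠ 0) {g : GL chevG2.Idx F} (hg : g ∈ chevG2.group F)
    (hc : t0 F * g * (t0 F)⁻¹ = g) : ∃ x, cf x = g := by
  obtain ⟨u₁, hu₁, h₁, hh₁, L, hL, hred, u, hu, rfl, hf1, hfn, hfu⟩ := cent_nf hg hc
  obtain ⟨a, d, rfl⟩ := fix_U h2 hu₁ hf1
  obtain ⟨z0, z1, hz⟩ := mem_H_iff.mp hh₁
  have hh : h₁ = hzT z0 z1 := hz.eq (isTor_hzT z0 z1)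
  subst hh
  have hL5 := cent_words h2 hL hred hfn
  have huU : u ∈ chevG2.posUnipotent F :=
    unGens_le_posUnipotent _ (Subgroup.closure_mono ((g2B F).umGens_subset (F := F) hL) hu)
  obtain ⟨s, s', rfl⟩ := fix_U h2 huU hfu
  obtain ⟨c6, c9⟩ := cell_cond hL5 hu
  simp only [List.mem_cons, List.not_mem_nil, or_false] at hL5
  rcases hL5 with rfl | rfl | rfl | rfl | rfl
  · have e1 := c6.resolve_right w_neg_tab.1
    have e2 := c9.resolve_right w_neg_tab.2.1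
    subst e1; subst e2
    exact ⟨((a, d, z0, z1), Sum.inl ()), rfl⟩
  · have e2 := c9.resolve_right w_neg_tab.2.2.2.1
    subst e2
    exact ⟨((a, d, z0, z1), Sum.inr (Sum.inl s)), rfl⟩
  · have e1 := c6.resolve_right w_neg_tab.2.2.2.2.1
    subst e1
    exact ⟨((a, d, z0, z1), Sum.inr (Sum.inr (Sum.inl s'))), rfl⟩
  · exact ⟨((a, d, z0, z1), Sum.inr (Sum.inr (Sum.inr (s, s')))), rfl⟩
  · refine ⟨((a, d, z0, z1), Sum.inr (Sum.inr (Sum.inr (s, s')))), ?_⟩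
    rw [nW_braid]
    rfl

/-- The centraliser of `t0` in the group has order `q² (q² - 1)²`. -/
theorem card_cent_t0 [Fintype F] (h2 : (2 : F) ≠ 0) :
    Nat.card {g : GL chevG2.Idx F // g ∈ chevG2.group F ∧ t0 F * g * (t0 F)⁻¹ = g} =
      Fintype.card F ^ 2 * (Fintype.card F ^ 2 - 1) ^ 2 := by
  have e : ((F × F × Fˣ × Fˣ) × CellP F) ≃
      {g : GL chevG2.Idx F // g ∈ chevG2.group F ∧ t0 F * g * (t0 F)⁻¹ = g} :=
    Equiv.ofBijective (fun x => ⟨cf x, cf_mem x, cf_comm x⟩) ⟨by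
      intro x y h
      exact cf_inj (congrArg Subtype.val h), by
      rintro ⟨g, hg, hc⟩
      obtain ⟨x, hx⟩ := cf_surj h2 hg hc
      exact ⟨x, Subtype.ext hx⟩⟩
  rw [← Nat.card_congr e]
  have e0 : Nat.card ((F × F × Fˣ × Fˣ) × CellP F) =
      Fintype.card F * (Fintype.card F * ((Fintype.card F - 1) * (Fintype.card F - 1))) *
        (1 + (Fintype.card F + (Fintype.card F + Fintype.card F * Fintype.card F))) := by
    show Nat.card ((F × F × Fˣ × Fˣ) × (Unit ⊕ F ⊕ F ⊕ (F × F))) = _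
    simp only [Nat.card_prod, Nat.card_sum, Nat.card_units, Nat.card_eq_fintype_card,
      Fintype.card_unit, Fintype.card_sum, Fintype.card_prod]
  rw [e0]
  have hq : 1 ≤ Fintype.card F := Fintype.card_pos
  obtain ⟨k, hk⟩ : ∃ k, Fintype.card F = k + 1 := ⟨Fintype.card F - 1, by omega⟩
  rw [hk]
  have e1 : (k + 1) ^ 2 - 1 = k * (k + 2) := by
    have : (k + 1) ^ 2 = k * (k + 2) + 1 := by ring
    omega
  rw [e1, Nat.add_sub_cancel]
  ring

end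

end Cfsg.Agent.Helper18.G2C
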