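import Cfsg.Agent.Helper18.G2CentC
import Cfsg.Agent.Helper17.ChevSL2Hom

/-!
# The two root `SL₂`'s in the centraliser of the torus involution of `G₂(q)` (helper18, S4279)
-/

set_option autoImplicit false

namespace Cfsg.Agent.Helper18.G2C

open Cfsg Cfsg.Lie Cfsg.Agent.Helper36 Cfsg.Agent.Helper17 Cfsg.Agent.Helper18
open Cfsg.Agent.Helper18.G2O

theorem mid_eq {G : Type*} [Group G] {A X B : G} (h : 1 = A * (X * B)) : X = A⁻¹ * B⁻¹ := by
  have : X = A⁻¹ * (A * (X * B)) * B⁻¹ := by group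
  rw [this, ← h]; group

section

variable {F : Type*} [Field F]

/-- `φ` is the homomorphism `SL₂(F) → GL` of the root `r`. -/
def IsPhi (r : ℕ) (φ : Matrix.SpecialLinearGroup (Fin 2) F →* GL chevG2.Idx F) : Prop :=
  ∀ (g : Matrix.SpecialLinearGroup (Fin 2) F) (w : List (ℕ × F)),
    (∀ p ∈ w, p.1 = r ∨ p.1 = chevG2.neg r) →
      sl2Word r w = (g : Matrix (Fin 2) (Fin 2) F) → φ g = wordGL (g2B F).xadd w

theorem exists_phi {r : ℕ} (hr : r < 12) :
    ∃ φ : Matrix.SpecialLinearGroup (Fin 2) F →* GL chevG2.Idx F, IsPhi r φ := by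
  obtain ⟨φ, hφ⟩ := exists_sl2Hom (F := F) (rankOne_of_mem g2_mem hr) (cartanFacts_of_mem g2_mem)
  exact ⟨φ, fun g w hw he => Units.ext (by rw [hφ g w hw he, wordGL_val])⟩

theorem IsPhi.word {r : ℕ} {φ : Matrix.SpecialLinearGroup (Fin 2) F →* GL chevG2.Idx F}
    (h : IsPhi r φ) (hne : chevG2.neg r ≠ r) (g : Matrix.SpecialLinearGroup (Fin 2) F) :
    ∃ w : List (ℕ × F), (∀ p ∈ w, p.1 = r ∨ p.1 = chevG2.neg r) ∧ φ g = wordGL (g2B F).xadd w := by
  obtain ⟨w, hw, he⟩ := exists_sl2Word (m := r) hne (g : Matrix (Fin 2) (Fin 2) F) g.2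
  exact ⟨w, hw, h g w hw he⟩

theorem IsPhi.mem {r : ℕ} {φ : Matrix.SpecialLinearGroup (Fin 2) F →* GL chevG2.Idx F}
    (h : IsPhi r φ) (hne : chevG2.neg r ≠ r) (g : Matrix.SpecialLinearGroup (Fin 2) F) :
    φ g ∈ chevG2.group F := by
  obtain ⟨w, -, he⟩ := h.word hne g
  rw [he]
  exact wordGL_mem _ _ _ (fun p _ => xGL_mem_group _ _ _)

/-- `φ` of a diagonal matrix. -/
theorem IsPhi.diag {r : ℕ} {φ : Matrix.SpecialLinearGroup (Fin 2) F →* GL chevG2.Idx F}
    (h : IsPhi r φ) (hne : chevG2.neg r ≠ r) (g : Matrix.SpecialLinearGroup (Fin 2) F) (d : F)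
    (hd : d ≠ 0) (hg : (g : Matrix (Fin 2) (Fin 2) F) = sl2D d) :
    φ g = hGL (g2B F).xadd r d := by
  have h1 := h g (chevG2.hWord r d) (by
    intro p hp
    unfold ChevalleyDatum.hWord ChevalleyDatum.nWord at hp
    simp only [List.cons_append, List.nil_append, List.mem_cons, List.not_mem_nil, or_false] at hp
    rcases hp with rfl | rfl | rfl | rfl | rfl | rfl <;> simp) (by
    rw [hg, ← sl2_hword d hd]
    unfold sl2Word ChevalleyDatum.hWord ChevalleyDatum.nWord
    simp only [List.cons_append, List.nil_append, List.map_cons, List.map_nil, List.prod_cons,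
      List.prod_nil, if_true, if_neg hne])
  exact h1

theorem IsPhi.inj {r : ℕ} {φ : Matrix.SpecialLinearGroup (Fin 2) F →* GL chevG2.Idx F}
    (h : IsPhi r φ) (hpos : chevG2.IsPosRoot r) (hneg : chevG2.IsNegRoot (chevG2.neg r))
    (hne : chevG2.neg r ≠ r) (htor : ∀ d : F, d ≠ 0 → hGL (g2B F).xadd r d = 1 → d = 1) :
    Function.Injective φ := by
  rw [injective_iff_map_eq_one]
  intro g hg1
  have hdet : (g : Matrix (Fin 2) (Fin 2) F) 0 0 * (g : Matrix (Fin 2) (Fin 2) F) 1 1 -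
      (g : Matrix (Fin 2) (Fin 2) F) 0 1 * (g : Matrix (Fin 2) (Fin 2) F) 1 0 = 1 := by
    rw [← Matrix.det_fin_two]; exact g.2
  set a := (g : Matrix (Fin 2) (Fin 2) F) 0 0 with ha
  set b := (g : Matrix (Fin 2) (Fin 2) F) 0 1 with hb
  set c := (g : Matrix (Fin 2) (Fin 2) F) 1 0 with hc
  set d := (g : Matrix (Fin 2) (Fin 2) F) 1 1 with hd
  have hc0 : c = 0 := by
    by_contra hcne
    have h1 := h g [(chevG2.neg r, (a - 1) / c), (r, c), (chevG2.neg r, (d - 1) / c)] (by
      intro p hp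
      simp only [List.mem_cons, List.not_mem_nil, or_false] at hp
      rcases hp with rfl | rfl | rfl <;> simp) (by
      unfold sl2Word
      simp only [List.map_cons, List.map_nil, List.prod_cons, List.prod_nil, if_true, if_neg hne]
      ext i j
      fin_cases i <;> fin_cases j <;>
        simp [sl2U, sl2L, Matrix.mul_apply, Fin.sum_univ_two, ← ha, ← hb, ← hc, ← hd] <;>
        field_simp <;> first | ring1 | linear_combination hdet | linear_combination (-1 : F) * hdet)
    rw [hg1] at h1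
    simp only [wordGL_cons, wordGL_nil, mul_one] at h1
    have h2 : xGL (g2B F).xadd r c ∈ chevG2.negUnipotent F := by
      have e : xGL (g2B F).xadd r c = (xGL (g2B F).xadd (chevG2.neg r) ((a - 1) / c))⁻¹ *
          (xGL (g2B F).xadd (chevG2.neg r) ((d - 1) / c))⁻¹ := by
        exact mid_eq h1
      rw [e]
      exact mul_mem (inv_mem (xGL_mem_negUnipotent _ hneg _))
        (inv_mem (xGL_mem_negUnipotent _ hneg _))
    exact hcne (pos_V_zero hpos h2)
  have hb0 : b = 0 := by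
    by_contra hbne
    have h1 := h g [(r, (d - 1) / b), (chevG2.neg r, b), (r, (a - 1) / b)] (by
      intro p hp
      simp only [List.mem_cons, List.not_mem_nil, or_false] at hp
      rcases hp with rfl | rfl | rfl <;> simp) (by
      unfold sl2Word
      simp only [List.map_cons, List.map_nil, List.prod_cons, List.prod_nil, if_true, if_neg hne]
      ext i j
      fin_cases i <;> fin_cases j <;>
        simp [sl2U, sl2L, Matrix.mul_apply, Fin.sum_univ_two, ← ha, ← hb, ← hc, ← hd] <;>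
        field_simp <;> first | ring1 | linear_combination hdet | linear_combination (-1 : F) * hdet)
    rw [hg1] at h1
    simp only [wordGL_cons, wordGL_nil, mul_one] at h1
    have h2 : xGL (g2B F).xadd (chevG2.neg r) b ∈ chevG2.borelSubgroup F := by
      have e : xGL (g2B F).xadd (chevG2.neg r) b = (xGL (g2B F).xadd r ((d - 1) / b))⁻¹ *
          (xGL (g2B F).xadd r ((a - 1) / b))⁻¹ := by
        exact mid_eq h1
      rw [e]
      exact BRel.U_le_B chevG2 F (mul_mem (inv_mem (xGL_mem_posUnipotent _ hpos _))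
        (inv_mem (xGL_mem_posUnipotent _ hpos _)))
    exact (g2B F).xneg_not_mem_B hneg hbne h2
  have had : a * d = 1 := by rw [hb0] at hdet; linear_combination hdet
  have hd0 : d ≠ 0 := by
    rintro h0
    rw [h0, mul_zero] at had
    exact zero_ne_one had
  have hgD : (g : Matrix (Fin 2) (Fin 2) F) = sl2D d := by
    ext i j
    fin_cases i <;> fin_cases j <;> simp [sl2D, ← ha, ← hb, ← hc, ← hd, hb0, hc0]
    exact eq_inv_of_mul_eq_one_left had
  have h3 := h.diag hne g d hd0 hgD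
  rw [hg1] at h3
  have hd1 := htor d hd0 h3.symm
  apply Subtype.ext
  rw [hgD, hd1]
  ext i j
  fin_cases i <;> fin_cases j <;> simp [sl2D]

theorem word_comm_of (w w' : List (ℕ × F))
    (h : ∀ p ∈ w, ∀ q ∈ w', Commute (xGL (g2B F).xadd p.1 p.2) (xGL (g2B F).xadd q.1 q.2)) :
    wordGL (g2B F).xadd w * wordGL (g2B F).xadd w' =
      wordGL (g2B F).xadd w' * wordGL (g2B F).xadd w := by
  have : Commute (wordGL (g2B F).xadd w) (wordGL (g2B F).xadd w') := by
    unfold wordGL
    apply Commute.list_prod_left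
    intro x hx
    apply Commute.list_prod_right
    intro y hy
    rw [List.mem_map] at hx hy
    obtain ⟨p, hp, rfl⟩ := hx
    obtain ⟨q, hq, rfl⟩ := hy
    exact h p hp q hq
  exact this

theorem phi_comm {φ6 φ9 : Matrix.SpecialLinearGroup (Fin 2) F →* GL chevG2.Idx F}
    (h6 : IsPhi 6 φ6) (h9 : IsPhi 9 φ9) (g g' : Matrix.SpecialLinearGroup (Fin 2) F) :
    φ6 g * φ9 g' = φ9 g' * φ6 g := by
  obtain ⟨w, hw, he⟩ := h6.word (by decide) g
  obtain ⟨w', hw', he'⟩ := h9.word (by decide) g'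
  rw [he, he']
  apply word_comm_of
  intro p hp q hq
  have e5 : chevG2.neg 6 = 5 := by decide
  have e2 : chevG2.neg 9 = 2 := by decide
  rcases hw p hp with h1 | h1 <;> rcases hw' q hq with h2 | h2
  · rw [h1, h2]
    exact x_comm (by norm_num) (by norm_num) (by norm_num) (by decide) g2_orth69.1 _ _
  · rw [h1, h2, e2]
    exact x_comm (by norm_num) (by norm_num) (by norm_num) (by decide) g2_orth69.2.1 _ _
  · rw [h1, h2, e5]
    exact x_comm (by norm_num) (by norm_num) (by norm_num) (by decide) g2_orth69.2.2.1 _ _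
  · rw [h1, h2, e5, e2]
    exact x_comm (by norm_num) (by norm_num) (by norm_num) (by decide) g2_orth69.2.2.2 _ _

theorem phi_comm_t0 {r : ℕ} {φ : Matrix.SpecialLinearGroup (Fin 2) F →* GL chevG2.Idx F}
    (h : IsPhi r φ) (hr : r = 6 ∨ r = 9) (g : Matrix.SpecialLinearGroup (Fin 2) F) :
    t0 F * φ g = φ g * t0 F := by
  have hne : chevG2.neg r ≠ r := by rcases hr with rfl | rfl <;> decide
  obtain ⟨w, hw, he⟩ := h.word hne g
  rw [he]
  have : Commute (t0 F) (wordGL (g2B F).xadd w) := by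
    unfold wordGL
    apply Commute.list_prod_right
    intro x hx
    rw [List.mem_map] at hx
    obtain ⟨p, hp, rfl⟩ := hx
    have e5 : chevG2.neg 6 = 5 := by decide
    have e2 : chevG2.neg 9 = 2 := by decide
    have hp' : p.1 = 6 ∨ p.1 = 5 ∨ p.1 = 9 ∨ p.1 = 2 := by
      rcases hw p hp with h1 | h1 <;> rcases hr with rfl | rfl
      · exact Or.inl h1
      · exact Or.inr (Or.inr (Or.inl h1))
      · exact Or.inr (Or.inl (h1.trans e5))
      · exact Or.inr (Or.inr (Or.inr (h1.trans e2)))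
    have hS : p.1 < 12 ∧ chi0 (F := F) p.1 = 1 := by
      rcases hp' with h1 | h1 | h1 | h1 <;> rw [h1] <;> exact ⟨by norm_num, by simp [chi0]⟩
    have h3 := t0_conj_x (F := F) hS.1 p.2
    rw [hS.2, one_mul] at h3
    exact mul_inv_eq_iff_eq_mul.mp h3
  exact this

theorem hGL6_neg_one : hGL (g2B F).xadd 6 (-1) = t0 F := by
  have h := isTor_hGL6 (F := F) (-1)
  rw [Units.val_neg, Units.val_one] at h
  exact h.eq isTor_n1_sq

theorem hGL9_neg_one : hGL (g2B F).xadd 9 (-1) = t0 F := by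
  have h := isTor_hGL (F := F) (r := 9) (by norm_num) (-1)
  have e0 : (chevG2.coroot.getD 9 #[]).getD 0 0 = 2 := by decide
  have e1 : (chevG2.coroot.getD 9 #[]).getD 1 0 = 3 := by decide
  rw [e0, e1, Units.val_neg, Units.val_one] at h
  refine (h.congr ?_ ?_).eq isTor_n1_sq
  · simp
  · have : ((-1 : Fˣ)) ^ (3 : ℤ) = -1 := by
      have e3 : ((-1 : Fˣ)) ^ 3 = -1 := Odd.neg_one_pow (by decide)
      exact_mod_cast e3
    exact this

theorem htor6 : ∀ d : F, d ≠ 0 → hGL (g2B F).xadd 6 d = 1 → d = 1 := by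
  intro d hd h
  have h1 := isTor_hGL6 (F := F) (Units.mk0 d hd)
  rw [Units.val_mk0, h] at h1
  have := (h1.coord isTor_one).2
  simpa using congrArg Units.val this

theorem htor9 : ∀ d : F, d ≠ 0 → hGL (g2B F).xadd 9 d = 1 → d = 1 := by
  intro d hd h
  have h1 := isTor_hGL (F := F) (r := 9) (by norm_num) (Units.mk0 d hd)
  have e0 : (chevG2.coroot.getD 9 #[]).getD 0 0 = 2 := by decide
  have e1 : (chevG2.coroot.getD 9 #[]).getD 1 0 = 3 := by decide
  rw [e0, e1, Units.val_mk0, h] at h1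
  obtain ⟨c0, c1⟩ := h1.coord isTor_one
  have h2 : (Units.mk0 d hd) ^ (2 : ℕ) = 1 := by exact_mod_cast c0
  have h3 : (Units.mk0 d hd) ^ (3 : ℕ) = 1 := by exact_mod_cast c1
  have h4 : Units.mk0 d hd = 1 := by
    have : (Units.mk0 d hd) ^ 3 = (Units.mk0 d hd) ^ 2 * Units.mk0 d hd := pow_succ _ 2
    rw [h2, one_mul] at this
    rw [← this, h3]
  simpa using congrArg Units.val h4

theorem neg_one_val_sl2D :
    ((-1 : Matrix.SpecialLinearGroup (Fin 2) F) : Matrix (Fin 2) (Fin 2) F) = sl2D (-1) := by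
  ext i j
  fin_cases i <;> fin_cases j <;> simp [sl2D]

theorem phi6_neg_one {φ : Matrix.SpecialLinearGroup (Fin 2) F →* GL chevG2.Idx F}
    (h : IsPhi 6 φ) : φ (-1) = t0 F := by
  rw [h.diag (by decide) (-1) (-1) (by simp) neg_one_val_sl2D, hGL6_neg_one]

theorem phi9_neg_one {φ : Matrix.SpecialLinearGroup (Fin 2) F →* GL chevG2.Idx F}
    (h : IsPhi 9 φ) : φ (-1) = t0 F := by
  rw [h.diag (by decide) (-1) (-1) (by simp) neg_one_val_sl2D, hGL9_neg_one]

end

end Cfsg.Agent.Helper18.G2C
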