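import Cfsg.Agent.Helper18.G2OddW0
import Cfsg.Agent.Helper46.G2OF2SQ
import Cfsg.Agent.Helper80.G2OFSQ
import Cfsg.Agent.Helper38.G2ON
import Cfsg.Agent.Helper38.G2OW2
import Cfsg.Agent.Helper4.G2OWL
import Cfsg.Agent.Helper4.G2OREFL

/-!
# `G₂(q)`, `q` odd: every involution is conjugate to `t0` (helper18, S4278)
-/

set_option autoImplicit false

namespace Cfsg.Agent.Helper18.G2O

open Cfsg Cfsg.Lie Cfsg.Agent.Helper36 Cfsg.Agent.Helper17 Cfsg.Agent.Helper18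

section

variable {F : Type*} [Field F]

theorem two_ne_zero_of_odd [Fintype F] (hF : Odd (Fintype.card F)) : (2 : F) ≠ 0 := by
  intro h
  haveI : CharP F 2 := CharTwo.of_one_ne_zero_of_two_eq_zero one_ne_zero h
  have h1 : ringChar F = 2 := ringChar.eq F 2
  have h2 := FiniteField.even_card_of_char_two h1
  have h3 := Nat.odd_iff.mp hF
  omega

theorem conj_sq {G : Type*} [Group G] {g m : G} (h : m * m = 1) :
    (g * m * g⁻¹) * (g * m * g⁻¹) = 1 := by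
  have : (g * m * g⁻¹) * (g * m * g⁻¹) = g * (m * m) * g⁻¹ := by group
  rw [this, h, mul_one, mul_inv_cancel]

theorem conj_ne {G : Type*} [Group G] {g m : G} (h : m ≠ 1) : g * m * g⁻¹ ≠ 1 := by
  intro h1
  apply h
  have : m = g⁻¹ * (g * m * g⁻¹) * g := by group
  rw [this, h1, mul_one, inv_mul_cancel]

/-- Every `h p1` is conjugate to some `h' n_a`. -/
theorem w0_conj [Fintype F] (hF : Odd (Fintype.card F)) {h : GL chevG2.Idx F}
    (hh : h ∈ chevG2.diagonalSubgroup F) : Q h := by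
  have h2 := two_ne_zero_of_odd hF
  have key : ∀ (h : GL chevG2.Idx F) (z0 z1 c : Fˣ), IsTor h z0 z1 → z0 = c ^ 2 → Q h := by
    intro h z0 z1 c hz hc
    have hk := isTor_hGL11 (F := F) (c ^ 3 / z1)
    apply Q.of_h hk.mem
    have hB := (hk.mul hz).mul hk
    obtain ⟨p, q, hq, hpq⟩ := Cfsg.Agent.Helper46.G2O.g2o_two_squares hF
      (-(((c ^ 3 / z1) ^ 2 * z1 * (c ^ 3 / z1) ^ 2 : Fˣ) : F)) (neg_ne_zero.mpr (Units.ne_zero _))
    have hN : p ^ 2 + q ^ 2 ≠ 0 := by rw [hpq]; exact neg_ne_zero.mpr (Units.ne_zero _)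
    have ha : (c : F) ≠ 0 := c.ne_zero
    have hb : (z1 : F) ≠ 0 := z1.ne_zero
    refine Q.of_m hB ?_ p q hq hN ?_
    · rw [hc]
      apply Units.ext
      simp only [Units.val_mul, Units.val_zpow_eq_zpow_val, Units.val_div_eq_div_val,
        Units.val_pow_eq_pow_val, Units.val_one]
      field_simp
    · have hC := hB.mul (isTor_hGL6 (F := F) (-((c ^ 3 / z1) ^ 2 * z1 * (c ^ 3 / z1) ^ 2)))
      rw [hpq]
      rw [Units.val_neg] at hC
      exact Q.base h2 hC ((c ^ 3 / z1) ^ 2 * z1 * (c ^ 3 / z1) ^ 2) ((mul_neg _ _).trans (congrArg Neg.neg (sq _).symm))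
  obtain ⟨z0, z1, hz⟩ := mem_H_iff.mp hh
  rcases Cfsg.Agent.Helper80.G2O.g2o_sq_cases hF z0 z1 with ⟨c, hc⟩ | ⟨c, hc⟩ | ⟨c, hc⟩
  · exact key h z0 z1 c hz hc
  · apply Q.of_n (i := 1) (by norm_num)
    apply Q.of_n (i := 0) (by norm_num)
    refine key _ _ _ (z0 / c) hz.conj_n1.conj_n0 ?_
    rw [hc]
    have ha : (c : F) ≠ 0 := c.ne_zero
    have hb : (z0 : F) ≠ 0 := z0.ne_zero
    apply Units.ext
    simp only [Units.val_div_eq_div_val, Units.val_pow_eq_pow_val]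
    field_simp
  · apply Q.of_n (i := 0) (by norm_num)
    refine key _ _ _ (c / z0) hz.conj_n0 ?_
    have hz1 : z1 = c ^ 2 / z0 := by rw [← hc]; simp
    rw [hz1]
    have ha : (c : F) ≠ 0 := c.ne_zero
    have hb : (z0 : F) ≠ 0 := z0.ne_zero
    apply Units.ext
    simp only [Units.val_div_eq_div_val, Units.val_pow_eq_pow_val]
    field_simp

/-- Every involution of `G₂(q)`, `q` odd, is conjugate to `t0`. -/
theorem inv_cl [Fintype F] (hF : Odd (Fintype.card F)) {s : GL chevG2.Idx F}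
    (hs : s ∈ chevG2.group F) (hs2 : s * s = 1) (hs1 : s ≠ 1) : Cl s := by
  have h2 := two_ne_zero_of_odd hF
  obtain ⟨g, hg, L, hL, hred, h, hh, he⟩ :=
    Cfsg.Agent.Helper38.G2O.g2o_invol_conj_monomial g2_mem hF (g2B F) hs hs2
  apply Cl.of_conj hg
  have hm2 : (g * s * g⁻¹) * (g * s * g⁻¹) = 1 := conj_sq hs2
  have hm1 : g * s * g⁻¹ ≠ 1 := conj_ne hs1
  rw [he] at hm2 hm1 ⊢
  have hw := Cfsg.Agent.Helper4.G2O.g2o_words hL hred
    (fun s hs => Cfsg.Agent.Helper38.G2O.g2o_sq_pos (g2B F) hL hh hm2 hs)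
  have P0 : ∀ h ∈ chevG2.diagonalSubgroup F, (h * (g2B F).n 0) * (h * (g2B F).n 0) = 1 →
      h * (g2B F).n 0 ≠ 1 → Cl (h * (g2B F).n 0) := by
    intro h hh hm hm1
    obtain ⟨g, hg, hmem⟩ := rank1_n0 h2 hh hm
    exact Cl.of_conj hg (torus_invol hmem (conj_sq hm) (conj_ne hm1))
  have P1 : ∀ h ∈ chevG2.diagonalSubgroup F, (h * (g2B F).n 1) * (h * (g2B F).n 1) = 1 →
      h * (g2B F).n 1 ≠ 1 → Cl (h * (g2B F).n 1) := by
    intro h hh hm hm1
    obtain ⟨g, hg, hmem⟩ := rank1_n1 h2 hh hm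
    exact Cl.of_conj hg (torus_invol hmem (conj_sq hm) (conj_ne hm1))
  have step : ∀ (i : ℕ) (_ : i < 2) (L : List ℕ), ValidW chevG2 L →
      (∀ h ∈ chevG2.diagonalSubgroup F, (h * (g2B F).nW L) * (h * (g2B F).nW L) = 1 →
        h * (g2B F).nW L ≠ 1 → Cl (h * (g2B F).nW L)) →
      ∀ h ∈ chevG2.diagonalSubgroup F,
        (h * (g2B F).nW (i :: (L ++ [i]))) * (h * (g2B F).nW (i :: (L ++ [i]))) = 1 →
        h * (g2B F).nW (i :: (L ++ [i])) ≠ 1 → Cl (h * (g2B F).nW (i :: (L ++ [i]))) := by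
    intro i hi L hL ih h hh hm hm1
    obtain ⟨h', hh', he⟩ := Cfsg.Agent.Helper4.G2O.g2o_refl_reduce (g2B F) (i := i) hi hL hh
    apply Cl.of_conj (g := ((g2B F).n i)⁻¹) (inv_mem (n_mem_group i hi))
    have hm' := conj_sq (g := ((g2B F).n i)⁻¹) hm
    have hm1' := conj_ne (g := ((g2B F).n i)⁻¹) hm1
    rw [inv_inv, he] at hm' hm1' ⊢
    exact ih h' hh' hm' hm1'
  have e0 : (g2B F).nW [0] = (g2B F).n 0 := by simp [NRel.nW]
  have e1 : (g2B F).nW [1] = (g2B F).n 1 := by simp [NRel.nW]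
  have v0 : ValidW chevG2 [0] := by unfold ValidW; decide
  have v1 : ValidW chevG2 [1] := by unfold ValidW; decide
  have Q0 : ∀ h ∈ chevG2.diagonalSubgroup F, (h * (g2B F).nW [0]) * (h * (g2B F).nW [0]) = 1 →
      h * (g2B F).nW [0] ≠ 1 → Cl (h * (g2B F).nW [0]) := by rw [e0]; exact P0
  have Q1 : ∀ h ∈ chevG2.diagonalSubgroup F, (h * (g2B F).nW [1]) * (h * (g2B F).nW [1]) = 1 →
      h * (g2B F).nW [1] ≠ 1 → Cl (h * (g2B F).nW [1]) := by rw [e1]; exact P1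
  have v010 : ValidW chevG2 [0, 1, 0] := by unfold ValidW; decide
  have v101 : ValidW chevG2 [1, 0, 1] := by unfold ValidW; decide
  have Q010 := step 0 (by norm_num) [1] v1 Q1
  have Q101 := step 1 (by norm_num) [0] v0 Q0
  have Q01010 := step 0 (by norm_num) [1, 0, 1] v101 Q101
  have Q10101 := step 1 (by norm_num) [0, 1, 0] v010 Q010
  have Qw : ∀ h ∈ chevG2.diagonalSubgroup F, (h * p1 F) * (h * p1 F) = 1 →
      h * p1 F ≠ 1 → Cl (h * p1 F) := by
    intro h hh hm hm1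
    obtain ⟨g, hg, h', hh', he⟩ := w0_conj hF hh
    apply Cl.of_conj hg
    have hm' := conj_sq (g := g) hm
    have hm1' := conj_ne (g := g) hm1
    rw [he] at hm' hm1' ⊢
    exact P0 h' hh' hm' hm1'
  simp only [List.mem_cons, List.not_mem_nil, or_false] at hw
  rcases hw with rfl | rfl | rfl | rfl | rfl | rfl | rfl | rfl | rfl
  · rw [NRel.nW_nil, mul_one] at hm2 hm1 ⊢
    exact torus_invol hh hm2 hm1
  · exact Q0 h hh hm2 hm1
  · exact Q1 h hh hm2 hm1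
  · exact Q010 h hh hm2 hm1
  · exact Q101 h hh hm2 hm1
  · exact Q01010 h hh hm2 hm1
  · exact Q10101 h hh hm2 hm1
  · exact Qw h hh hm2 hm1
  · rw [nW_braid] at hm2 hm1 ⊢
    exact Qw h hh hm2 hm1

end

end Cfsg.Agent.Helper18.G2O
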