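import Cfsg.Agent.Helper18.G2CentD
import Cfsg.Agent.Helper18.G2OddMain
import Cfsg.Agent.Helper59.G2CCT
import Cfsg.Agent.Helper24.G2CREL
import Cfsg.Agent.Helper42.G2CSLZ
import Cfsg.Agent.Helper42.G2CZP
import Cfsg.Agent.Helper5.SLCard

/-!
# The centraliser of the torus involution of `G₂(q)`, `q` odd: assembly (helper18, S4279)
-/

set_option autoImplicit false

namespace Cfsg.Agent.Helper18.G2C

open Cfsg Cfsg.Lie Cfsg.Agent.Helper36 Cfsg.Agent.Helper17 Cfsg.Agent.Helper18
open Cfsg.Agent.Helper18.G2O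

section

variable {F : Type*} [Field F]

/-- The torus involution as an element of the group. -/
noncomputable def t0G (F : Type*) [Field F] : ↥(chevG2.group F) :=
  ⟨t0 F, mul_mem (n_mem_group 1 (by norm_num)) (n_mem_group 1 (by norm_num))⟩

theorem t0_sq : t0 F * t0 F = 1 := by
  have h := (isTor_n1_sq (F := F)).mul isTor_n1_sq
  exact (h.congr (by simp) (by simp)).eq isTor_one

theorem t0_ne_one (h2 : (2 : F) ≠ 0) : t0 F ≠ 1 := by
  intro h
  have h1 := isTor_n1_sq (F := F)
  rw [show (g2B F).n 1 * (g2B F).n 1 = t0 F from rfl, h] at h1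
  have h4 := (h1.coord isTor_one).2
  have h3 : (-1 : F) = 1 := by simpa using congrArg Units.val h4
  apply h2
  linear_combination (-1 : F) * h3

theorem cent_t0_main [Fintype F] (hF : Odd (Fintype.card F)) :
    Nat.card (Subgroup.centralizer ({t0G F} : Set ↥(chevG2.group F))) =
        Fintype.card F ^ 2 * (Fintype.card F ^ 2 - 1) ^ 2 ∧
      ∃ L₁ L₂ : Subgroup ↥(chevG2.group F),
        Nonempty (L₁ ≃* Matrix.SpecialLinearGroup (Fin 2) F) ∧
        Nonempty (L₂ ≃* Matrix.SpecialLinearGroup (Fin 2) F) ∧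
        (∀ x ∈ L₁, ∀ y ∈ L₂, x * y = y * x) ∧ L₁ ⊓ L₂ = Subgroup.zpowers (t0G F) ∧
        L₁ ⊔ L₂ ≤ Subgroup.centralizer ({t0G F} : Set ↥(chevG2.group F)) ∧
        (L₁ ⊔ L₂).relIndex (Subgroup.centralizer ({t0G F} : Set ↥(chevG2.group F))) = 2 := by
  have h2 := two_ne_zero_of_odd hF
  have hcard : Nat.card (Subgroup.centralizer ({t0G F} : Set ↥(chevG2.group F))) =
        Fintype.card F ^ 2 * (Fintype.card F ^ 2 - 1) ^ 2 := by
    rw [← card_cent_t0 h2]
    apply Nat.card_congr
    exact {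
      toFun := fun x => ⟨x.1.1, x.1.2, by
        have h3 := congrArg Subtype.val (Subgroup.mem_centralizer_iff.mp x.2 (t0G F) rfl)
        rw [mul_inv_eq_iff_eq_mul]
        exact h3⟩
      invFun := fun y => ⟨⟨y.1, y.2.1⟩, by
        rw [Subgroup.mem_centralizer_iff]
        intro h hh
        rw [Set.mem_singleton_iff] at hh
        subst hh
        apply Subtype.ext
        exact mul_inv_eq_iff_eq_mul.mp y.2.2⟩
      left_inv := fun x => rfl
      right_inv := fun y => rfl }
  obtain ⟨φ6, h6⟩ := exists_phi (F := F) (r := 6) (by norm_num)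
  obtain ⟨φ9, h9⟩ := exists_phi (F := F) (r := 9) (by norm_num)
  have hinj6 := h6.inj (by decide) (by decide) (by decide) htor6
  have hinj9 := h9.inj (by decide) (by decide) (by decide) htor9
  set ψ6 : Matrix.SpecialLinearGroup (Fin 2) F →* ↥(chevG2.group F) :=
    φ6.codRestrict (chevG2.group F) (fun g => h6.mem (by decide) g) with hψ6
  set ψ9 : Matrix.SpecialLinearGroup (Fin 2) F →* ↥(chevG2.group F) :=
    φ9.codRestrict (chevG2.group F) (fun g => h9.mem (by decide) g) with hψ9
  have hi6 : Function.Injective ψ6 := fun a b hab => hinj6 (congrArg Subtype.val hab)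
  have hi9 : Function.Injective ψ9 := fun a b hab => hinj9 (congrArg Subtype.val hab)
  have hcomm : ∀ x ∈ ψ6.range, ∀ y ∈ ψ9.range, x * y = y * x := by
    rintro x ⟨g, rfl⟩ y ⟨g', rfl⟩
    apply Subtype.ext
    exact phi_comm h6 h9 g g'
  have hzp : ψ6.range ⊓ ψ9.range = Subgroup.zpowers (t0G F) ∧
      Nat.card ↥(ψ6.range ⊓ ψ9.range) = 2 := by
    apply Cfsg.Agent.Helper42.G2C.g2c_zpowers_invol (t0G F)
    · exact Subtype.ext t0_sq
    · intro h
      exact t0_ne_one h2 (congrArg Subtype.val h)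
    · exact Subgroup.mem_inf.mpr ⟨⟨-1, Subtype.ext (phi6_neg_one h6)⟩,
        ⟨-1, Subtype.ext (phi9_neg_one h9)⟩⟩
    · intro x hx
      obtain ⟨⟨g, rfl⟩, ⟨g', hg'⟩⟩ := Subgroup.mem_inf.mp hx
      have hc : ∀ k, g * k = k * g := by
        intro k
        apply hi6
        rw [map_mul, map_mul, ← hg']
        apply Subtype.ext
        exact (phi_comm h6 h9 k g').symm
      rcases Cfsg.Agent.Helper42.G2C.g2c_sl2_center g hc with rfl | rfl
      · left
        exact map_one _
      · right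
        exact Subtype.ext (phi6_neg_one h6)
  have hle : ψ6.range ⊔ ψ9.range ≤ Subgroup.centralizer ({t0G F} : Set ↥(chevG2.group F)) := by
    rw [sup_le_iff]
    constructor
    · rintro x ⟨g, rfl⟩
      rw [Subgroup.mem_centralizer_iff]
      intro h hh
      rw [Set.mem_singleton_iff] at hh
      subst hh
      exact Subtype.ext (phi_comm_t0 h6 (Or.inl rfl) g)
    · rintro x ⟨g, rfl⟩
      rw [Subgroup.mem_centralizer_iff]
      intro h hh
      rw [Set.mem_singleton_iff] at hh
      subst hh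
      exact Subtype.ext (phi_comm_t0 h9 (Or.inr rfl) g)
  refine ⟨hcard, ψ6.range, ψ9.range, ⟨(MonoidHom.ofInjective hi6).symm⟩,
    ⟨(MonoidHom.ofInjective hi9).symm⟩, hcomm, hzp.1, hle, ?_⟩
  haveI : Finite ↥(chevG2.group F) := inferInstance
  apply Cfsg.Agent.Helper24.G2C.g2c_relindex _ _ _ (Fintype.card F * (Fintype.card F ^ 2 - 1))
    hcomm
  · rw [Nat.card_congr (MonoidHom.ofInjective hi6).symm.toEquiv]
    exact Cfsg.Agent.Helper5.card_SL2
  · rw [Nat.card_congr (MonoidHom.ofInjective hi9).symm.toEquiv]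
    exact Cfsg.Agent.Helper5.card_SL2
  · exact hzp.2
  · exact hle
  · rw [hcard]
    ring

end

end Cfsg.Agent.Helper18.G2C
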