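import Cfsg.Agent.Helper18.D4Tor2
import Cfsg.Agent.Helper17.ChevUniMem
import Cfsg.Agent.Helper17.ChevDiagCard

/-!
# Exponents of the torus and of the unipotent subgroup (helper18, S4278, pieces HEXP and UEXP)
-/

set_option autoImplicit false

namespace Cfsg.Agent.Helper18.G2O

open Cfsg Cfsg.Lie Cfsg.Agent.Helper36 Cfsg.Agent.Helper17 Cfsg.Agent.Helper18

section

variable {D : ChevalleyDatum} {F : Type*} [Field F]

theorem charDiag_pow (χ : ℕ → Fˣ) (n : ℕ) :
    D.charDiag F χ ^ n = D.charDiag F (fun s => χ s ^ n) := by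
  induction n with
  | zero =>
    rw [pow_zero]
    have : (fun s => χ s ^ 0) = fun _ => (1 : Fˣ) := by funext s; rw [pow_zero]
    rw [this, charDiag_one]
  | succ n ih =>
    rw [pow_succ, ih, charDiag_mul]
    congr 1
    funext s
    rw [pow_succ]

/-- PIECE HEXP: the diagonal subgroup has exponent dividing `q - 1`. -/
theorem g2o_torus_exp [Fintype F] (hD : D ∈ [chevG2, chevB2, chevD4, chevF4, chevE6, chevE7, chevE8])
    {h : GL D.Idx F} (hh : h ∈ D.diagonalSubgroup F) : h ^ (Fintype.card F - 1) = 1 := by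
  rw [diagonalSubgroup_eq_torus (simpleOK_of_mem hD) (hDiag_of_mem hD) (rootElts_of_mem hD),
    mem_torus] at hh
  obtain ⟨z, hz⟩ := hh
  apply Units.ext
  rw [Units.val_pow_eq_pow_val, hz, charDiag_pow, Units.val_one, ← charDiag_one D]
  congr 1
  funext s
  apply Units.ext
  rw [Units.val_pow_eq_pow_val, Units.val_one]
  exact FiniteField.pow_card_sub_one_eq_one _ (Units.ne_zero _)

/-- PIECE UEXP: the unipotent subgroup has exponent dividing `q ^ N`. -/
theorem g2o_unip_exp [Fintype F] (hD : D ∈ [chevG2, chevB2, chevD4, chevF4, chevE6, chevE7, chevE8])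
    {u : GL D.Idx F} (hu : u ∈ D.posUnipotent F) : u ^ (Fintype.card F ^ (D.nroots / 2)) = 1 := by
  have hU : Nat.card (D.posUnipotent F) = Fintype.card F ^ (D.nroots / 2) :=
    card_posUnipotent_of_mem hD (fun r s hr hs h1 h2 => CF_of_mem hD r hr s hs h1 h2)
  have h1 : (⟨u, hu⟩ : D.posUnipotent F) ^ Nat.card (D.posUnipotent F) = 1 := pow_card_eq_one'
  rw [hU] at h1
  have h2 := congrArg (fun x : D.posUnipotent F => (x : GL D.Idx F)) h1
  simpa using h2

end

end Cfsg.Agent.Helper18.G2O
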