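import Cfsg.Agent.Helper18.G2Tor1
import Cfsg.Agent.Helper36.ChevN

/-!
# Word identities in `G₂` for the involutions in odd characteristic (helper18, S4278)

* `rk1_GL`: the conjugation of `n_r(1)` into the torus inside the rank one subgroup of the root `r`
  (for the roots `7`, `6`, `11`);
* `braid_GL`: `(n_7 n_6)³ = (n_6 n_7)³`;
* `n7p1_GL`: `n_7 (n_7 n_6)³ = n_{11}`;
* `m_GL`: `M Mᵀ = h_6(p² + q²)` for a matrix `M` of the rank one subgroup of the root `6`.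
-/

set_option autoImplicit false

namespace Cfsg.Agent.Helper18.G2O

open Cfsg Cfsg.Lie Cfsg.Agent.Helper36 Cfsg.Agent.Helper18

/-- the relation `2 v = 1` -/
def relTwo : Raw := [(2, 0, 0, 0)]

def halfTinv : Raw := [(1, -1, 0, 1)]
def halfT : Raw := [(1, 1, 0, 1)]
def negT : Raw := [(-1, 1, 0, 0)]
def negTinv : Raw := [(-1, -1, 0, 0)]

/-- `x_r(1/(2e)) x_{-r}(-e) n_r(1) x_{-r}(-1/e) x_r(e/2)` -/
def rk1L (r : ℕ) : SWord :=
  [(r, halfTinv), (chevG2.neg r, negT)] ++ nOneS chevG2 r ++ [(chevG2.neg r, negTinv), (r, halfT)]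

/-- `n_r(-1/e) n_r(-1)` -/
def rk1R (r : ℕ) : SWord :=
  [(r, negTinv), (chevG2.neg r, tR), (r, negTinv)] ++ nNegOneS chevG2 r

theorem rk1_chk7 : checkEqWRel chevG2 6 relTwo (rk1L 7) (rk1R 7) = true := by decide +kernel
theorem rk1_chk6 : checkEqWRel chevG2 6 relTwo (rk1L 6) (rk1R 6) = true := by decide +kernel
theorem rk1_chk11 : checkEqWRel chevG2 6 relTwo (rk1L 11) (rk1R 11) = true := by decide +kernel

def p1S : SWord := nOneS chevG2 7 ++ nOneS chevG2 6 ++ nOneS chevG2 7 ++ nOneS chevG2 6 ++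
  nOneS chevG2 7 ++ nOneS chevG2 6

def p1S' : SWord := nOneS chevG2 6 ++ nOneS chevG2 7 ++ nOneS chevG2 6 ++ nOneS chevG2 7 ++
  nOneS chevG2 6 ++ nOneS chevG2 7

theorem braid_chk : checkEqW chevG2 p1S p1S' = true := by decide +kernel

theorem n7p1_chk : checkEqW chevG2 (nOneS chevG2 7 ++ p1S) (nOneS chevG2 11) = true := by
  decide +kernel

/-- the relation `(u² + t²) v = 1` -/
def relN : Raw := [(1, 0, 2, 0), (1, 2, 0, 0)]

def mAl : Raw := [(1, -1, 1, 1), (-1, -1, 0, 0)]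
def mBe : Raw := [(1, 1, 0, 0)]
def mGa : Raw := [(1, -1, 1, 0), (-1, -1, 0, 0)]
def mNegV : Raw := [(-1, 0, 0, 1)]

def mL : SWord := [(5, mAl), (6, mBe), (5, mGa), (6, mGa), (5, mBe), (6, mAl)]
def mR : SWord := [(6, relN), (5, mNegV), (6, relN)] ++ nNegOneS chevG2 6

theorem m_chk : checkEqWRel chevG2 6 relN mL mR = true := by decide +kernel

section

variable {F : Type*} [Field F]

theorem rk1_mat {r : ℕ} (hchk : checkEqWRel chevG2 6 relTwo (rk1L r) (rk1R r) = true) (e : F)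
    (he : e ≠ 0) (h2 : (2 : F) ≠ 0) :
    chevG2.wordMat F ([(r, (2 * e)⁻¹), (chevG2.neg r, -e)] ++ chevG2.nWord r 1 ++
      [(chevG2.neg r, -e⁻¹), (r, e / 2)]) =
    chevG2.wordMat F (chevG2.nWord r (-e⁻¹) ++ chevG2.nWord r (-1)) := by
  set t : Fˣ := Units.mk0 e he with ht
  have htv : (t : F) = e := rfl
  have hg : ev t 0 (2⁻¹ : F) relTwo * 2⁻¹ = 1 := by
    have : ev t 0 (2⁻¹ : F) relTwo = 2 := by simp [relTwo, g2_evT_eq]
    rw [this, mul_inv_cancel₀ h2]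
  have h := wordMat_eq_of_checkEqWRel chevG2 t 0 (2⁻¹ : F) hg hchk
  have e1 : ev t 0 (2⁻¹ : F) halfTinv = (2 * e)⁻¹ := by
    simp only [halfTinv, ev_cons, ev_nil, g2_evT_eq, htv]
    simp [zpow_neg]
    try ring
  have e2 : ev t 0 (2⁻¹ : F) halfT = e / 2 := by
    simp only [halfT, ev_cons, ev_nil, g2_evT_eq, htv]
    simp
    try ring
  have e3 : ev t 0 (2⁻¹ : F) negT = -e := by simp [negT, g2_evT_eq, htv]
  have e4 : ev t 0 (2⁻¹ : F) negTinv = -e⁻¹ := by simp [negTinv, g2_evT_eq, htv, zpow_neg]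
  have e5 : ev t 0 (2⁻¹ : F) tR = e := by simp [tR, g2_evT_eq, htv]
  have hL : evW t 0 (2⁻¹ : F) (rk1L r) = [(r, (2 * e)⁻¹), (chevG2.neg r, -e)] ++ chevG2.nWord r 1 ++
      [(chevG2.neg r, -e⁻¹), (r, e / 2)] := by
    simp only [rk1L, evW_append, evW_cons, evW_nil, evW_nOneS, e1, e2, e3, e4]
  have hR : evW t 0 (2⁻¹ : F) (rk1R r) = chevG2.nWord r (-e⁻¹) ++ chevG2.nWord r (-1) := by
    simp only [rk1R, evW_append, evW_cons, evW_nil, evW_nNegOneS, e4, e5]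
    simp [ChevalleyDatum.nWord]
  rw [hL, hR] at h
  exact h

/-- The rank one conjugation: `x_r(1/(2e)) x_{-r}(-e) n_r(1) x_{-r}(-1/e) x_r(e/2) = h_r(-1/e)`. -/
theorem rk1_GL (hX : XAdd chevG2 F) {r : ℕ}
    (hchk : checkEqWRel chevG2 6 relTwo (rk1L r) (rk1R r) = true) (e : F)
    (he : e ≠ 0) (h2 : (2 : F) ≠ 0) :
    xGL hX r (2 * e)⁻¹ * xGL hX (chevG2.neg r) (-e) * nGL hX r 1 *
      (xGL hX (chevG2.neg r) (-e⁻¹) * xGL hX r (e / 2)) = hGL hX r (-e⁻¹) := by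
  have h := rk1_mat hchk e he h2
  have e1 : xGL hX r (2 * e)⁻¹ * xGL hX (chevG2.neg r) (-e) * nGL hX r 1 *
      (xGL hX (chevG2.neg r) (-e⁻¹) * xGL hX r (e / 2)) =
      wordGL hX ([(r, (2 * e)⁻¹), (chevG2.neg r, -e)] ++ chevG2.nWord r 1 ++
        [(chevG2.neg r, -e⁻¹), (r, e / 2)]) := by
    rw [wordGL_append, wordGL_append]
    simp only [wordGL_cons, wordGL_nil, mul_one]
    rfl
  rw [e1]
  apply Units.ext
  rw [wordGL_val, h, hGL_val]
  rfl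

theorem braid_mat : chevG2.wordMat F (chevG2.nWord 7 (1 : F) ++ chevG2.nWord 6 1 ++
      chevG2.nWord 7 1 ++ chevG2.nWord 6 1 ++ chevG2.nWord 7 1 ++ chevG2.nWord 6 1) =
    chevG2.wordMat F (chevG2.nWord 6 (1 : F) ++ chevG2.nWord 7 1 ++
      chevG2.nWord 6 1 ++ chevG2.nWord 7 1 ++ chevG2.nWord 6 1 ++ chevG2.nWord 7 1) := by
  have h := wordMat_eq_of_checkEqW chevG2 (1 : Fˣ) (0 : F) 0 braid_chk
  simpa only [p1S, p1S', evW_append, evW_nOneS] using h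

theorem n7p1_mat : chevG2.wordMat F (chevG2.nWord 7 (1 : F) ++ (chevG2.nWord 7 (1 : F) ++
      chevG2.nWord 6 1 ++ chevG2.nWord 7 1 ++ chevG2.nWord 6 1 ++ chevG2.nWord 7 1 ++
        chevG2.nWord 6 1)) = chevG2.wordMat F (chevG2.nWord 11 (1 : F)) := by
  have h := wordMat_eq_of_checkEqW chevG2 (1 : Fˣ) (0 : F) 0 n7p1_chk
  simpa only [p1S, evW_append, evW_nOneS] using h

/-- `(n_7 n_6)³ = (n_6 n_7)³`. -/
theorem braid_GL (hX : XAdd chevG2 F) :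
    nGL hX 7 1 * nGL hX 6 1 * (nGL hX 7 1 * nGL hX 6 1) * (nGL hX 7 1 * nGL hX 6 1) =
      nGL hX 6 1 * nGL hX 7 1 * (nGL hX 6 1 * nGL hX 7 1) * (nGL hX 6 1 * nGL hX 7 1) := by
  apply Units.ext
  simp only [Units.val_mul, nGL_val]
  have h := braid_mat (F := F)
  simp only [wordMat_append] at h
  unfold ChevalleyDatum.nMat
  simp only [mul_assoc] at h ⊢
  exact h

/-- `n_7 (n_7 n_6)³ = n_{11}`. -/
theorem n7p1_GL (hX : XAdd chevG2 F) :
    nGL hX 7 1 * (nGL hX 7 1 * nGL hX 6 1 * (nGL hX 7 1 * nGL hX 6 1) *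
      (nGL hX 7 1 * nGL hX 6 1)) = nGL hX 11 1 := by
  apply Units.ext
  simp only [Units.val_mul, nGL_val]
  have h := n7p1_mat (F := F)
  simp only [wordMat_append] at h
  unfold ChevalleyDatum.nMat
  simp only [mul_assoc] at h ⊢
  exact h

theorem m_mat (p q : F) (hq : q ≠ 0) (hN : p ^ 2 + q ^ 2 ≠ 0) :
    chevG2.wordMat F [(5, (p / (p ^ 2 + q ^ 2) - 1) / q), (6, q), (5, (p - 1) / q),
      (6, (p - 1) / q), (5, q), (6, (p / (p ^ 2 + q ^ 2) - 1) / q)] =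
    chevG2.wordMat F (chevG2.nWord 6 (p ^ 2 + q ^ 2) ++ chevG2.nWord 6 (-1)) := by
  set t : Fˣ := Units.mk0 q hq with ht
  have htv : (t : F) = q := rfl
  set v : F := (p ^ 2 + q ^ 2)⁻¹ with hv
  have hg : ev t p v relN * v = 1 := by
    have : ev t p v relN = p ^ 2 + q ^ 2 := by simp [relN, g2_evT_eq, htv]
    rw [this, hv, mul_inv_cancel₀ hN]
  have h := wordMat_eq_of_checkEqWRel chevG2 t p v hg m_chk
  have e1 : ev t p v mAl = (p / (p ^ 2 + q ^ 2) - 1) / q := by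
    simp [mAl, g2_evT_eq, htv, hv, zpow_neg]; field_simp; ring
  have e2 : ev t p v mBe = q := by simp [mBe, g2_evT_eq, htv]
  have e3 : ev t p v mGa = (p - 1) / q := by
    simp [mGa, g2_evT_eq, htv, zpow_neg]; field_simp; ring
  have e4 : ev t p v mNegV = -(p ^ 2 + q ^ 2)⁻¹ := by simp [mNegV, g2_evT_eq, hv]
  have e5 : ev t p v relN = p ^ 2 + q ^ 2 := by simp [relN, g2_evT_eq, htv]
  have hL : evW t p v mL = [(5, (p / (p ^ 2 + q ^ 2) - 1) / q), (6, q), (5, (p - 1) / q),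
      (6, (p - 1) / q), (5, q), (6, (p / (p ^ 2 + q ^ 2) - 1) / q)] := by
    simp only [mL, evW_cons, evW_nil, e1, e2, e3]
  have hR : evW t p v mR = chevG2.nWord 6 (p ^ 2 + q ^ 2) ++ chevG2.nWord 6 (-1) := by
    simp only [mR, evW_append, evW_cons, evW_nil, evW_nNegOneS, e4, e5]
    rfl
  rw [hL, hR] at h
  exact h

/-- `M Mᵀ = h_6(p² + q²)` for `M = x_5(α) x_6(q) x_5(γ)`. -/
theorem m_GL (hX : XAdd chevG2 F) (p q : F) (hq : q ≠ 0) (hN : p ^ 2 + q ^ 2 ≠ 0) :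
    xGL hX 5 ((p / (p ^ 2 + q ^ 2) - 1) / q) * xGL hX 6 q * xGL hX 5 ((p - 1) / q) *
      (xGL hX 6 ((p - 1) / q) * xGL hX 5 q * xGL hX 6 ((p / (p ^ 2 + q ^ 2) - 1) / q)) =
      hGL hX 6 (p ^ 2 + q ^ 2) := by
  have h := m_mat p q hq hN
  apply Units.ext
  rw [hGL_val]
  simp only [Units.val_mul, xGL_val]
  unfold ChevalleyDatum.hMat ChevalleyDatum.hWord
  rw [← h]
  simp only [wordMat_cons, wordMat_nil, mul_one, mul_assoc]

end

end Cfsg.Agent.Helper18.G2O
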