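import Cfsg.Agent.Helper18.D4Tor2
import Cfsg.Agent.Helper18.G2Tor3
import Cfsg.Agent.Helper18.NGroup
import Cfsg.Agent.Helper17.ChevDiagCard

/-!
# The torus of `G₂` in coordinates (helper18, S4278)

`IsTor h z0 z1`: the matrix of `h` is the diagonal matrix of the character
`s ↦ z0 ^ ⟨s, a^∨⟩ * z1 ^ ⟨s, b^∨⟩`.  Conjugation by `n_a`, `n_b` in these coordinates, and the
involutions of the torus.
-/

set_option autoImplicit false

namespace Cfsg.Agent.Helper18.G2O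

open Cfsg Cfsg.Lie Cfsg.Agent.Helper36 Cfsg.Agent.Helper17 Cfsg.Agent.Helper18

theorem g2_mem : chevG2 ∈ [chevG2, chevB2, chevD4, chevF4, chevE6, chevE7, chevE8] :=
  List.mem_cons_self

theorem g2B (F : Type*) [Field F] : BRel chevG2 F (etaN chevG2) := bRel_of_mem g2_mem

theorem g2_cartan_tab : ∀ s < 12, (chevG2.cartan 0 s, chevG2.cartan 1 s) =
    ([(0, -1), (-3, 1), (-1, 0), (1, -1), (-2, 1), (3, -2), (-3, 2), (2, -1), (-1, 1), (1, 0),
      (3, -1), (0, 1)] : List (ℤ × ℤ)).getD s (0, 0) := by decide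

theorem g2_refl_tab : ∀ s < 12, (chevG2.reflectRoot 0 s, chevG2.reflectRoot 1 s, chevG2.neg s) =
    ([(0, 1, 11), (5, 0, 10), (3, 2, 9), (2, 4, 8), (7, 3, 7), (1, 6, 6), (10, 5, 5), (4, 8, 4),
      (9, 7, 3), (8, 9, 2), (6, 11, 1), (11, 10, 0)] : List (ℕ × ℕ × ℕ)).getD s (0, 0, 0) := by
  decide

theorem g2_simple : chevG2.simple 0 = 7 ∧ chevG2.simple 1 = 6 ∧ chevG2.rank = 2 ∧
    chevG2.nroots = 12 := by decide

section

variable {F : Type*} [Field F]

/-- the pair `(z0, z1)` as a function. -/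
def zf (z0 z1 : Fˣ) : ℕ → Fˣ := fun i => if i = 0 then z0 else z1

theorem tc (z : ℕ → Fˣ) (s : ℕ) :
    torusChar chevG2 z s = z 0 ^ chevG2.cartan 0 s * z 1 ^ chevG2.cartan 1 s := by
  show ((List.range 2).map fun i => z i ^ chevG2.cartan i s).prod = _
  simp [List.range_succ]

theorem tcz (z0 z1 : Fˣ) (s : ℕ) :
    torusChar chevG2 (zf z0 z1) s = z0 ^ chevG2.cartan 0 s * z1 ^ chevG2.cartan 1 s := by
  rw [tc]; rfl

/-- `h` is the torus element with coordinates `(z0, z1)`. -/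
def IsTor (h : GL chevG2.Idx F) (z0 z1 : Fˣ) : Prop :=
  (h : Matrix chevG2.Idx chevG2.Idx F) = chevG2.charDiag F (torusChar chevG2 (zf z0 z1))

theorem mem_H_iff {h : GL chevG2.Idx F} :
    h ∈ chevG2.diagonalSubgroup F ↔ ∃ z0 z1, IsTor h z0 z1 := by
  rw [diagonalSubgroup_eq_torus (simpleOK_of_mem g2_mem) (hDiag_of_mem g2_mem)
    (rootElts_of_mem g2_mem), mem_torus]
  constructor
  · rintro ⟨z, hz⟩
    refine ⟨z 0, z 1, ?_⟩
    unfold IsTor
    rw [hz]
    apply charDiag_congr'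
    intro s _
    rw [tc, tcz]
  · rintro ⟨z0, z1, hz⟩
    exact ⟨_, hz⟩

theorem IsTor.mem {h : GL chevG2.Idx F} {z0 z1 : Fˣ} (hz : IsTor h z0 z1) :
    h ∈ chevG2.diagonalSubgroup F := mem_H_iff.mpr ⟨z0, z1, hz⟩

theorem IsTor.conj_x {h : GL chevG2.Idx F} {z0 z1 : Fˣ} (hz : IsTor h z0 z1) {s : ℕ}
    (hs : s < 12) (t : F) :
    h * xGL (g2B F).xadd s t * h⁻¹ = xGL (g2B F).xadd s
      (((z0 ^ chevG2.cartan 0 s * z1 ^ chevG2.cartan 1 s : Fˣ) : F) * t) := by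
  apply Units.ext
  rw [Units.val_mul, Units.val_mul, xGL_val, xGL_val]
  have := torus_conj_x (chainOK_of_mem chevG2 g2_mem) (cartanFacts_of_mem g2_mem) hz s hs t
  rw [tcz] at this
  exact this

theorem IsTor.mul {h h' : GL chevG2.Idx F} {z0 z1 w0 w1 : Fˣ} (hz : IsTor h z0 z1)
    (hw : IsTor h' w0 w1) : IsTor (h * h') (z0 * w0) (z1 * w1) := by
  unfold IsTor at *
  rw [Units.val_mul, hz, hw, charDiag_mul]
  apply charDiag_congr'
  intro s _
  rw [tcz, tcz, tcz, mul_zpow, mul_zpow, mul_mul_mul_comm]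

theorem isTor_one : IsTor (1 : GL chevG2.Idx F) 1 1 := by
  unfold IsTor
  rw [Units.val_one, ← charDiag_one chevG2]
  apply charDiag_congr'
  intro s _
  rw [tcz, one_zpow, one_zpow, one_mul]

theorem IsTor.coord {h : GL chevG2.Idx F} {z0 z1 w0 w1 : Fˣ} (hz : IsTor h z0 z1)
    (hw : IsTor h w0 w1) : z0 = w0 ∧ z1 = w1 := by
  unfold IsTor at *
  rw [hz] at hw
  have h9 := charDiag_inj' chevG2 hw 9 (by decide)
  have h11 := charDiag_inj' chevG2 hw 11 (by decide)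
  rw [tcz, tcz] at h9 h11
  have e1 := g2_cartan_tab 9 (by norm_num)
  have e2 := g2_cartan_tab 11 (by norm_num)
  simp only [List.getD_cons_succ, List.getD_cons_zero, Prod.mk.injEq] at e1 e2
  rw [e1.1, e1.2] at h9
  rw [e2.1, e2.2] at h11
  simp only [zpow_one, zpow_zero, mul_one, one_mul] at h9 h11
  exact ⟨h9, h11⟩

theorem IsTor.eq {h h' : GL chevG2.Idx F} {z0 z1 : Fˣ} (hz : IsTor h z0 z1)
    (hw : IsTor h' z0 z1) : h = h' := Units.ext (hz.trans hw.symm)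

theorem IsTor.congr {h : GL chevG2.Idx F} {z0 z1 w0 w1 : Fˣ} (hz : IsTor h z0 z1)
    (h0 : z0 = w0) (h1 : z1 = w1) : IsTor h w0 w1 := by
  subst h0; subst h1; exact hz

theorem IsTor.inv {h : GL chevG2.Idx F} {z0 z1 : Fˣ} (hz : IsTor h z0 z1) :
    IsTor h⁻¹ z0⁻¹ z1⁻¹ := by
  obtain ⟨w0, w1, hw⟩ := mem_H_iff.mp (inv_mem hz.mem)
  have h1 := (hz.mul hw)
  rw [mul_inv_cancel] at h1
  obtain ⟨e0, e1⟩ := h1.coord isTor_one
  exact hw.congr (eq_inv_of_mul_eq_one_right e0) (eq_inv_of_mul_eq_one_right e1)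

theorem isTor_hGL {r : ℕ} (hr : r < 12) (c : Fˣ) :
    IsTor (hGL (g2B F).xadd r (c : F)) (c ^ (chevG2.coroot.getD r #[]).getD 0 0)
      (c ^ (chevG2.coroot.getD r #[]).getD 1 0) := by
  unfold IsTor
  rw [hGL_val, hMat_eq_charDiag (hDiag_of_mem g2_mem) hr c.ne_zero]
  apply charDiag_congr'
  intro s _
  rw [tc, tcz]
  simp

theorem isTor_hGL7 (c : Fˣ) : IsTor (hGL (g2B F).xadd 7 (c : F)) c 1 := by
  have h := isTor_hGL (F := F) (r := 7) (by norm_num) c
  have e0 : (chevG2.coroot.getD 7 #[]).getD 0 0 = 1 := by decide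
  have e1 : (chevG2.coroot.getD 7 #[]).getD 1 0 = 0 := by decide
  rw [e0, e1] at h
  simpa using h

theorem isTor_hGL6 (c : Fˣ) : IsTor (hGL (g2B F).xadd 6 (c : F)) 1 c := by
  have h := isTor_hGL (F := F) (r := 6) (by norm_num) c
  have e0 : (chevG2.coroot.getD 6 #[]).getD 0 0 = 0 := by decide
  have e1 : (chevG2.coroot.getD 6 #[]).getD 1 0 = 1 := by decide
  rw [e0, e1] at h
  simpa using h

theorem isTor_hGL11 (c : Fˣ) : IsTor (hGL (g2B F).xadd 11 (c : F)) c (c ^ 2) := by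
  have h := isTor_hGL (F := F) (r := 11) (by norm_num) c
  have e0 : (chevG2.coroot.getD 11 #[]).getD 0 0 = 1 := by decide
  have e1 : (chevG2.coroot.getD 11 #[]).getD 1 0 = 2 := by decide
  rw [e0, e1] at h
  simpa using h

/-- Conjugation by `n_i` composes the character with the reflection. -/
theorem IsTor.conj_n {h : GL chevG2.Idx F} {z0 z1 : Fˣ} (hz : IsTor h z0 z1) {i : ℕ} (hi : i < 2) :
    ∃ w0 w1, IsTor ((g2B F).n i * h * ((g2B F).n i)⁻¹) w0 w1 ∧ ∀ s < 12,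
      w0 ^ chevG2.cartan 0 s * w1 ^ chevG2.cartan 1 s =
        z0 ^ chevG2.cartan 0 (chevG2.reflectRoot i s) *
          z1 ^ chevG2.cartan 1 (chevG2.reflectRoot i s) := by
  have R := g2B F
  obtain ⟨w0, w1, hw⟩ := mem_H_iff.mp ((g2B F).n_conj_H hi h hz.mem)
  refine ⟨w0, w1, hw, ?_⟩
  intro s hs
  have hs' : chevG2.reflectRoot i s < 12 := (g2B F).wf.refl_lt i hi s hs
  have h1 := hw.conj_x hs (1 : F)
  have h2 : (g2B F).n i * h * ((g2B F).n i)⁻¹ * xGL (g2B F).xadd s 1 *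
      ((g2B F).n i * h * ((g2B F).n i)⁻¹)⁻¹ =
      (g2B F).n i * (h * (((g2B F).n i)⁻¹ * xGL (g2B F).xadd s 1 * (g2B F).n i) * h⁻¹) *
        ((g2B F).n i)⁻¹ := by group
  rw [h2, (g2B F).conj_x' hi hs, hz.conj_x hs', (g2B F).conj_x hi hs',
    (g2B F).wf.refl_refl i hi s hs] at h1
  have h3 := x_inj_of_bRel (g2B F) hs (congrArg Units.val h1)
  apply Units.ext
  have h4 := (g2B F).eta_mul_self hi hs'
  rw [mul_one, mul_one] at h3
  rw [← h3]
  linear_combination (((z0 ^ chevG2.cartan 0 (chevG2.reflectRoot i s) *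
    z1 ^ chevG2.cartan 1 (chevG2.reflectRoot i s) : Fˣ) : F)) * h4

theorem IsTor.conj_n0 {h : GL chevG2.Idx F} {z0 z1 : Fˣ} (hz : IsTor h z0 z1) :
    IsTor ((g2B F).n 0 * h * ((g2B F).n 0)⁻¹) (z1 / z0) z1 := by
  obtain ⟨w0, w1, hw, hall⟩ := hz.conj_n (i := 0) (by norm_num)
  have h9 := hall 9 (by norm_num)
  have h11 := hall 11 (by norm_num)
  have r9 := g2_refl_tab 9 (by norm_num)
  have r11 := g2_refl_tab 11 (by norm_num)
  have c8 := g2_cartan_tab 8 (by norm_num)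
  have c9 := g2_cartan_tab 9 (by norm_num)
  have c11 := g2_cartan_tab 11 (by norm_num)
  simp only [List.getD_cons_succ, List.getD_cons_zero, Prod.mk.injEq] at r9 r11 c8 c9 c11
  rw [r9.1, c9.1, c9.2, c8.1, c8.2] at h9
  rw [r11.1, c11.1, c11.2] at h11
  simp only [zpow_one, zpow_zero, mul_one, one_mul, zpow_neg] at h9 h11
  refine hw.congr ?_ h11
  rw [h9, div_eq_mul_inv, mul_comm]

theorem IsTor.conj_n1 {h : GL chevG2.Idx F} {z0 z1 : Fˣ} (hz : IsTor h z0 z1) :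
    IsTor ((g2B F).n 1 * h * ((g2B F).n 1)⁻¹) z0 (z0 ^ 3 / z1) := by
  obtain ⟨w0, w1, hw, hall⟩ := hz.conj_n (i := 1) (by norm_num)
  have h9 := hall 9 (by norm_num)
  have h11 := hall 11 (by norm_num)
  have r9 := g2_refl_tab 9 (by norm_num)
  have r11 := g2_refl_tab 11 (by norm_num)
  have c10 := g2_cartan_tab 10 (by norm_num)
  have c9 := g2_cartan_tab 9 (by norm_num)
  have c11 := g2_cartan_tab 11 (by norm_num)
  simp only [List.getD_cons_succ, List.getD_cons_zero, Prod.mk.injEq] at r9 r11 c10 c9 c11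
  rw [r9.2.1, c9.1, c9.2] at h9
  rw [r11.2.1, c11.1, c11.2, c10.1, c10.2] at h11
  simp only [zpow_one, zpow_zero, mul_one, one_mul, zpow_neg] at h9 h11
  refine hw.congr h9 ?_
  rw [h11, div_eq_mul_inv]
  rfl

theorem isTor_n0_sq : IsTor ((g2B F).n 0 * (g2B F).n 0) (-1) 1 := by
  have h1 := (g2B F).n_sq_inv (i := 0) (by decide)
  have h2 : (g2B F).n 0 * (g2B F).n 0 = (hGL (g2B F).xadd (chevG2.simple 0) (-1))⁻¹ := by
    rw [← h1, inv_inv]
  rw [h2, g2_simple.1]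
  have h3 := (isTor_hGL7 (F := F) (-1)).inv
  simpa using h3

theorem isTor_n1_sq : IsTor ((g2B F).n 1 * (g2B F).n 1) 1 (-1) := by
  have h1 := (g2B F).n_sq_inv (i := 1) (by decide)
  have h2 : (g2B F).n 1 * (g2B F).n 1 = (hGL (g2B F).xadd (chevG2.simple 1) (-1))⁻¹ := by
    rw [← h1, inv_inv]
  rw [h2, g2_simple.2.1]
  have h3 := (isTor_hGL6 (F := F) (-1)).inv
  simpa using h3

theorem n_mem_group (i : ℕ) (hi : i < 2) : (g2B F).n i ∈ chevG2.group F :=
  Cfsg.Agent.Helper36.monomialSubgroup_le_group (g2B F).xadd ((g2B F).n_mem_monomial hi)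

/-- The fixed involution `n_b²` of the torus. -/
noncomputable def t0 (F : Type*) [Field F] : GL chevG2.Idx F := (g2B F).n 1 * (g2B F).n 1

/-- `m` is conjugate in the group to the involution `t0`. -/
def Cl (m : GL chevG2.Idx F) : Prop := ∃ g ∈ chevG2.group F, g * m * g⁻¹ = t0 F

theorem Cl.of_conj {m g : GL chevG2.Idx F} (hg : g ∈ chevG2.group F) (h : Cl (g * m * g⁻¹)) :
    Cl m := by
  obtain ⟨g', hg', he⟩ := h
  refine ⟨g' * g, mul_mem hg' hg, ?_⟩
  rw [← he]; group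

/-- The involutions of the torus are conjugate to `t0`. -/
theorem torus_invol {h : GL chevG2.Idx F} (hh : h ∈ chevG2.diagonalSubgroup F)
    (h2 : h * h = 1) (h1 : h ≠ 1) : Cl h := by
  obtain ⟨z0, z1, hz⟩ := mem_H_iff.mp hh
  have hsq := hz.mul hz
  rw [h2] at hsq
  obtain ⟨e0, e1⟩ := hsq.coord isTor_one
  have hpm : ∀ z : Fˣ, z * z = 1 → z = 1 ∨ z = -1 := by
    intro z hzz
    have : (z : F) * (z : F) = 1 := by
      have := congrArg Units.val hzz
      rwa [Units.val_mul, Units.val_one] at this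
    rcases mul_self_eq_one_iff.mp this with h | h
    · exact Or.inl (Units.ext h)
    · exact Or.inr (Units.ext (by simpa using h))
  rcases hpm z0 e0 with rfl | rfl <;> rcases hpm z1 e1 with rfl | rfl
  · exact absurd (hz.eq isTor_one) h1
  · exact ⟨1, one_mem _, by rw [one_mul, inv_one, mul_one]; exact hz.eq isTor_n1_sq⟩
  · have hA := hz.conj_n1.conj_n0
    refine ⟨(g2B F).n 0 * (g2B F).n 1, mul_mem (n_mem_group 0 (by norm_num))
      (n_mem_group 1 (by norm_num)), ?_⟩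
    have e : (g2B F).n 0 * (g2B F).n 1 * h * ((g2B F).n 0 * (g2B F).n 1)⁻¹ =
        (g2B F).n 0 * ((g2B F).n 1 * h * ((g2B F).n 1)⁻¹) * ((g2B F).n 0)⁻¹ := by group
    rw [e]
    have e3 : ((-1 : Fˣ)) ^ 3 = -1 := Odd.neg_one_pow (by decide)
    refine (hA.congr ?_ ?_).eq isTor_n1_sq
    · simp [e3]
    · simp [e3]
  · have hA := hz.conj_n0
    refine ⟨(g2B F).n 0, n_mem_group 0 (by norm_num), ?_⟩
    refine (hA.congr ?_ rfl).eq isTor_n1_sq
    simp

end

end Cfsg.Agent.Helper18.G2O
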