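import Cfsg.Agent.Helper18.G2OddId
import Cfsg.Agent.Helper18.G2OddTor

/-!
# Involutions `h n_r` of `G₂` in odd characteristic: conjugation into the torus (helper18, S4278)
-/

set_option autoImplicit false

namespace Cfsg.Agent.Helper18.G2O

open Cfsg Cfsg.Lie Cfsg.Agent.Helper36 Cfsg.Agent.Helper17 Cfsg.Agent.Helper18

section

variable {F : Type*} [Field F]

theorem conj_calc {G : Type*} [Group G] (a b h n c a' b' : G) (h1 : a * h = h * a')
    (h1' : b * h = h * b') : a * b * (h * n) * c = h * (a' * b' * n * c) := by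
  calc a * b * (h * n) * c = a * (b * h) * n * c := by group
    _ = a * (h * b') * n * c := by rw [h1']
    _ = (a * h) * b' * n * c := by group
    _ = h * a' * b' * n * c := by rw [h1]
    _ = _ := by group

/-- The rank one conjugation: if `h` acts on `X_r` by `-e²`, then `h n_r(1)` is conjugate to
`h h_r(-1/e)`. -/
theorem rk1_core {r : ℕ} (hchk : checkEqWRel chevG2 6 relTwo (rk1L r) (rk1R r) = true)
    (h2 : (2 : F) ≠ 0) (h : GL chevG2.Idx F) (e : F) (he : e ≠ 0)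
    (hc : ∀ t, h * xGL (g2B F).xadd r t * h⁻¹ = xGL (g2B F).xadd r (-(e ^ 2) * t))
    (hc' : ∀ t, h * xGL (g2B F).xadd (chevG2.neg r) t * h⁻¹ =
      xGL (g2B F).xadd (chevG2.neg r) (-(e ^ 2)⁻¹ * t)) :
    (xGL (g2B F).xadd r (-e / 2) * xGL (g2B F).xadd (chevG2.neg r) e⁻¹) *
        (h * nGL (g2B F).xadd r 1) *
      (xGL (g2B F).xadd r (-e / 2) * xGL (g2B F).xadd (chevG2.neg r) e⁻¹)⁻¹ =
      h * hGL (g2B F).xadd r (-e⁻¹) := by
  have h1 : xGL (g2B F).xadd r (-e / 2) * h = h * xGL (g2B F).xadd r (2 * e)⁻¹ := by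
    have h3 := hc (2 * e)⁻¹
    have e1 : -(e ^ 2) * (2 * e)⁻¹ = -e / 2 := by field_simp
    rw [e1] at h3
    rw [← h3, inv_mul_cancel_right]
  have h1' : xGL (g2B F).xadd (chevG2.neg r) e⁻¹ * h =
      h * xGL (g2B F).xadd (chevG2.neg r) (-e) := by
    have h3 := hc' (-e)
    have e1 : -(e ^ 2)⁻¹ * (-e) = e⁻¹ := by field_simp
    rw [e1] at h3
    rw [← h3, inv_mul_cancel_right]
  have h3 := rk1_GL (g2B F).xadd hchk e he h2
  rw [← h3]
  have e4 : (xGL (g2B F).xadd r (-e / 2) * xGL (g2B F).xadd (chevG2.neg r) e⁻¹)⁻¹ =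
      xGL (g2B F).xadd (chevG2.neg r) (-e⁻¹) * xGL (g2B F).xadd r (e / 2) := by
    have e5 : -(-e / 2) = e / 2 := by ring
    rw [mul_inv_rev, xGL_inv, xGL_inv, e5]
  rw [e4]
  exact conj_calc _ _ _ _ _ _ _ h1 h1'

/-- The rank one conjugation for a torus element in coordinates. -/
theorem rk1_tor {r : ℕ} (hr : r < 12)
    (hchk : checkEqWRel chevG2 6 relTwo (rk1L r) (rk1R r) = true)
    (h2 : (2 : F) ≠ 0) {h : GL chevG2.Idx F} {z0 z1 : Fˣ} (hz : IsTor h z0 z1) (e : Fˣ)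
    (hχ : z0 ^ chevG2.cartan 0 r * z1 ^ chevG2.cartan 1 r = -(e ^ 2))
    (hχ' : z0 ^ chevG2.cartan 0 (chevG2.neg r) * z1 ^ chevG2.cartan 1 (chevG2.neg r) =
      -(e ^ 2)⁻¹) :
    ∃ g ∈ chevG2.group F, g * (h * nGL (g2B F).xadd r 1) * g⁻¹ =
      h * hGL (g2B F).xadd r (-(e : F)⁻¹) := by
  have hr' : chevG2.neg r < 12 := (g2B F).wf.neg_lt r hr
  refine ⟨xGL (g2B F).xadd r (-(e : F) / 2) * xGL (g2B F).xadd (chevG2.neg r) (e : F)⁻¹,
    mul_mem (xGL_mem_group _ _ _) (xGL_mem_group _ _ _), ?_⟩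
  apply rk1_core hchk h2 h (e : F) e.ne_zero
  · intro t
    rw [hz.conj_x hr, hχ]
    simp
  · intro t
    rw [hz.conj_x hr', hχ']
    simp

/-- An involution `h n_a` is conjugate into the torus. -/
theorem rank1_n0 (h2 : (2 : F) ≠ 0) {h : GL chevG2.Idx F} (hh : h ∈ chevG2.diagonalSubgroup F)
    (hm : (h * (g2B F).n 0) * (h * (g2B F).n 0) = 1) :
    ∃ g ∈ chevG2.group F, g * (h * (g2B F).n 0) * g⁻¹ ∈ chevG2.diagonalSubgroup F := by
  obtain ⟨z0, z1, hz⟩ := mem_H_iff.mp hh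
  have e : (h * (g2B F).n 0) * (h * (g2B F).n 0) =
      h * ((g2B F).n 0 * h * ((g2B F).n 0)⁻¹) * ((g2B F).n 0 * (g2B F).n 0) := by group
  have hT := (hz.mul hz.conj_n0).mul isTor_n0_sq
  rw [← e, hm] at hT
  obtain ⟨e0, -⟩ := hT.coord isTor_one
  have hz1 : z1 = -1 := by
    have : z0 * (z1 / z0) = z1 := by rw [mul_div_cancel]
    rw [this] at e0
    have := congrArg (fun x => -x) e0
    simpa using this
  have hn : (g2B F).n 0 = nGL (g2B F).xadd 7 1 := rfl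
  have c7 := g2_cartan_tab 7 (by norm_num)
  have c4 := g2_cartan_tab 4 (by norm_num)
  have r7 := g2_refl_tab 7 (by norm_num)
  simp only [List.getD_cons_succ, List.getD_cons_zero, Prod.mk.injEq] at c7 c4 r7
  obtain ⟨g, hg, hge⟩ := rk1_tor (r := 7) (by norm_num) rk1_chk7 h2 hz z0
    (by rw [c7.1, c7.2, hz1]; simp [zpow_neg])
    (by rw [r7.2.2, c4.1, c4.2, hz1]; simp [zpow_neg])
  refine ⟨g, hg, ?_⟩
  rw [hn, hge]
  exact mul_mem hh (hGL_mem _ (by decide) (by simp))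

/-- An involution `h n_b` is conjugate into the torus. -/
theorem rank1_n1 (h2 : (2 : F) ≠ 0) {h : GL chevG2.Idx F} (hh : h ∈ chevG2.diagonalSubgroup F)
    (hm : (h * (g2B F).n 1) * (h * (g2B F).n 1) = 1) :
    ∃ g ∈ chevG2.group F, g * (h * (g2B F).n 1) * g⁻¹ ∈ chevG2.diagonalSubgroup F := by
  obtain ⟨z0, z1, hz⟩ := mem_H_iff.mp hh
  have e : (h * (g2B F).n 1) * (h * (g2B F).n 1) =
      h * ((g2B F).n 1 * h * ((g2B F).n 1)⁻¹) * ((g2B F).n 1 * (g2B F).n 1) := by group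
  have hT := (hz.mul hz.conj_n1).mul isTor_n1_sq
  rw [← e, hm] at hT
  obtain ⟨e0, e1⟩ := hT.coord isTor_one
  have hz0 : z0 = -1 := by
    have h3 : z0 ^ 3 = -1 := by
      have : z1 * (z0 ^ 3 / z1) = z0 ^ 3 := by rw [mul_div_cancel]
      rw [this] at e1
      have := congrArg (fun x => -x) e1
      simpa using this
    have h4 : z0 ^ 2 = 1 := by rw [sq]; simpa using e0
    have : z0 ^ 3 = z0 ^ 2 * z0 := pow_succ z0 2
    rw [h4, one_mul] at this
    rw [← this, h3]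
  have hn : (g2B F).n 1 = nGL (g2B F).xadd 6 1 := rfl
  have c6 := g2_cartan_tab 6 (by norm_num)
  have c5 := g2_cartan_tab 5 (by norm_num)
  have r6 := g2_refl_tab 6 (by norm_num)
  simp only [List.getD_cons_succ, List.getD_cons_zero, Prod.mk.injEq] at c6 c5 r6
  have e3 : ((-1 : Fˣ)) ^ 3 = -1 := Odd.neg_one_pow (by decide)
  obtain ⟨g, hg, hge⟩ := rk1_tor (r := 6) (by norm_num) rk1_chk6 h2 hz z1
    (by rw [c6.1, c6.2, hz0]; simp [zpow_neg, e3])
    (by rw [r6.2.2, c5.1, c5.2, hz0]; simp [zpow_neg, e3])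
  refine ⟨g, hg, ?_⟩
  rw [hn, hge]
  exact mul_mem hh (hGL_mem _ (by decide) (by simp))

end

end Cfsg.Agent.Helper18.G2O
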