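import Cfsg.Agent.Helper18.G2OddRk

/-!
# The involutions `h (n_a n_b)³` of `G₂` in odd characteristic (helper18, S4278)

Every element `h p1`, `p1 = (n_a n_b)³`, `h` in the torus, is conjugate to an element `h' n_a`.
-/

set_option autoImplicit false

namespace Cfsg.Agent.Helper18.G2O

open Cfsg Cfsg.Lie Cfsg.Agent.Helper36 Cfsg.Agent.Helper17 Cfsg.Agent.Helper18

theorem p1c6_chk : checkEqW chevG2 (p1S ++ [(6, uR)]) ((5, negR uR) :: p1S) = true := by
  decide +kernel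

theorem p1c5_chk : checkEqW chevG2 (p1S ++ [(5, uR)]) ((6, negR uR) :: p1S) = true := by
  decide +kernel

theorem g2_orth : chevG2.commTerms 7 11 = [] ∧ chevG2.commTerms 4 11 = [] ∧
    chevG2.commTerms 7 0 = [] ∧ chevG2.commTerms 4 0 = [] := by decide

theorem braid_comm_a {G : Type*} [Group G] (a b : G)
    (h : a * b * (a * b) * (a * b) = b * a * (b * a) * (b * a)) :
    a * (a * b * (a * b) * (a * b)) = a * b * (a * b) * (a * b) * a := by
  calc a * (a * b * (a * b) * (a * b)) = a * (b * a * (b * a) * (b * a)) := by rw [h]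
    _ = a * b * (a * b) * (a * b) * a := by group

theorem braid_comm_b {G : Type*} [Group G] (a b : G)
    (h : a * b * (a * b) * (a * b) = b * a * (b * a) * (b * a)) :
    b * (a * b * (a * b) * (a * b)) = a * b * (a * b) * (a * b) * b := by
  calc b * (a * b * (a * b) * (a * b)) = (b * a * (b * a) * (b * a)) * b := by group
    _ = a * b * (a * b) * (a * b) * b := by rw [← h]

theorem conj6 {G : Type*} [Group G] (a b h : G) :
    a * b * (a * b) * (a * b) * h * (a * b * (a * b) * (a * b))⁻¹ =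
      a * (b * (a * (b * (a * (b * h * b⁻¹) * a⁻¹) * b⁻¹) * a⁻¹) * b⁻¹) * a⁻¹ := by group

section

variable {F : Type*} [Field F]

/-- the lift `(n_a n_b)³` of the longest element. -/
noncomputable def p1 (F : Type*) [Field F] : GL chevG2.Idx F := (g2B F).nW [0, 1, 0, 1, 0, 1]

theorem p1_eq : p1 F = (g2B F).n 0 * (g2B F).n 1 * ((g2B F).n 0 * (g2B F).n 1) *
    ((g2B F).n 0 * (g2B F).n 1) := by
  simp [p1, NRel.nW, mul_assoc]

theorem n0_eq : (g2B F).n 0 = nGL (g2B F).xadd 7 1 := rfl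

theorem n1_eq : (g2B F).n 1 = nGL (g2B F).xadd 6 1 := rfl

theorem nW_braid : (g2B F).nW [1, 0, 1, 0, 1, 0] = p1 F := by
  rw [p1_eq]
  have e : (g2B F).nW [1, 0, 1, 0, 1, 0] = (g2B F).n 1 * (g2B F).n 0 *
      ((g2B F).n 1 * (g2B F).n 0) * ((g2B F).n 1 * (g2B F).n 0) := by
    simp [NRel.nW, mul_assoc]
  rw [e, n0_eq, n1_eq]
  exact (braid_GL (g2B F).xadd).symm

theorem p1_comm_n0 : (g2B F).n 0 * p1 F = p1 F * (g2B F).n 0 := by
  rw [p1_eq]
  apply braid_comm_a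
  rw [n0_eq, n1_eq]
  exact braid_GL (g2B F).xadd

theorem p1_comm_n1 : (g2B F).n 1 * p1 F = p1 F * (g2B F).n 1 := by
  rw [p1_eq]
  apply braid_comm_b
  rw [n0_eq, n1_eq]
  exact braid_GL (g2B F).xadd

theorem p1_n11 : (g2B F).n 0 * p1 F = nGL (g2B F).xadd 11 1 := by
  rw [p1_eq, n0_eq, n1_eq]
  exact n7p1_GL (g2B F).xadd

theorem p1_val : ((p1 F : GL chevG2.Idx F) : Matrix chevG2.Idx chevG2.Idx F) =
    chevG2.wordMat F (chevG2.nWord 7 (1 : F) ++ chevG2.nWord 6 1 ++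
      chevG2.nWord 7 1 ++ chevG2.nWord 6 1 ++ chevG2.nWord 7 1 ++ chevG2.nWord 6 1) := by
  rw [p1_eq, n0_eq, n1_eq]
  simp only [Units.val_mul, nGL_val, wordMat_append]
  unfold ChevalleyDatum.nMat
  simp only [mul_assoc]

theorem p1_mv6 (u : F) :
    p1 F * xGL (g2B F).xadd 6 u = xGL (g2B F).xadd 5 (-u) * p1 F := by
  apply Units.ext
  rw [Units.val_mul, Units.val_mul, xGL_val, xGL_val, p1_val]
  have h := wordMat_eq_of_checkEqW chevG2 (1 : Fˣ) u (0 : F) p1c6_chk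
  simp only [p1S, evW_append, evW_cons, evW_nil, evW_nOneS, ev_negR, ev_uR] at h
  rw [wordMat_append, wordMat_singleton, wordMat_cons] at h
  exact h

theorem p1_mv5 (u : F) :
    p1 F * xGL (g2B F).xadd 5 u = xGL (g2B F).xadd 6 (-u) * p1 F := by
  apply Units.ext
  rw [Units.val_mul, Units.val_mul, xGL_val, xGL_val, p1_val]
  have h := wordMat_eq_of_checkEqW chevG2 (1 : Fˣ) u (0 : F) p1c5_chk
  simp only [p1S, evW_append, evW_cons, evW_nil, evW_nOneS, ev_negR, ev_uR] at h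
  rw [wordMat_append, wordMat_singleton, wordMat_cons] at h
  exact h

theorem p1_mem : p1 F ∈ chevG2.group F := by
  rw [p1_eq]
  have h0 := n_mem_group (F := F) 0 (by norm_num)
  have h1 := n_mem_group (F := F) 1 (by norm_num)
  exact mul_mem (mul_mem (mul_mem h0 h1) (mul_mem h0 h1)) (mul_mem h0 h1)

/-- `p1` inverts the torus. -/
theorem IsTor.conj_p1 {h : GL chevG2.Idx F} {z0 z1 : Fˣ} (hz : IsTor h z0 z1) :
    IsTor (p1 F * h * (p1 F)⁻¹) z0⁻¹ z1⁻¹ := by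
  have h6 := hz.conj_n1.conj_n0.conj_n1.conj_n0.conj_n1.conj_n0
  rw [p1_eq, conj6]
  have ha : (z0 : F) ≠ 0 := z0.ne_zero
  have hb : (z1 : F) ≠ 0 := z1.ne_zero
  refine h6.congr ?_ ?_
  · apply Units.ext
    simp only [Units.val_div_eq_div_val, Units.val_pow_eq_pow_val, Units.val_inv_eq_inv_val]
    field_simp
  · apply Units.ext
    simp only [Units.val_div_eq_div_val, Units.val_pow_eq_pow_val, Units.val_inv_eq_inv_val]
    field_simp

theorem p1_conj_inv {h : GL chevG2.Idx F} (hh : h ∈ chevG2.diagonalSubgroup F) :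
    p1 F * h⁻¹ * (p1 F)⁻¹ = h := by
  obtain ⟨z0, z1, hz⟩ := mem_H_iff.mp hh
  have h1 := hz.inv.conj_p1
  rw [inv_inv, inv_inv] at h1
  exact h1.eq hz

/-- `h p1` is conjugate to an element `h' n_a`. -/
def Q (h : GL chevG2.Idx F) : Prop :=
  ∃ g ∈ chevG2.group F, ∃ h' ∈ chevG2.diagonalSubgroup F,
    g * (h * p1 F) * g⁻¹ = h' * (g2B F).n 0

theorem conj_comm {G : Type*} [Group G] (g n h p : G) (hc : n * p = p * n) :
    g * n * (h * p) * (g * n)⁻¹ = g * (n * h * n⁻¹ * p) * g⁻¹ := by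
  have : n * h * n⁻¹ * p = n * (h * p) * n⁻¹ := by
    calc n * h * n⁻¹ * p = n * h * n⁻¹ * (p * n) * n⁻¹ := by group
      _ = n * h * n⁻¹ * (n * p) * n⁻¹ := by rw [hc]
      _ = n * (h * p) * n⁻¹ := by group
  rw [this]; group

theorem Q.of_n {h : GL chevG2.Idx F} {i : ℕ} (hi : i < 2)
    (hQ : Q ((g2B F).n i * h * ((g2B F).n i)⁻¹)) : Q h := by
  obtain ⟨g, hg, h', hh', he⟩ := hQ
  refine ⟨g * (g2B F).n i, mul_mem hg (n_mem_group i hi), h', hh', ?_⟩
  have hc : (g2B F).n i * p1 F = p1 F * (g2B F).n i := by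
    interval_cases i
    · exact p1_comm_n0
    · exact p1_comm_n1
  rw [conj_comm _ _ _ _ hc, he]

theorem conj_h {G : Type*} [Group G] (g k h p : G) (hc : p * k⁻¹ * p⁻¹ = k) :
    g * k * (h * p) * (g * k)⁻¹ = g * (k * h * k * p) * g⁻¹ := by
  have : k * h * k * p = k * (h * p) * k⁻¹ := by
    calc k * h * k * p = k * h * (p * k⁻¹ * p⁻¹) * p := by rw [hc]
      _ = k * (h * p) * k⁻¹ := by group
  rw [this]; group

theorem Q.of_h {h k : GL chevG2.Idx F} (hk : k ∈ chevG2.diagonalSubgroup F)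
    (hQ : Q (k * h * k)) : Q h := by
  obtain ⟨g, hg, h', hh', he⟩ := hQ
  refine ⟨g * k, mul_mem hg (Cfsg.Agent.Helper36.diagonalSubgroup_le_group (g2B F).xadd hk),
    h', hh', ?_⟩
  rw [conj_h _ _ _ _ (p1_conj_inv hk), he]

theorem conj_m {G : Type*} [Group G] (g a b c a' b' c' h p : G)
    (hh : h * (a * b * c) = (a * b * c) * h)
    (ha : p * a⁻¹ = a' * p) (hb : p * b⁻¹ = b' * p) (hc : p * c⁻¹ = c' * p) :
    g * (a * b * c) * (h * p) * (g * (a * b * c))⁻¹ =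
      g * (h * (a * b * c * (c' * b' * a')) * p) * g⁻¹ := by
  have e1 : p * (a * b * c)⁻¹ = c' * b' * a' * p := by
    calc p * (a * b * c)⁻¹ = (p * c⁻¹) * b⁻¹ * a⁻¹ := by group
      _ = c' * (p * b⁻¹) * a⁻¹ := by rw [hc]; group
      _ = c' * b' * (p * a⁻¹) := by rw [hb]; group
      _ = c' * b' * a' * p := by rw [ha]; group
  calc g * (a * b * c) * (h * p) * (g * (a * b * c))⁻¹
      = g * ((a * b * c) * h) * (p * (a * b * c)⁻¹) * g⁻¹ := by group
    _ = g * (h * (a * b * c)) * (c' * b' * a' * p) * g⁻¹ := by rw [e1, hh]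
    _ = _ := by group

theorem Q.of_m {h : GL chevG2.Idx F} {z0 z1 : Fˣ} (hz : IsTor h z0 z1)
    (hχ : z0 ^ (-3 : ℤ) * z1 ^ (2 : ℤ) = 1) (p q : F) (hq : q ≠ 0) (hN : p ^ 2 + q ^ 2 ≠ 0)
    (hQ : Q (h * hGL (g2B F).xadd 6 (p ^ 2 + q ^ 2))) : Q h := by
  obtain ⟨g, hg, h', hh', he⟩ := hQ
  have c6 := g2_cartan_tab 6 (by norm_num)
  have c5 := g2_cartan_tab 5 (by norm_num)
  simp only [List.getD_cons_succ, List.getD_cons_zero, Prod.mk.injEq] at c6 c5
  have hχ' : z0 ^ (3 : ℤ) * z1 ^ (-2 : ℤ) = 1 := by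
    have : z0 ^ (3 : ℤ) * z1 ^ (-2 : ℤ) = (z0 ^ (-3 : ℤ) * z1 ^ (2 : ℤ))⁻¹ := by
      rw [mul_inv, ← zpow_neg, ← zpow_neg]; rfl
    rw [this, hχ, inv_one]
  have hc6 : ∀ t : F, h * xGL (g2B F).xadd 6 t = xGL (g2B F).xadd 6 t * h := by
    intro t
    have h1 := hz.conj_x (s := 6) (by norm_num) t
    rw [c6.1, c6.2, hχ, Units.val_one, one_mul] at h1
    exact mul_inv_eq_iff_eq_mul.mp h1
  have hc5 : ∀ t : F, h * xGL (g2B F).xadd 5 t = xGL (g2B F).xadd 5 t * h := by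
    intro t
    have h1 := hz.conj_x (s := 5) (by norm_num) t
    rw [c5.1, c5.2, hχ', Units.val_one, one_mul] at h1
    exact mul_inv_eq_iff_eq_mul.mp h1
  set α : F := (p / (p ^ 2 + q ^ 2) - 1) / q with hα
  set γ : F := (p - 1) / q with hγ
  refine ⟨g * (xGL (g2B F).xadd 5 α * xGL (g2B F).xadd 6 q * xGL (g2B F).xadd 5 γ),
    mul_mem hg (mul_mem (mul_mem (xGL_mem_group _ _ _) (xGL_mem_group _ _ _))
      (xGL_mem_group _ _ _)), h', hh', ?_⟩
  have hh : h * (xGL (g2B F).xadd 5 α * xGL (g2B F).xadd 6 q * xGL (g2B F).xadd 5 γ) =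
      (xGL (g2B F).xadd 5 α * xGL (g2B F).xadd 6 q * xGL (g2B F).xadd 5 γ) * h := by
    rw [← mul_assoc, ← mul_assoc, hc5, mul_assoc _ h, hc6, ← mul_assoc, mul_assoc _ h, hc5,
      ← mul_assoc]
  have ha : p1 F * (xGL (g2B F).xadd 5 α)⁻¹ = xGL (g2B F).xadd 6 α * p1 F := by
    rw [xGL_inv, p1_mv5, neg_neg]
  have hb : p1 F * (xGL (g2B F).xadd 6 q)⁻¹ = xGL (g2B F).xadd 5 q * p1 F := by
    rw [xGL_inv, p1_mv6, neg_neg]
  have hc : p1 F * (xGL (g2B F).xadd 5 γ)⁻¹ = xGL (g2B F).xadd 6 γ * p1 F := by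
    rw [xGL_inv, p1_mv5, neg_neg]
  rw [conj_m g _ _ _ _ _ _ h (p1 F) hh ha hb hc, m_GL (g2B F).xadd p q hq hN, he]

theorem comm3 {G : Type*} [Group G] (a b c y : G) (h1 : a * y = y * a) (h2 : b * y = y * b)
    (h3 : c * y = y * c) : a * b * c * y = y * (a * b * c) := by
  calc a * b * c * y = a * b * (c * y) := by group
    _ = a * (b * y) * c := by rw [h3]; group
    _ = (a * y) * b * c := by rw [h2]; group
    _ = y * (a * b * c) := by rw [h1]; group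

theorem x_comm {a b : ℕ} (ha : a < 12) (hb : b < 12) (hab : b ≠ a) (hneg : b ≠ chevG2.neg a)
    (h0 : chevG2.commTerms a b = []) (x y : F) :
    xGL (g2B F).xadd a x * xGL (g2B F).xadd b y = xGL (g2B F).xadd b y * xGL (g2B F).xadd a x := by
  apply Units.ext
  rw [Units.val_mul, Units.val_mul, xGL_val, xGL_val]
  have := (g2B F).cf a ha b hb hab hneg x y
  unfold ChevalleyDatum.commWord at this
  rw [h0, List.map_nil, wordMat_nil, mul_one] at this
  exact this.symm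

theorem n0_comm (b : ℕ) (hb : b < 12) (h7 : b ≠ 7) (h4 : b ≠ 4)
    (h0 : chevG2.commTerms 7 b = []) (h0' : chevG2.commTerms 4 b = []) (y : F) :
    (g2B F).n 0 * xGL (g2B F).xadd b y = xGL (g2B F).xadd b y * (g2B F).n 0 := by
  have e4 : chevG2.neg 7 = 4 := by decide
  have e7 : chevG2.neg 4 = 7 := by decide
  have c1 : ∀ x : F, xGL (g2B F).xadd 7 x * xGL (g2B F).xadd b y =
      xGL (g2B F).xadd b y * xGL (g2B F).xadd 7 x :=
    fun x => x_comm (by norm_num) hb h7 (by rw [e4]; exact h4) h0 x y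
  have c2 : ∀ x : F, xGL (g2B F).xadd 4 x * xGL (g2B F).xadd b y =
      xGL (g2B F).xadd b y * xGL (g2B F).xadd 4 x :=
    fun x => x_comm (by norm_num) hb h4 (by rw [e7]; exact h7) h0' x y
  rw [n0_eq, nGL_eq, e4]
  exact comm3 _ _ _ _ (c1 _) (c2 _) (c1 _)

theorem conj_d {G : Type*} [Group G] (x y n h m p k : G) (hx : n * x = x * n) (hy : n * y = y * n)
    (hp : n * p = m) (hk : x * y * (n * h * n⁻¹ * m) * (x * y)⁻¹ = k) :
    x * y * (h * p) * (x * y)⁻¹ = n⁻¹ * k * n * (n * n)⁻¹ * n := by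
  have e1 : h * p = n⁻¹ * (n * h * n⁻¹ * m) := by rw [← hp]; group
  have e2 : x * y * n⁻¹ = n⁻¹ * (x * y) := by
    calc x * y * n⁻¹ = n⁻¹ * (n * x) * y * n⁻¹ := by group
      _ = n⁻¹ * x * (n * y) * n⁻¹ := by rw [hx]; group
      _ = n⁻¹ * (x * y) := by rw [hy]; group
  calc x * y * (h * p) * (x * y)⁻¹ = (x * y * n⁻¹) * (n * h * n⁻¹ * m) * (x * y)⁻¹ := by
        rw [e1]; group
    _ = n⁻¹ * (x * y * (n * h * n⁻¹ * m) * (x * y)⁻¹) := by rw [e2]; group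
    _ = n⁻¹ * k * n * (n * n)⁻¹ * n := by rw [hk]; group

theorem Q.base (h2 : (2 : F) ≠ 0) {h : GL chevG2.Idx F} {z0 z1 : Fˣ} (hz : IsTor h z0 z1)
    (e : Fˣ) (he : z1 = -(e ^ 2)) : Q h := by
  have hT := hz.conj_n0
  have c11 := g2_cartan_tab 11 (by norm_num)
  have c0 := g2_cartan_tab 0 (by norm_num)
  have r11 := g2_refl_tab 11 (by norm_num)
  simp only [List.getD_cons_succ, List.getD_cons_zero, Prod.mk.injEq] at c11 c0 r11
  have hk := rk1_core (r := 11) rk1_chk11 h2 ((g2B F).n 0 * h * ((g2B F).n 0)⁻¹) (e : F) e.ne_zero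
    (by
      intro t
      rw [hT.conj_x (by norm_num), c11.1, c11.2, he]
      simp)
    (by
      intro t
      rw [r11.2.2, hT.conj_x (by norm_num), c0.1, c0.2, he]
      simp [zpow_neg])
  rw [r11.2.2] at hk
  have hx := n0_comm (F := F) 11 (by norm_num) (by norm_num) (by norm_num) g2_orth.1 g2_orth.2.1
    (-(e : F) / 2)
  have hy := n0_comm (F := F) 0 (by norm_num) (by norm_num) (by norm_num) g2_orth.2.2.1
    g2_orth.2.2.2 (e : F)⁻¹
  have hmain := conj_d _ _ _ h _ _ _ hx hy p1_n11 hk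
  have hH : (g2B F).n 0 * h * ((g2B F).n 0)⁻¹ * hGL (g2B F).xadd 11 (-(e : F)⁻¹) ∈
      chevG2.diagonalSubgroup F :=
    mul_mem hT.mem (hGL_mem _ (by decide) (by simp))
  refine ⟨xGL (g2B F).xadd 11 (-(e : F) / 2) * xGL (g2B F).xadd 0 (e : F)⁻¹,
    mul_mem (xGL_mem_group _ _ _) (xGL_mem_group _ _ _),
    ((g2B F).n 0)⁻¹ * ((g2B F).n 0 * h * ((g2B F).n 0)⁻¹ * hGL (g2B F).xadd 11 (-(e : F)⁻¹)) *
      (g2B F).n 0 * ((g2B F).n 0 * (g2B F).n 0)⁻¹, ?_, hmain⟩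
  exact mul_mem ((g2B F).n_conj_H' (by decide) _ hH) ((g2B F).n_sq_inv_mem (by decide))

end

end Cfsg.Agent.Helper18.G2O
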