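import Cfsg.Agent.Helper18.SymRel
import Cfsg.Prelude.Def_ChevG2
import Cfsg.Prelude.Def_ChevAutomorphisms

/-!
# A Lang element for the Coxeter element of the long `A₂` in `G₂` (helper18)

Word identities in the root elements of `chevG2`, checked symbolically:

* `g2_lang_identity`: the word `g2PWord x a b` (a product of six long-root elements) satisfies
  `P(x + a, b - a, -a) = P(x, a, b) * n_6(a) * n_0(b)`; with `x = θ`, `a = θ^q - θ`,
  `b = θ^(q^2) - θ` the left side is the Frobenius image of `P`.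
* `g2_nMat6_charDiag`, `g2_nMat0_charDiag`: the matrices `n_6(c)`, `n_0(c)` conjugate the diagonal
  matrix of `χ` to that of `χ ∘ ρ`.
-/

set_option autoImplicit false
set_option maxRecDepth 1000000

namespace Cfsg.Agent.Helper18

open Cfsg.Lie

/-! ### The symbolic data -/

/-- The relation polynomial `u^2 - u` (so `v = 1 / (u (u - 1))`). -/
def g2RelG : Raw := [(1, 0, 2, 0), (-1, 0, 1, 0)]
/-- `a = t`. -/
def g2Pa : Raw := [(1, 1, 0, 0)]
/-- `b = t u`. -/
def g2Pb : Raw := [(1, 1, 1, 0)]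
/-- `1 / a`. -/
def g2Painv : Raw := [(1, -1, 0, 0)]
/-- `1 / b = t⁻¹ (u - 1) v`. -/
def g2Pbinv : Raw := [(1, -1, 1, 1), (-1, -1, 0, 1)]
/-- `1 / (b - a) = t⁻¹ u v`. -/
def g2Pcinv : Raw := [(1, -1, 1, 1)]
/-- `1 / (a b)`. -/
def g2Pabinv : Raw := [(1, -2, 1, 1), (-1, -2, 0, 1)]
/-- `1 / (a (b - a))`. -/
def g2Pacinv : Raw := [(1, -2, 1, 1)]

def g2StarL : SWord := [(6, g2Pa), (0, g2Pb), (5, g2Pcinv), (11, negR g2Pbinv), (10, g2Pacinv)]

def g2StarR : SWord := [(5, g2Painv), (11, g2Pcinv), (10, negR g2Pabinv), (6, g2Pa),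
  (5, negR g2Painv), (6, g2Pa), (0, g2Pb), (11, negR g2Pbinv), (0, g2Pb)]

theorem g2_star_chk : checkEqWRel chevG2 4 g2RelG g2StarL g2StarR = true := by decide +kernel

def g2Qx : Raw := [(1, 0, 1, 0)]
def g2Qa : Raw := [(1, 1, 0, 0)]
def g2Qb : Raw := [(1, 0, 0, 1)]

def g2I1L : SWord := [(6, g2Qx ++ g2Qa), (0, g2Qx ++ g2Qx ++ g2Qa ++ g2Qb),
  (1, mulR (g2Qx ++ g2Qa) (g2Qx ++ g2Qa))]

def g2I1R : SWord := [(6, g2Qx), (0, g2Qx ++ g2Qx ++ g2Qa), (1, mulR g2Qx g2Qx), (6, g2Qa), (0, g2Qb)]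

theorem g2_i1_chk : checkEqW chevG2 g2I1L g2I1R = true := by decide +kernel

/-! ### The identities over a field -/

section

variable {F : Type*} [Field F]

theorem g2_evT_eq (t : Fˣ) (u v : F) (m : Mono) :
    evT t u v m = (m.1 : F) * (t : F) ^ m.2.1 * u ^ m.2.2.1 * v ^ m.2.2.2 := by
  simp [evT, Units.val_zpow_eq_zpow_val]

theorem g2_star_identity (a b : F) (ha : a ≠ 0) (hb : b ≠ 0) (hab : a ≠ b) :
    chevG2.wordMat F [(6, a), (0, b), (5, (b - a)⁻¹), (11, -b⁻¹), (10, (a * (b - a))⁻¹)] =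
      chevG2.wordMat F ([(5, a⁻¹), (11, (b - a)⁻¹), (10, -(a * b)⁻¹)] ++ chevG2.nWord 6 a ++
        chevG2.nWord 0 b) := by
  have hba : b - a ≠ 0 := sub_ne_zero.mpr (Ne.symm hab)
  set t : Fˣ := Units.mk0 a ha with ht
  set u : F := b / a with hu
  set v : F := (u ^ 2 - u)⁻¹ with hv
  have htv : (t : F) = a := rfl
  have hu0 : u ^ 2 - u ≠ 0 := by
    have : u ^ 2 - u = b * (b - a) / a ^ 2 := by rw [hu]; field_simp
    rw [this]
    exact div_ne_zero (mul_ne_zero hb hba) (pow_ne_zero 2 ha)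
  have hg : ev t u v g2RelG * v = 1 := by
    have : ev t u v g2RelG = u ^ 2 - u := by
      simp [g2RelG, g2_evT_eq]; ring
    rw [this, hv, mul_inv_cancel₀ hu0]
  have h := wordMat_eq_of_checkEqWRel chevG2 t u v hg g2_star_chk
  have e1 : ev t u v g2Pa = a := by simp [g2Pa, g2_evT_eq, htv]
  have e2 : ev t u v g2Pb = b := by
    simp [g2Pb, g2_evT_eq, htv, hu]; field_simp
  have e3 : ev t u v g2Painv = a⁻¹ := by
    simp [g2Painv, g2_evT_eq, htv, zpow_neg]
  have e4 : ev t u v g2Pbinv = b⁻¹ := by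
    simp only [g2Pbinv, ev_cons, ev_nil, g2_evT_eq, htv, hv, hu]
    have : (b / a) ^ 2 - b / a ≠ 0 := hu0
    field_simp
    try simp
    try field_simp
    try ring
  have e5 : ev t u v g2Pcinv = (b - a)⁻¹ := by
    simp only [g2Pcinv, ev_cons, ev_nil, g2_evT_eq, htv, hv, hu]
    have : (b / a) ^ 2 - b / a ≠ 0 := hu0
    field_simp
    try simp
    try field_simp
    try ring
  have e6 : ev t u v g2Pabinv = (a * b)⁻¹ := by
    simp only [g2Pabinv, ev_cons, ev_nil, g2_evT_eq, htv, hv, hu]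
    have : (b / a) ^ 2 - b / a ≠ 0 := hu0
    field_simp
    try simp
    try field_simp
    try ring
  have e7 : ev t u v g2Pacinv = (a * (b - a))⁻¹ := by
    simp only [g2Pacinv, ev_cons, ev_nil, g2_evT_eq, htv, hv, hu]
    have : (b / a) ^ 2 - b / a ≠ 0 := hu0
    field_simp
    try simp
    try field_simp
    try ring
  have hL : evW t u v g2StarL =
      [(6, a), (0, b), (5, (b - a)⁻¹), (11, -b⁻¹), (10, (a * (b - a))⁻¹)] := by
    simp only [g2StarL, evW_cons, evW_nil, ev_negR, e1, e2, e4, e5, e7]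
  have hR : evW t u v g2StarR = [(5, a⁻¹), (11, (b - a)⁻¹), (10, -(a * b)⁻¹)] ++ chevG2.nWord 6 a ++
      chevG2.nWord 0 b := by
    simp only [g2StarR, evW_cons, evW_nil, ev_negR, e1, e2, e3, e4, e5, e6]
    rfl
  rw [hL, hR] at h
  exact h

theorem g2_i1_identity (x a b : F) (ha : a ≠ 0) :
    chevG2.wordMat F [(6, x + a), (0, 2 * (x + a) + (b - a)), (1, (x + a) ^ 2)] =
      chevG2.wordMat F [(6, x), (0, 2 * x + a), (1, x ^ 2), (6, a), (0, b)] := by
  set t : Fˣ := Units.mk0 a ha with ht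
  have htv : (t : F) = a := rfl
  have h := wordMat_eq_of_checkEqW chevG2 t x b g2_i1_chk
  have e1 : ev t x b g2Qx = x := by simp [g2Qx, g2_evT_eq]
  have e2 : ev t x b g2Qa = a := by simp [g2Qa, g2_evT_eq, htv]
  have e3 : ev t x b g2Qb = b := by simp [g2Qb, g2_evT_eq]
  have hL : evW t x b g2I1L = [(6, x + a), (0, 2 * (x + a) + (b - a)), (1, (x + a) ^ 2)] := by
    simp only [g2I1L, evW_cons, evW_nil, ev_append, ev_mulR, e1, e2, e3]
    congr 2
    · congr 1; ring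
    · congr 2; ring
  have hR : evW t x b g2I1R = [(6, x), (0, 2 * x + a), (1, x ^ 2), (6, a), (0, b)] := by
    simp only [g2I1R, evW_cons, evW_nil, ev_append, ev_mulR, e1, e2, e3]
    congr 2
    · congr 1; ring
    · congr 2; ring
  rw [hL, hR] at h
  exact h

/-- The word of the Lang element. -/
def g2PWord (x a b : F) : List (ℕ × F) :=
  [(6, x), (0, 2 * x + a), (1, x ^ 2), (5, a⁻¹), (11, (b - a)⁻¹), (10, -(a * b)⁻¹)]

/-- `P(x + a, b - a, -a) = P(x, a, b) n_6(a) n_0(b)`. -/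
theorem g2_lang_identity (x a b : F) (ha : a ≠ 0) (hb : b ≠ 0) (hab : a ≠ b) :
    chevG2.wordMat F (g2PWord (x + a) (b - a) (-a)) =
      chevG2.wordMat F (g2PWord x a b) * chevG2.nMat F 6 a * chevG2.nMat F 0 b := by
  have hba : b - a ≠ 0 := sub_ne_zero.mpr (Ne.symm hab)
  have e1 : g2PWord (x + a) (b - a) (-a) =
      [(6, x + a), (0, 2 * (x + a) + (b - a)), (1, (x + a) ^ 2)] ++
        [(5, (b - a)⁻¹), (11, -b⁻¹), (10, (a * (b - a))⁻¹)] := by
    unfold g2PWord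
    have h1 : (-a - (b - a))⁻¹ = -b⁻¹ := by
      rw [show -a - (b - a) = -b by ring, inv_neg]
    have h2 : -((b - a) * -a)⁻¹ = (a * (b - a))⁻¹ := by
      rw [show (b - a) * -a = -(a * (b - a)) by ring, inv_neg, neg_neg]
    rw [h1, h2]
    rfl
  have e2 : g2PWord x a b = [(6, x), (0, 2 * x + a), (1, x ^ 2)] ++
      [(5, a⁻¹), (11, (b - a)⁻¹), (10, -(a * b)⁻¹)] := rfl
  have e3 : [(6, x), (0, 2 * x + a), (1, x ^ 2), (6, a), (0, b)] =
      [(6, x), (0, 2 * x + a), (1, x ^ 2)] ++ [(6, a), (0, b)] := rfl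
  have e4 : [(6, a), (0, b), (5, (b - a)⁻¹), (11, -b⁻¹), (10, (a * (b - a))⁻¹)] =
      [(6, a), (0, b)] ++ [(5, (b - a)⁻¹), (11, -b⁻¹), (10, (a * (b - a))⁻¹)] := rfl
  have s1 := g2_i1_identity x a b ha
  have s2 := g2_star_identity a b ha hb hab
  rw [e3, wordMat_append] at s1
  rw [e4, wordMat_append, wordMat_append, wordMat_append] at s2
  rw [e1, wordMat_append, s1, mul_assoc, s2, e2, wordMat_append]
  unfold ChevalleyDatum.nMat
  simp only [mul_assoc]

end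

/-! ### Monomial matrices and diagonal matrices -/

/-- The columns `E` are supported on the Cartan block and on the graph of `ρ`. -/
def monoOK (D : ChevalleyDatum) (E : ℕ → SVec) (ρ : ℕ → ℕ) : Bool :=
  (List.range (D.rank + D.nroots)).all fun k => (E k).all fun e =>
    if k < D.rank then decide (e.1 < D.rank) else e.1 == D.rank + ρ (k - D.rank)

theorem wordMat_mul_charDiag (D : ChevalleyDatum) {F : Type*} [Field F] (t : Fˣ) (u v : F)
    {w : SWord} {E : ℕ → SVec} {ρ : ℕ → ℕ}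
    (h : checkCols D w E = true) (hm : monoOK D E ρ = true) (χ : ℕ → Fˣ) :
    D.wordMat F (evW t u v w) * D.charDiag F (fun s => χ (ρ s)) =
      D.charDiag F χ * D.wordMat F (evW t u v w) := by
  ext a b
  unfold ChevalleyDatum.charDiag
  rw [Matrix.mul_diagonal, Matrix.diagonal_mul, wordMat_apply_of_checkCols D t u v h a b]
  by_cases hk : code D a ∈ (E (code D b)).map Prod.fst
  · obtain ⟨e, he, hea⟩ := List.mem_map.mp hk
    have h1 := (List.all_eq_true.mp ((List.all_eq_true.mp hm) (code D b)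
      (List.mem_range.mpr (code_lt D b)))) e he
    rcases b with i | s
    · rw [code_inl, if_pos i.isLt, decide_eq_true_eq, hea] at h1
      rcases a with i' | s'
      · simp
      · rw [code_inr] at h1; omega
    · have h2 : ¬ (code D (Sum.inr s) < D.rank) := by rw [code_inr]; omega
      rw [if_neg h2, beq_iff_eq, hea, code_inr, Nat.add_sub_cancel_left] at h1
      rcases a with i' | s'
      · rw [code_inl] at h1; have := i'.isLt; omega
      · rw [code_inr] at h1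
        have h3 : s'.val = ρ s.val := by omega
        simp only [Sum.elim_inr, h3]
        ring
  · have h0 : evV t u v (E (code D b)) (code D a) = 0 := by
      unfold evV
      rw [coeff_eq_nil_of_not_mem hk, ev_nil]
    rw [h0, zero_mul, mul_zero]

def g2NCols6 : ℕ → SVec
  | 0 => [(0, [(1, 0, 0, 0)]), (1, [(3, 0, 0, 0)])]
  | 1 => [(1, [(-1, 0, 0, 0)])]
  | 2 => [(3, [(-1, 1, 0, 0)])]
  | 3 => [(2, [(1, -1, 0, 0)])]
  | 4 => [(4, [(1, 0, 0, 0)])]
  | 5 => [(6, [(-1, 1, 0, 0)])]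
  | 6 => [(5, [(1, -1, 0, 0)])]
  | 7 => [(8, [(-1, 2, 0, 0)])]
  | 8 => [(7, [(-1, -2, 0, 0)])]
  | 9 => [(10, [(1, 1, 0, 0)])]
  | 10 => [(9, [(-1, -1, 0, 0)])]
  | 11 => [(11, [(1, 0, 0, 0)])]
  | 12 => [(13, [(1, 1, 0, 0)])]
  | 13 => [(12, [(-1, -1, 0, 0)])]
  | _ => []

def g2NCols0 : ℕ → SVec
  | 0 => [(0, [(1, 0, 0, 0)])]
  | 1 => [(0, [(-1, 0, 0, 0)]), (1, [(-1, 0, 0, 0)])]
  | 2 => [(13, [(-1, -2, 0, 0)])]
  | 3 => [(8, [(-1, -1, 0, 0)])]
  | 4 => [(10, [(-1, -1, 0, 0)])]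
  | 5 => [(11, [(1, -1, 0, 0)])]
  | 6 => [(6, [(1, 0, 0, 0)])]
  | 7 => [(12, [(1, -1, 0, 0)])]
  | 8 => [(3, [(1, 1, 0, 0)])]
  | 9 => [(9, [(1, 0, 0, 0)])]
  | 10 => [(4, [(1, 1, 0, 0)])]
  | 11 => [(5, [(-1, 1, 0, 0)])]
  | 12 => [(7, [(-1, 1, 0, 0)])]
  | 13 => [(2, [(-1, 2, 0, 0)])]
  | _ => []

/-- The reflection in the root `6` (the long fundamental root), on root indices. -/
def g2Rho6 (s : ℕ) : ℕ := [1, 0, 2, 4, 3, 6, 5, 8, 7, 9, 11, 10].getD s 0

/-- The reflection in the root `0` (the highest root, negated), on root indices. -/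
def g2Rho0 (s : ℕ) : ℕ := [11, 6, 8, 9, 4, 10, 1, 7, 2, 3, 5, 0].getD s 0

/-- The Coxeter element of the long `A₂`, on root indices. -/
def g2W (s : ℕ) : ℕ := g2Rho6 (g2Rho0 s)

theorem g2_nCols6_chk : checkCols chevG2 (nWordS chevG2 6) g2NCols6 = true := by decide +kernel
theorem g2_nCols0_chk : checkCols chevG2 (nWordS chevG2 0) g2NCols0 = true := by decide +kernel
theorem g2_nCols6_mono : monoOK chevG2 g2NCols6 g2Rho6 = true := by decide +kernel
theorem g2_nCols0_mono : monoOK chevG2 g2NCols0 g2Rho0 = true := by decide +kernel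

section

variable {F : Type*} [Field F]

theorem g2_nMat6_charDiag (c : F) (hc : c ≠ 0) (χ : ℕ → Fˣ) :
    chevG2.nMat F 6 c * chevG2.charDiag F (fun s => χ (g2Rho6 s)) =
      chevG2.charDiag F χ * chevG2.nMat F 6 c := by
  have h := wordMat_mul_charDiag chevG2 (Units.mk0 c hc) 0 0 g2_nCols6_chk g2_nCols6_mono χ
  rw [evW_nWordS] at h
  exact h

theorem g2_nMat0_charDiag (c : F) (hc : c ≠ 0) (χ : ℕ → Fˣ) :
    chevG2.nMat F 0 c * chevG2.charDiag F (fun s => χ (g2Rho0 s)) =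
      chevG2.charDiag F χ * chevG2.nMat F 0 c := by
  have h := wordMat_mul_charDiag chevG2 (Units.mk0 c hc) 0 0 g2_nCols0_chk g2_nCols0_mono χ
  rw [evW_nWordS] at h
  exact h

/-- `n_6(a) n_0(b)` conjugates the diagonal matrix of `χ ∘ w` to that of `χ`. -/
theorem g2_w_charDiag (a b : F) (ha : a ≠ 0) (hb : b ≠ 0) (χ : ℕ → Fˣ) :
    (chevG2.nMat F 6 a * chevG2.nMat F 0 b) * chevG2.charDiag F (fun s => χ (g2W s)) =
      chevG2.charDiag F χ * (chevG2.nMat F 6 a * chevG2.nMat F 0 b) := by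
  have h0 := g2_nMat0_charDiag b hb (fun s => χ (g2Rho6 s))
  have h6 := g2_nMat6_charDiag a ha χ
  have e : (fun s => χ (g2W s)) = fun s => (fun s' => χ (g2Rho6 s')) (g2Rho0 s) := rfl
  rw [e, mul_assoc, h0, ← mul_assoc, h6, mul_assoc]

end

end Cfsg.Agent.Helper18
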