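import Cfsg.Agent.Helper18.MROKLib
import Cfsg.Agent.Helper64.MRData6
import Cfsg.Prelude.Def_ChevE6

/-! CALL MR (helper64), piece OK6 (double by helper18): rows of the table check, by kernel evaluation. -/

set_option autoImplicit false
set_option maxRecDepth 100000

namespace Cfsg.Agent.Helper18.MROK6

open Cfsg Cfsg.Lie Cfsg.Agent.Helper64.MR Cfsg.Agent.Helper18.MROK

theorem chunk_3 : rowsB repE6 chevE6 (List.range' (8 * 3) 8) = true := by
  decide +kernel

theorem chunk_4 : rowsB repE6 chevE6 (List.range' (8 * 4) 8) = true := by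
  decide +kernel

theorem chunk_5 : rowsB repE6 chevE6 (List.range' (8 * 5) 8) = true := by
  decide +kernel

end Cfsg.Agent.Helper18.MROK6
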