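import Cfsg.Agent.Helper18.MROK6a
import Cfsg.Agent.Helper18.MROK6b
import Cfsg.Agent.Helper18.MROK6c

/-! CALL MR (helper64), piece OK6 (double by helper18): `repE6.Ok chevE6`. -/

set_option autoImplicit false

namespace Cfsg.Agent.Helper18.MROK6

open Cfsg Cfsg.Lie Cfsg.Agent.Helper64.MR Cfsg.Agent.Helper18.MROK

/-- PIECE OK6. -/
theorem ok_E6 : repE6.Ok chevE6 := by
  apply ok_of_rowB
  intro r hr
  refine rowB_of_chunks 9 8 (by norm_num) ?_ (show r < 8 * 9 from hr)
  intro i hi
  interval_cases i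
  · exact chunk_0
  · exact chunk_1
  · exact chunk_2
  · exact chunk_3
  · exact chunk_4
  · exact chunk_5
  · exact chunk_6
  · exact chunk_7
  · exact chunk_8

end Cfsg.Agent.Helper18.MROK6
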