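import Cfsg.Agent.Helper64.MRDefs

/-!
# CALL MR (helper64), pieces OK6 / OK7 (double by helper18): a Bool checker for `SRep.Ok`
-/

set_option autoImplicit false

namespace Cfsg.Agent.Helper18.MROK

open Cfsg Cfsg.Lie Cfsg.Agent.Helper64.MR

/-- Bool version of `brk`. -/
def brkB (o₁ o₂ o₃ : Option (ℕ × ℤ)) (C : ℤ) : Bool :=
  match o₁, o₂, o₃ with
  | none, none, none => true
  | some p, none, some q => p.1 == q.1 && p.2 == C * q.2
  | none, some p, some q => p.1 == q.1 && -p.2 == C * q.2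
  | _, _, _ => false

theorem brk_of_brkB {o₁ o₂ o₃ : Option (ℕ × ℤ)} {C : ℤ} (h : brkB o₁ o₂ o₃ C = true) :
    brk o₁ o₂ o₃ C := by
  unfold brkB at h
  split at h
  · exact Or.inl ⟨rfl, rfl, rfl⟩
  · rename_i p q
    rw [Bool.and_eq_true, beq_iff_eq, beq_iff_eq] at h
    obtain ⟨p1, p2⟩ := p
    obtain ⟨q1, q2⟩ := q
    obtain ⟨h1, h2⟩ := h
    dsimp only at h1 h2
    subst h1
    exact Or.inr (Or.inl ⟨p1, p2, q2, rfl, rfl, rfl, h2⟩)
  · rename_i p q
    rw [Bool.and_eq_true, beq_iff_eq, beq_iff_eq] at h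
    obtain ⟨p1, p2⟩ := p
    obtain ⟨q1, q2⟩ := q
    obtain ⟨h1, h2⟩ := h
    dsimp only at h1 h2
    subst h1
    exact Or.inr (Or.inr ⟨p1, p2, q2, rfl, rfl, rfl, h2⟩)
  · exact absurd h (by simp)

/-- The check of the pair `(r, s)`. -/
def pairB (R : SRep) (D : ChevalleyDatum) (r s : ℕ) : Bool :=
  match D.commTerms r s with
  | [] => (List.range R.N).all fun ν => R.term2 r s ν == R.term2 s r ν
  | [c] => (List.range R.N).all fun ν =>
      brkB (R.term2 r s ν) (R.term2 s r ν) (R.term1 c.1 ν) c.2.1 &&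
        ((R.term2 r c.1 ν).isNone && (R.term2 s c.1 ν).isNone)
  | _ => true

/-- The check of the root `r`. -/
def rowB (R : SRep) (D : ChevalleyDatum) (r : ℕ) : Bool :=
  ((List.range R.N).all fun ν => (R.term2 r r ν).isNone) &&
    (List.range D.nroots).all fun s => s == r || s == D.neg r || pairB R D r s

/-- The check of the roots `r` of a list. -/
def rowsB (R : SRep) (D : ChevalleyDatum) (l : List ℕ) : Bool := l.all fun r => rowB R D r

theorem rowB_of_rowsB {R : SRep} {D : ChevalleyDatum} {l : List ℕ} (h : rowsB R D l = true)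
    {r : ℕ} (hr : r ∈ l) : rowB R D r = true :=
  List.all_eq_true.mp h r hr

theorem ok_of_rowB {R : SRep} {D : ChevalleyDatum} (h : ∀ r < D.nroots, rowB R D r = true) :
    R.Ok D := by
  have hp : ∀ r < D.nroots, ∀ s < D.nroots, s ≠ r → s ≠ D.neg r → pairB R D r s = true := by
    intro r hr s hs h1 h2
    have h3 := h r hr
    unfold rowB at h3
    rw [Bool.and_eq_true] at h3
    have h4 := List.all_eq_true.mp h3.2 s (List.mem_range.mpr hs)
    rw [Bool.or_eq_true, Bool.or_eq_true, beq_iff_eq, beq_iff_eq] at h4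
    rcases h4 with (h4 | h4) | h4
    · exact absurd h4 h1
    · exact absurd h4 h2
    · exact h4
  refine ⟨?_, ?_, ?_⟩
  · intro r hr ν hν
    have h3 := h r hr
    unfold rowB at h3
    rw [Bool.and_eq_true] at h3
    have h4 := List.all_eq_true.mp h3.1 ν (List.mem_range.mpr hν)
    exact Option.isNone_iff_eq_none.mp h4
  · intro r hr s hs h1 h2 hc ν hν
    have h3 := hp r hr s hs h1 h2
    unfold pairB at h3
    rw [hc] at h3
    have h4 := List.all_eq_true.mp h3 ν (List.mem_range.mpr hν)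
    exact beq_iff_eq.mp h4
  · intro r hr s hs h1 h2 k C hc ν hν
    have h3 := hp r hr s hs h1 h2
    unfold pairB at h3
    rw [hc] at h3
    have h4 := List.all_eq_true.mp h3 ν (List.mem_range.mpr hν)
    rw [Bool.and_eq_true, Bool.and_eq_true] at h4
    exact ⟨brk_of_brkB h4.1, Option.isNone_iff_eq_none.mp h4.2.1,
      Option.isNone_iff_eq_none.mp h4.2.2⟩

end Cfsg.Agent.Helper18.MROK

namespace Cfsg.Agent.Helper18.MROK

open Cfsg Cfsg.Lie Cfsg.Agent.Helper64.MR

theorem rowB_of_chunks {R : SRep} {D : ChevalleyDatum} (n c : ℕ) (hc : 0 < c)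
    (h : ∀ i < n, rowsB R D (List.range' (c * i) c) = true) {r : ℕ} (hr : r < c * n) :
    rowB R D r = true := by
  have h1 : r / c < n := Nat.div_lt_of_lt_mul hr
  apply rowB_of_rowsB (h (r / c) h1)
  rw [List.mem_range'_1]
  exact ⟨Nat.mul_div_le r c, Nat.lt_mul_div_succ r hc⟩

end Cfsg.Agent.Helper18.MROK
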