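import Cfsg.Agent.Helper18.ParaTab
import Cfsg.Agent.Helper36.ChevRelAll
import Cfsg.Agent.Helper36.ChevRcAll
import Cfsg.Agent.Helper36.ChevCharTables
import Cfsg.Agent.Helper17.ChevH
import Cfsg.Agent.Helper17.ChevDiagCard
import Cfsg.Agent.Helper17.ChevUniMem

/-!
# The centraliser of the unipotent radical of a proper parabolic subgroup (helper18)

`centralizer_unipotentRadical_le`: for the seven tabulated types, over any field, and a proper set `J` of
fundamental roots, `C_{P_J}(U_J) ≤ U`.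

The proof: `wtAbove f a` is the subgroup generated by the root elements of weight above `a`; conjugation by `U`
fixes `x_r(c)` modulo `wtAbove f (f r)`, and `x_r(c)` lies in `wtAbove f (f r)` only for `c = 0`.  An element of
`B` centralising `U_J` then has trivial diagonal part (a character of the root lattice trivial on the positive
roots outside `Φ_J` is trivial); an element of `P_J` outside `B` centralising `U_J` would give (normal subgroups
and reduced words) an element `n_i b` centralising `U_J`, `i ∈ J`, which is impossible: `w_i` moves some root `r`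
outside `Φ_J` up.
-/

set_option autoImplicit false

namespace Cfsg.Agent.Helper18

open Cfsg Cfsg.Lie Cfsg.Agent.Helper36 Cfsg.Agent.Helper17

section

variable {D : ChevalleyDatum} {F : Type*} [Field F] {η : ℕ → ℕ → ℤ} {f : ℕ → ℤ}

/-- the subgroup generated by the root elements of weight above `a`. -/
def wtAbove (hX : XAdd D F) (f : ℕ → ℤ) (a : ℤ) : Subgroup (GL D.Idx F) :=
  Subgroup.closure {g | ∃ (s : ℕ) (t : F), s < D.nroots ∧ a < f s ∧ g = xGL hX s t}

theorem wtAbove_above (hX : XAdd D F) (hW : WtFacts D f) {r : ℕ} (hr : r < D.nroots) (hfr : 0 < f r) :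
    ∀ g ∈ wtAbove hX f (f r), Above D f (f r) (g : Matrix D.Idx D.Idx F) ∧
      Above D f (f r) ((g⁻¹ : GL D.Idx F) : Matrix D.Idx D.Idx F) := by
  intro g hg
  unfold wtAbove at hg
  induction hg using Subgroup.closure_induction with
  | mem g hg =>
    obtain ⟨s, t, hs, hfs, rfl⟩ := hg
    refine ⟨?_, ?_⟩
    · rw [xGL_val]; exact above_x hW hfr hs hfs (hW.two r s hr hs hfr) t
    · rw [xGL_inv, xGL_val]; exact above_x hW hfr hs hfs (hW.two r s hr hs hfr) (-t)
  | one =>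
    refine ⟨?_, ?_⟩
    · rw [Units.val_one]; exact above_one _
    · rw [inv_one, Units.val_one]; exact above_one _
  | mul a b _ _ iha ihb =>
    refine ⟨?_, ?_⟩
    · rw [Units.val_mul]; exact iha.1.mul hfr ihb.1
    · rw [mul_inv_rev, Units.val_mul]; exact ihb.2.mul hfr iha.2
  | inv a _ iha =>
    refine ⟨iha.2, ?_⟩
    rw [inv_inv]; exact iha.1

theorem eq_zero_of_mem_wtAbove (hX : XAdd D F) (hW : WtFacts D f) (hE : RootElts D F) {r : ℕ}
    (hr : r < D.nroots) (hfr : 0 < f r) {c : F} (h : xGL hX r c ∈ wtAbove hX f (f r)) : c = 0 := by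
  have h1 := (wtAbove_above hX hW hr hfr _ h).1
  rw [xGL_val] at h1
  exact eq_zero_of_above_x hW hE hr h1

theorem xGL_mem_normalizer_wtAbove (R : BRel D F η) (hW : WtFacts D f) {a : ℤ} (ha : 0 ≤ a) {s : ℕ}
    (hs : s < D.nroots) (hfs : 0 < f s) (t : F) :
    xGL R.xadd s t ∈ Subgroup.normalizer (wtAbove R.xadd f a : Set (GL D.Idx F)) := by
  have key : ∀ (t : F), ∀ u ∈ {g : GL D.Idx F | ∃ (c : ℕ) (v : F), c < D.nroots ∧ a < f c ∧
      g = xGL R.xadd c v}, xGL R.xadd s t * u * (xGL R.xadd s t)⁻¹ ∈ wtAbove R.xadd f a := by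
    rintro t u ⟨c, v, hc, hfc, rfl⟩
    by_cases hcs : c = s
    · subst hcs
      have e : xGL R.xadd c t * xGL R.xadd c v * (xGL R.xadd c t)⁻¹ = xGL R.xadd c v := by
        rw [xGL_mul, xGL_inv, xGL_mul]; congr 1; ring
      rw [e]
      exact Subgroup.subset_closure ⟨c, v, hc, hfc, rfl⟩
    · have hcn : c ≠ D.neg s := by
        intro h
        have h1 := hW.neg s hs
        rw [← h] at h1
        omega
      rw [xGL_conj R.xadd (R.cf s hs c hc hcs hcn)]
      refine Subgroup.mul_mem _ (Subgroup.subset_closure ⟨c, v, hc, hfc, rfl⟩) ?_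
      apply wordGL_mem
      intro p hp
      obtain ⟨e, he, hpe⟩ := mem_commWord hp
      obtain ⟨h1, h2, h3⟩ := commTerms_wt_gt hW hs hc hfs (by omega) e he
      exact Subgroup.subset_closure ⟨p.1, p.2, by rw [hpe]; exact h1, by rw [hpe]; omega, rfl⟩
  unfold wtAbove
  apply mem_normalizer_closure
  · exact key t
  · intro u hu
    have e : (xGL R.xadd s t)⁻¹ * u * xGL R.xadd s t =
        xGL R.xadd s (-t) * u * (xGL R.xadd s (-t))⁻¹ := by
      rw [xGL_inv, xGL_inv, neg_neg]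
    rw [e]
    exact key (-t) u hu

theorem posUnipotent_le_normalizer_wtAbove (R : BRel D F η) (hW : WtFacts D f) {a : ℤ} (ha : 0 ≤ a) :
    D.posUnipotent F ≤ Subgroup.normalizer (wtAbove R.xadd f a : Set (GL D.Idx F)) := by
  unfold ChevalleyDatum.posUnipotent
  rw [Subgroup.closure_le]
  rintro g ⟨s, t, hs, hg⟩
  rw [SetLike.mem_coe, eq_xGL R.xadd hg]
  exact xGL_mem_normalizer_wtAbove R hW ha hs.1 ((hW.pos s hs.1).mp hs) t

/-- conjugation by `U` fixes `x_r(a)` modulo the root elements of larger weight. -/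
theorem comm_mem_wtAbove (R : BRel D F η) (hW : WtFacts D f) {r : ℕ} (hr : D.IsPosRoot r) :
    ∀ u ∈ D.posUnipotent F, ∀ a : F,
      (xGL R.xadd r a)⁻¹ * (u * xGL R.xadd r a * u⁻¹) ∈ wtAbove R.xadd f (f r) := by
  have hfr : 0 < f r := (hW.pos r hr.1).mp hr
  have hN := posUnipotent_le_normalizer_wtAbove R hW (le_of_lt hfr)
  intro u hu
  unfold ChevalleyDatum.posUnipotent at hu
  induction hu using Subgroup.closure_induction with
  | mem g hg =>
    obtain ⟨s, t, hs, hg⟩ := hg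
    intro a
    rw [eq_xGL R.xadd hg]
    by_cases hsr : r = s
    · subst hsr
      have e : (xGL R.xadd r a)⁻¹ * (xGL R.xadd r t * xGL R.xadd r a * (xGL R.xadd r t)⁻¹) = 1 := by
        rw [xGL_inv, xGL_inv, xGL_mul, xGL_mul, xGL_mul, ← xGL_zero R.xadd r]; congr 1; ring
      rw [e]; exact one_mem _
    · have hfs : 0 < f s := (hW.pos s hs.1).mp hs
      have hrn : r ≠ D.neg s := by
        intro h
        have h1 := hW.neg s hs.1
        rw [← h] at h1
        omega
      rw [xGL_conj R.xadd (R.cf s hs.1 r hr.1 hsr hrn), ← mul_assoc, inv_mul_cancel, one_mul]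
      apply wordGL_mem
      intro p hp
      obtain ⟨e, he, hpe⟩ := mem_commWord hp
      obtain ⟨h1, h2, h3⟩ := commTerms_wt_gt hW hs.1 hr.1 hfs hfr e he
      exact Subgroup.subset_closure ⟨p.1, p.2, by rw [hpe]; exact h1, by rw [hpe]; exact h3, rfl⟩
  | one => intro a; simp
  | mul x y hx hy ihx ihy =>
    intro a
    have e : (xGL R.xadd r a)⁻¹ * (x * y * xGL R.xadd r a * (x * y)⁻¹) =
        ((xGL R.xadd r a)⁻¹ * (x * xGL R.xadd r a * x⁻¹)) *
          (x * ((xGL R.xadd r a)⁻¹ * (y * xGL R.xadd r a * y⁻¹)) * x⁻¹) := by group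
    rw [e]
    exact mul_mem (ihx a) ((Subgroup.mem_normalizer_iff.mp (hN hx) _).mp (ihy a))
  | inv x hx ihx =>
    intro a
    have e : (xGL R.xadd r a)⁻¹ * (x⁻¹ * xGL R.xadd r a * x⁻¹⁻¹) =
        x⁻¹ * ((xGL R.xadd r a)⁻¹ * (x * xGL R.xadd r a * x⁻¹))⁻¹ * x⁻¹⁻¹ := by group
    rw [e]
    exact (Subgroup.mem_normalizer_iff.mp (inv_mem (hN hx)) _).mp (inv_mem (ihx a))

/-- if `u h` (`u ∈ U`, `h ∈ H`) commutes with `x_r(1)`, `r` positive, then `h` centralises `X_r`. -/
theorem diag_centralizes_of_comm (R : BRel D F η) (hW : WtFacts D f) (hE : RootElts D F) {r : ℕ}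
    (hr : D.IsPosRoot r) {u h : GL D.Idx F} (hu : u ∈ D.posUnipotent F)
    (hh : h ∈ D.diagonalSubgroup F)
    (hc : (u * h) * xGL R.xadd r 1 * (u * h)⁻¹ = xGL R.xadd r 1) :
    ∀ t : F, h * xGL R.xadd r t * h⁻¹ = xGL R.xadd r t := by
  have hfr : 0 < f r := (hW.pos r hr.1).mp hr
  obtain ⟨c, hcc⟩ := R.hx h hh r hr.1
  have h1 : u * xGL R.xadd r c * u⁻¹ = xGL R.xadd r 1 := by
    calc u * xGL R.xadd r c * u⁻¹ = u * (h * xGL R.xadd r 1 * h⁻¹) * u⁻¹ := by rw [hcc 1, mul_one]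
      _ = (u * h) * xGL R.xadd r 1 * (u * h)⁻¹ := by group
      _ = xGL R.xadd r 1 := hc
  have h2 := comm_mem_wtAbove R hW hr u hu c
  rw [h1, xGL_inv, xGL_mul] at h2
  have h3 := eq_zero_of_mem_wtAbove R.xadd hW hE hr.1 hfr h2
  have h4 : c = 1 := by linear_combination -h3
  intro t
  rw [hcc t, h4, one_mul]

theorem x_inj_of_bRel (R : BRel D F η) {r : ℕ} (hr : r < D.nroots) {a b : F}
    (h : D.x F r a = D.x F r b) : a = b := by
  have e : xGL R.xadd r a = xGL R.xadd r b := Units.ext h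
  have h1 : xGL R.xadd r (a - b) = 1 := by
    have : xGL R.xadd r (a - b) = xGL R.xadd r a * (xGL R.xadd r b)⁻¹ := by
      rw [xGL_inv, xGL_mul]; congr 1; ring
    rw [this, e, mul_inv_cancel]
  have h2 := R.xinj r hr (a - b) (by simpa using congrArg Units.val h1)
  exact sub_eq_zero.mp h2

end

section

variable {D : ChevalleyDatum} {F : Type*} [Field F]

/-- an element of `H` centralising the root subgroups of the positive roots outside `Φ_J`, `J` proper, is `1`. -/
theorem diag_eq_one_of_centralizes (hD : D ∈ [chevG2, chevB2, chevD4, chevF4, chevE6, chevE7, chevE8])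
    (J : Set ℕ) {i₀ : ℕ} (hi₀ : i₀ < D.rank) (hi₀J : i₀ ∉ J) {h : GL D.Idx F}
    (hh : h ∈ D.diagonalSubgroup F) (hX : XAdd D F)
    (hc : ∀ r, D.IsPosRoot r → ¬ D.InRootSub J r → ∀ t : F, h * xGL hX r t * h⁻¹ = xGL hX r t) :
    h = 1 := by
  have R := bRel_of_mem (F := F) hD
  obtain ⟨g, hg⟩ := rcFacts_of_mem hD
  obtain ⟨-, hT2, hT3⟩ := paraTab_of_mem hD
  rw [diagonalSubgroup_eq_torus (simpleOK_of_mem hD) (hDiag_of_mem hD) (rootElts_of_mem hD)] at hh
  obtain ⟨z, hz⟩ := mem_torus.mp hh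
  have hχ := torusChar_isRootCharacter (F := F) (cartanFacts_of_mem hD) z
  have key : ∀ r, D.IsPosRoot r → ¬ D.InRootSub J r → torusChar D z r = 1 := by
    intro r hr hrJ
    have h1 := torus_conj_x (chainOK_of_mem D hD) (cartanFacts_of_mem hD) hz r hr.1 (1 : F)
    have h2 := congrArg Units.val (hc r hr hrJ 1)
    rw [Units.val_mul, Units.val_mul, xGL_val] at h2
    rw [h2] at h1
    have h3 := x_inj_of_bRel R hr.1 h1
    apply Units.ext
    rw [Units.val_one]
    rw [mul_one] at h3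
    exact h3.symm
  have hnot : ∀ r, cor D r i₀ ≠ 0 → ¬ D.InRootSub J r := fun r h0 hJ => h0 (hJ.2 i₀ hi₀ hi₀J)
  have hsimple : ∀ j < D.rank, torusChar D z (D.simple j) = 1 := by
    intro j hj
    by_cases hjJ : j ∈ J
    · have hne : j ≠ i₀ := fun e => hi₀J (e ▸ hjJ)
      obtain ⟨r, r', hr, hr0, hch, hr', hr'0⟩ := stepOK_spec hT2 hi₀ hj hne
      have h1 := hχ.2 (D.simple j) r r' (R.wf.simple_lt j hj) hr.1 hch
      rw [key r hr (hnot r hr0), key r' hr' (hnot r' hr'0), mul_one] at h1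
      exact h1.symm
    · exact key _ (R.wf.simple_pos j hj) (hg.not_inRootSub_simple hj hjJ (R.wf.simple_lt j hj))
  have hpos : ∀ s, D.IsPosRoot s → torusChar D z s = 1 := by
    intro s
    induction s using Nat.strong_induction_on with
    | _ s ih =>
      intro hs
      rcases descAddOK_spec hT3 hs with ⟨j, hj, hsj⟩ | ⟨j, hj, s', hs', hlt, hch⟩
      · rw [hsj]; exact hsimple j hj
      · have h1 := hχ.2 (D.simple j) s' s (R.wf.simple_lt j hj) hs'.1 hch
        rw [h1, hsimple j hj, ih s' hlt hs', mul_one]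
  have hall : ∀ s, s < D.nroots → torusChar D z s = 1 := by
    intro s hs
    rcases R.wf.pos_xor s hs with ⟨h1, -⟩ | ⟨-, h1⟩
    · exact hpos s h1
    · have h2 : D.IsPosRoot (D.neg s) := by
        rw [R.wf.pos_iff_neg (D.neg s) (R.wf.neg_lt s hs), R.wf.neg_neg s hs]; exact h1
      have h3 := hχ.1 (D.neg s) (R.wf.neg_lt s hs)
      rw [R.wf.neg_neg s hs, hpos _ h2, inv_one] at h3
      exact h3
  apply Units.ext
  rw [hz, Units.val_one]
  exact (charDiag_eq_one_iff _).mpr hall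

/-- `C_B(U_J) ≤ U` for proper `J`. -/
theorem cent_borel_le (hD : D ∈ [chevG2, chevB2, chevD4, chevF4, chevE6, chevE7, chevE8])
    (J : Set ℕ) (hJ : ∃ i, i < D.rank ∧ i ∉ J) {x : GL D.Idx F} (hxB : x ∈ D.borelSubgroup F)
    (hxC : x ∈ Subgroup.centralizer (D.unipotentRadical F J : Set (GL D.Idx F))) :
    x ∈ D.posUnipotent F := by
  have R := bRel_of_mem (F := F) hD
  obtain ⟨f, hW⟩ := wtFacts_of_mem hD
  obtain ⟨i₀, hi₀, hi₀J⟩ := hJ
  have hxB' : x ∈ ((D.posUnipotent F ⊔ D.diagonalSubgroup F : Subgroup (GL D.Idx F)) :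
      Set (GL D.Idx F)) := hxB
  rw [Subgroup.coe_mul_of_right_le_normalizer_left _ _ R.hU] at hxB'
  obtain ⟨u, hu, h, hh, hx⟩ := hxB'
  have hx' : x = u * h := hx.symm
  subst hx'
  have hcen : ∀ r, D.IsPosRoot r → ¬ D.InRootSub J r → ∀ t : F,
      h * xGL R.xadd r t * h⁻¹ = xGL R.xadd r t := by
    intro r hr hrJ
    apply diag_centralizes_of_comm R hW (rootElts_of_mem hD) hr hu hh
    have hv : xGL R.xadd r 1 ∈ D.unipotentRadical F J :=
      Subgroup.subset_closure ⟨r, 1, hr, hrJ, rfl⟩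
    have h1 := Subgroup.mem_centralizer_iff.mp hxC _ hv
    rw [mul_inv_eq_iff_eq_mul]
    exact h1.symm
  have h1 := diag_eq_one_of_centralizes hD J hi₀ hi₀J hh R.xadd hcen
  rw [h1, mul_one]
  exact hu

/-- `C_{P_J}(U_J) ≤ B` for proper `J`. -/
theorem cent_le_borel (hD : D ∈ [chevG2, chevB2, chevD4, chevF4, chevE6, chevE7, chevE8])
    (J : Set ℕ) (hJ : ∃ i, i < D.rank ∧ i ∉ J) {x : GL D.Idx F}
    (hxP : x ∈ D.parabolicSubgroup F J)
    (hxC : x ∈ Subgroup.centralizer (D.unipotentRadical F J : Set (GL D.Idx F))) :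
    x ∈ D.borelSubgroup F := by
  have R := bRel_of_mem (F := F) hD
  obtain ⟨f, hW⟩ := wtFacts_of_mem hD
  obtain ⟨g, hg⟩ := rcFacts_of_mem hD
  obtain ⟨hT1, -, -⟩ := paraTab_of_mem hD
  obtain ⟨i₀, hi₀, hi₀J⟩ := hJ
  have hPN := R.parabolic_le_normalizer hW hg J
  have hBP : D.borelSubgroup F ≤ D.parabolicSubgroup F J := le_sup_left
  have hPG : D.parabolicSubgroup F J ≤ D.group F := by
    rw [← R.normalizer_inf_group hW hg J]; exact inf_le_right
  -- conjugation by `P_J` preserves `K = C(U_J) ∩ P_J`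
  have hconj : ∀ p ∈ D.parabolicSubgroup F J, ∀ k ∈
      Subgroup.centralizer (D.unipotentRadical F J : Set (GL D.Idx F)) ⊓ D.parabolicSubgroup F J,
      p * k * p⁻¹ ∈
        Subgroup.centralizer (D.unipotentRadical F J : Set (GL D.Idx F)) ⊓ D.parabolicSubgroup F J := by
    intro p hp k hk
    obtain ⟨hkC, hkP⟩ := Subgroup.mem_inf.mp hk
    refine Subgroup.mem_inf.mpr ⟨?_, mul_mem (mul_mem hp hkP) (inv_mem hp)⟩
    rw [Subgroup.mem_centralizer_iff]
    intro v hv
    have hv' : p⁻¹ * v * p⁻¹⁻¹ ∈ D.unipotentRadical F J :=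
      (Subgroup.mem_normalizer_iff.mp (inv_mem (hPN hp)) v).mp hv
    have h1 := Subgroup.mem_centralizer_iff.mp hkC _ hv'
    calc v * (p * k * p⁻¹) = p * ((p⁻¹ * v * p⁻¹⁻¹) * k) * p⁻¹ := by group
      _ = p * (k * (p⁻¹ * v * p⁻¹⁻¹)) * p⁻¹ := by rw [h1]
      _ = p * k * p⁻¹ * v := by group
  have hBK : D.borelSubgroup F ≤ Subgroup.normalizer
      ((Subgroup.centralizer (D.unipotentRadical F J : Set (GL D.Idx F)) ⊓
        D.parabolicSubgroup F J : Subgroup (GL D.Idx F)) : Set (GL D.Idx F)) := by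
    intro b hb
    rw [Subgroup.mem_normalizer_iff]
    intro k
    constructor
    · exact hconj b (hBP hb) k
    · intro hk
      have h1 := hconj b⁻¹ (inv_mem (hBP hb)) _ hk
      have e : b⁻¹ * (b * k * b⁻¹) * b⁻¹⁻¹ = k := by group
      rwa [e] at h1
  obtain ⟨b₁, hb₁, n, hn, b₂, hb₂, rfl⟩ := R.bruhat x (hPG hxP)
  obtain ⟨L₀, hL₀, h₀, hh₀, rfl⟩ := R.exists_word n hn
  obtain ⟨L, hL, hred, -, h, hh, he⟩ := R.exists_red L₀ hL₀
  cases L with
  | nil =>
    rw [he, R.nW_nil]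
    exact mul_mem (mul_mem hb₁ (mul_mem (mul_mem (one_mem _) (BRel.H_le_B D F hh))
      (BRel.H_le_B D F hh₀))) hb₂
  | cons i L' =>
    exfalso
    have hBQ : D.borelSubgroup F ≤
        (Subgroup.centralizer (D.unipotentRadical F J : Set (GL D.Idx F)) ⊓
          D.parabolicSubgroup F J) ⊔ D.borelSubgroup F := le_sup_right
    have hxQ : (b₁ * (R.nW L₀ * h₀) * b₂) ∈
        (Subgroup.centralizer (D.unipotentRadical F J : Set (GL D.Idx F)) ⊓
          D.parabolicSubgroup F J) ⊔ D.borelSubgroup F :=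
      (le_sup_left : _ ≤ (Subgroup.centralizer (D.unipotentRadical F J : Set (GL D.Idx F)) ⊓
          D.parabolicSubgroup F J) ⊔ D.borelSubgroup F) (Subgroup.mem_inf.mpr ⟨hxC, hxP⟩)
    have hnQ : R.nW (i :: L') ∈
        (Subgroup.centralizer (D.unipotentRadical F J : Set (GL D.Idx F)) ⊓
          D.parabolicSubgroup F J) ⊔ D.borelSubgroup F := by
      have e : R.nW (i :: L') = b₁⁻¹ * (b₁ * (R.nW L₀ * h₀) * b₂) * b₂⁻¹ * h₀⁻¹ * h⁻¹ := by
        rw [he]; group
      rw [e]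
      exact mul_mem (mul_mem (mul_mem (mul_mem (inv_mem (hBQ hb₁)) hxQ) (inv_mem (hBQ hb₂)))
        (inv_mem (hBQ (BRel.H_le_B D F hh₀)))) (inv_mem (hBQ (BRel.H_le_B D F hh)))
    have hi : i < D.rank := hL i List.mem_cons_self
    have hniQ := R.n_mem_of_red hBQ (i :: L') hL hred hnQ i List.mem_cons_self
    have hniQ' : R.n i ∈ (((Subgroup.centralizer (D.unipotentRadical F J : Set (GL D.Idx F)) ⊓
          D.parabolicSubgroup F J) ⊔ D.borelSubgroup F : Subgroup (GL D.Idx F)) :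
            Set (GL D.Idx F)) := hniQ
    rw [Subgroup.coe_mul_of_right_le_normalizer_left _ _ hBK] at hniQ'
    obtain ⟨k, hk0, b, hb, hkb0⟩ := hniQ'
    have hkb : k * b = R.n i := hkb0
    have hk := Subgroup.mem_inf.mp (show k ∈ Subgroup.centralizer
      (D.unipotentRadical F J : Set (GL D.Idx F)) ⊓ D.parabolicSubgroup F J from hk0)
    have hniP : R.n i ∈ D.parabolicSubgroup F J := by
      rw [← hkb]; exact mul_mem hk.2 (hBP hb)
    have hiJ : i ∈ J := R.mem_of_n_mem_normalizer hg J hi (hPN hniP)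
    have hne : i ≠ i₀ := fun e => hi₀J (e ▸ hiJ)
    obtain ⟨r, hr, hr0, hlt⟩ := reflUpOK_spec hT1 hi₀ hi hne
    have hrJ : ¬ D.InRootSub J r := fun hJ' => hr0 (hJ'.2 i₀ hi₀ hi₀J)
    have hfr : 0 < f r := (hW.pos r hr.1).mp hr
    have hv : xGL R.xadd r 1 ∈ D.unipotentRadical F J :=
      Subgroup.subset_closure ⟨r, 1, hr, hrJ, rfl⟩
    have hcomm := Subgroup.mem_centralizer_iff.mp hk.1 _ hv
    have hk' : k = R.n i * b⁻¹ := by rw [← hkb]; group
    have hbi : b⁻¹ ∈ ((D.posUnipotent F ⊔ D.diagonalSubgroup F : Subgroup (GL D.Idx F)) :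
        Set (GL D.Idx F)) := inv_mem hb
    rw [Subgroup.coe_mul_of_right_le_normalizer_left _ _ R.hU] at hbi
    obtain ⟨u, hu, h', hh', hub0⟩ := hbi
    have hub : u * h' = b⁻¹ := hub0
    obtain ⟨c, hcc⟩ := R.hx h' hh' r hr.1
    have hc0 : c ≠ 0 := by
      intro h0
      have h1 := hcc 1
      rw [h0, zero_mul, xGL_zero] at h1
      have h2 : xGL R.xadd r (1 : F) = 1 := by
        have e : xGL R.xadd r (1 : F) = h'⁻¹ * (h' * xGL R.xadd r 1 * h'⁻¹) * h' := by group
        rw [e, h1]; group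
      have h3 := R.xinj r hr.1 1 (by simpa using congrArg Units.val h2)
      exact one_ne_zero h3
    have h1 : u * xGL R.xadd r c * u⁻¹ = (R.n i)⁻¹ * xGL R.xadd r 1 * R.n i := by
      have e2 : k * xGL R.xadd r 1 * k⁻¹ = xGL R.xadd r 1 := by rw [← hcomm]; group
      calc u * xGL R.xadd r c * u⁻¹ = u * (h' * xGL R.xadd r 1 * h'⁻¹) * u⁻¹ := by
            rw [hcc 1, mul_one]
        _ = (u * h') * xGL R.xadd r 1 * (u * h')⁻¹ := by group
        _ = b⁻¹ * xGL R.xadd r 1 * b⁻¹⁻¹ := by rw [hub]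
        _ = (R.n i)⁻¹ * ((R.n i * b⁻¹) * xGL R.xadd r 1 * (R.n i * b⁻¹)⁻¹) * R.n i := by group
        _ = (R.n i)⁻¹ * xGL R.xadd r 1 * R.n i := by rw [← hk', e2]
    rw [R.conj_x' hi hr.1] at h1
    have h2 := comm_mem_wtAbove R hW hr u hu c
    rw [h1] at h2
    have hr' := R.wf.refl_lt i hi r hr.1
    have h3 : ∀ e : F, xGL R.xadd (D.reflectRoot i r) e ∈ wtAbove R.xadd f (f r) := fun e =>
      Subgroup.subset_closure ⟨_, e, hr', hW.mono r _ hlt hr', rfl⟩
    have h4 : (xGL R.xadd r c)⁻¹ ∈ wtAbove R.xadd f (f r) :=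
      (Subgroup.mul_mem_cancel_right _ (h3 _)).mp h2
    rw [xGL_inv] at h4
    have h5 := eq_zero_of_mem_wtAbove R.xadd hW (rootElts_of_mem hD) hr.1 hfr h4
    exact hc0 (neg_eq_zero.mp h5)

/-- `C_{P_J}(U_J) ≤ U` for a proper set `J` of fundamental roots. -/
theorem centralizer_unipotentRadical_le
    (hD : D ∈ [chevG2, chevB2, chevD4, chevF4, chevE6, chevE7, chevE8])
    (J : Set ℕ) (hJ : ∃ i, i < D.rank ∧ i ∉ J) :
    Subgroup.centralizer (D.unipotentRadical F J : Set (GL D.Idx F)) ⊓ D.parabolicSubgroup F J ≤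
      D.posUnipotent F := by
  intro x hx
  obtain ⟨hxC, hxP⟩ := Subgroup.mem_inf.mp hx
  exact cent_borel_le hD J hJ (cent_le_borel hD J hJ hxP hxC) hxC

end

end Cfsg.Agent.Helper18
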