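import Cfsg.Agent.Helper18.NPara

/-!
# Table checks for the centraliser of the unipotent radical of a parabolic subgroup (helper18)

* `reflUpOK D`: for fundamental roots `i₀ ≠ i` there is a positive root `r` with non-zero coefficient at `i₀`
  which the fundamental reflection `w_i` moves to a root of larger index.
* `stepOK D`: for fundamental roots `i₀ ≠ j` there are positive roots `r` and `r + p_j`, both with non-zero
  coefficient at `i₀`.
* `descAddOK D`: every positive root other than the fundamental ones is `s' + p_j` for a positive root `s'` of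
  smaller index.
-/

set_option autoImplicit false

namespace Cfsg.Agent.Helper18

open Cfsg.Lie

/-- for `i₀ ≠ i`: a positive root with non-zero coefficient at `i₀` moved up by `w_i`. -/
def reflUpOK (D : ChevalleyDatum) : Bool :=
  (List.range D.rank).all fun i₀ => (List.range D.rank).all fun i => (i == i₀) ||
    (List.range D.nroots).any fun r =>
      decide (D.IsPosRoot r) && decide (cor D r i₀ ≠ 0) && decide (r < D.reflectRoot i r)

/-- for `i₀ ≠ j`: positive roots `r`, `r + p_j` with non-zero coefficient at `i₀`. -/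
def stepOK (D : ChevalleyDatum) : Bool :=
  (List.range D.rank).all fun i₀ => (List.range D.rank).all fun j => (j == i₀) ||
    (List.range D.nroots).any fun r =>
      decide (D.IsPosRoot r) && decide (cor D r i₀ ≠ 0) &&
        match D.chainRoot (D.simple j) r 1 with
        | some r' => decide (D.IsPosRoot r') && decide (cor D r' i₀ ≠ 0)
        | none => false

/-- every positive root is fundamental or `s' + p_j` with `s'` a positive root of smaller index. -/
def descAddOK (D : ChevalleyDatum) : Bool :=
  (List.range D.nroots).all fun s => !decide (D.IsPosRoot s) ||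
    ((List.range D.rank).any fun j => s == D.simple j) ||
    (List.range D.rank).any fun j =>
      match D.chainRoot (D.neg (D.simple j)) s 1 with
      | some s' => decide (D.IsPosRoot s') && decide (s' < s) && (D.chainRoot (D.simple j) s' 1 == some s)
      | none => false

theorem reflUpOK_spec {D : ChevalleyDatum} (h : reflUpOK D = true) {i₀ i : ℕ} (hi₀ : i₀ < D.rank)
    (hi : i < D.rank) (hne : i ≠ i₀) :
    ∃ r, D.IsPosRoot r ∧ cor D r i₀ ≠ 0 ∧ r < D.reflectRoot i r := by
  unfold reflUpOK at h
  rw [List.all_eq_true] at h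
  have h1 := h i₀ (List.mem_range.mpr hi₀)
  rw [List.all_eq_true] at h1
  have h2 := h1 i (List.mem_range.mpr hi)
  rw [Bool.or_eq_true] at h2
  rcases h2 with h2 | h2
  · exact absurd (beq_iff_eq.mp h2) hne
  · rw [List.any_eq_true] at h2
    obtain ⟨r, -, hr⟩ := h2
    rw [Bool.and_eq_true, Bool.and_eq_true, decide_eq_true_eq, decide_eq_true_eq,
      decide_eq_true_eq] at hr
    exact ⟨r, hr.1.1, hr.1.2, hr.2⟩

theorem stepOK_spec {D : ChevalleyDatum} (h : stepOK D = true) {i₀ j : ℕ} (hi₀ : i₀ < D.rank)
    (hj : j < D.rank) (hne : j ≠ i₀) :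
    ∃ r r', D.IsPosRoot r ∧ cor D r i₀ ≠ 0 ∧ D.chainRoot (D.simple j) r 1 = some r' ∧
      D.IsPosRoot r' ∧ cor D r' i₀ ≠ 0 := by
  unfold stepOK at h
  rw [List.all_eq_true] at h
  have h1 := h i₀ (List.mem_range.mpr hi₀)
  rw [List.all_eq_true] at h1
  have h2 := h1 j (List.mem_range.mpr hj)
  rw [Bool.or_eq_true] at h2
  rcases h2 with h2 | h2
  · exact absurd (beq_iff_eq.mp h2) hne
  · rw [List.any_eq_true] at h2
    obtain ⟨r, -, hr⟩ := h2
    rw [Bool.and_eq_true, Bool.and_eq_true, decide_eq_true_eq, decide_eq_true_eq] at hr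
    obtain ⟨⟨hr1, hr2⟩, hr3⟩ := hr
    rcases hc : D.chainRoot (D.simple j) r 1 with _ | r'
    · rw [hc] at hr3; exact absurd hr3 (by simp)
    · rw [hc] at hr3
      simp only [Bool.and_eq_true, decide_eq_true_eq] at hr3
      exact ⟨r, r', hr1, hr2, hc, hr3.1, hr3.2⟩

theorem descAddOK_spec {D : ChevalleyDatum} (h : descAddOK D = true) {s : ℕ} (hs : D.IsPosRoot s) :
    (∃ j < D.rank, s = D.simple j) ∨
      ∃ j < D.rank, ∃ s', D.IsPosRoot s' ∧ s' < s ∧ D.chainRoot (D.simple j) s' 1 = some s := by
  unfold descAddOK at h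
  rw [List.all_eq_true] at h
  have h1 := h s (List.mem_range.mpr hs.1)
  rw [Bool.or_eq_true, Bool.or_eq_true] at h1
  rcases h1 with (h1 | h1) | h1
  · simp only [Bool.not_eq_true', decide_eq_false_iff_not] at h1
    exact absurd hs h1
  · rw [List.any_eq_true] at h1
    obtain ⟨j, hj, hsj⟩ := h1
    exact Or.inl ⟨j, List.mem_range.mp hj, beq_iff_eq.mp hsj⟩
  · rw [List.any_eq_true] at h1
    obtain ⟨j, hj, hsj⟩ := h1
    rcases hc : D.chainRoot (D.neg (D.simple j)) s 1 with _ | s'
    · rw [hc] at hsj; exact absurd hsj (by simp)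
    · rw [hc] at hsj
      simp only [Bool.and_eq_true, decide_eq_true_eq, beq_iff_eq] at hsj
      exact Or.inr ⟨j, List.mem_range.mp hj, s', hsj.1.1, hsj.1.2, hsj.2⟩

theorem reflUpOK_G2 : reflUpOK chevG2 = true := by decide +kernel
theorem reflUpOK_B2 : reflUpOK chevB2 = true := by decide +kernel
theorem reflUpOK_D4 : reflUpOK chevD4 = true := by decide +kernel
theorem reflUpOK_F4 : reflUpOK chevF4 = true := by decide +kernel
theorem reflUpOK_E6 : reflUpOK chevE6 = true := by decide +kernel
theorem reflUpOK_E7 : reflUpOK chevE7 = true := by decide +kernel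
theorem reflUpOK_E8 : reflUpOK chevE8 = true := by decide +kernel

theorem stepOK_G2 : stepOK chevG2 = true := by decide +kernel
theorem stepOK_B2 : stepOK chevB2 = true := by decide +kernel
theorem stepOK_D4 : stepOK chevD4 = true := by decide +kernel
theorem stepOK_F4 : stepOK chevF4 = true := by decide +kernel
theorem stepOK_E6 : stepOK chevE6 = true := by decide +kernel
theorem stepOK_E7 : stepOK chevE7 = true := by decide +kernel
theorem stepOK_E8 : stepOK chevE8 = true := by decide +kernel

theorem descAddOK_G2 : descAddOK chevG2 = true := by decide +kernel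
theorem descAddOK_B2 : descAddOK chevB2 = true := by decide +kernel
theorem descAddOK_D4 : descAddOK chevD4 = true := by decide +kernel
theorem descAddOK_F4 : descAddOK chevF4 = true := by decide +kernel
theorem descAddOK_E6 : descAddOK chevE6 = true := by decide +kernel
theorem descAddOK_E7 : descAddOK chevE7 = true := by decide +kernel
theorem descAddOK_E8 : descAddOK chevE8 = true := by decide +kernel

theorem paraTab_of_mem {D : ChevalleyDatum}
    (hD : D ∈ [chevG2, chevB2, chevD4, chevF4, chevE6, chevE7, chevE8]) :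
    reflUpOK D = true ∧ stepOK D = true ∧ descAddOK D = true := by
  simp only [List.mem_cons, List.not_mem_nil, or_false] at hD
  rcases hD with rfl | rfl | rfl | rfl | rfl | rfl | rfl
  · exact ⟨reflUpOK_G2, stepOK_G2, descAddOK_G2⟩
  · exact ⟨reflUpOK_B2, stepOK_B2, descAddOK_B2⟩
  · exact ⟨reflUpOK_D4, stepOK_D4, descAddOK_D4⟩
  · exact ⟨reflUpOK_F4, stepOK_F4, descAddOK_F4⟩
  · exact ⟨reflUpOK_E6, stepOK_E6, descAddOK_E6⟩
  · exact ⟨reflUpOK_E7, stepOK_E7, descAddOK_E7⟩
  · exact ⟨reflUpOK_E8, stepOK_E8, descAddOK_E8⟩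

end Cfsg.Agent.Helper18
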