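import Cfsg.Agent.Helper18.SymWord

/-!
# The word checker modulo a relation `v * g = 1` (helper18)

The third variable `v` of the symbolic polynomials is used as the inverse of a polynomial `g`:
`homR K g p` replaces each `v^d` by `g^(K-d)`, which multiplies the value by `g^K` as soon as
`g * v = 1`.  `checkEqWRel` compares two words in root elements modulo this relation.
-/

set_option autoImplicit false

namespace Cfsg.Agent.Helper18

open Cfsg.Lie

/-- Replace `v^d` by `g^(K-d)` in a monomial. -/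
def homT (K : ℕ) (g : Raw) (m : Mono) : Raw :=
  mulR [(m.1, m.2.1, m.2.2.1, 0)] (powR g (K - m.2.2.2))

/-- Replace `v^d` by `g^(K-d)` in a polynomial. -/
def homR (K : ℕ) (g : Raw) (p : Raw) : Raw := p.flatMap (homT K g)

/-- All the `v`-degrees are at most `K`. -/
def degOK (K : ℕ) (p : Raw) : Bool := p.all fun m => decide (m.2.2.2 ≤ K)

/-- Equality of sparse vectors modulo `v * g = 1`. -/
def eqVRel (K : ℕ) (g : Raw) (w1 w2 : SVec) : Bool :=
  (w1.map Prod.fst ++ w2.map Prod.fst).all fun k =>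
    degOK K (coeff w1 k ++ negR (coeff w2 k)) &&
      isZeroR (homR K g (coeff w1 k ++ negR (coeff w2 k)))

section Eval

variable {F : Type*} [Field F] (t : Fˣ) (u v : F)

theorem ev_homT {K : ℕ} {g : Raw} (hg : ev t u v g * v = 1) (m : Mono) (hm : m.2.2.2 ≤ K) :
    ev t u v (homT K g m) = ev t u v g ^ K * evT t u v m := by
  unfold homT
  rw [ev_mulR, ev_powR, ev_cons, ev_nil, add_zero]
  have h1 : ev t u v g ^ K = ev t u v g ^ (K - m.2.2.2) * ev t u v g ^ m.2.2.2 := by
    rw [← pow_add, Nat.sub_add_cancel hm]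
  have h2 : ev t u v g ^ m.2.2.2 * v ^ m.2.2.2 = 1 := by rw [← mul_pow, hg, one_pow]
  rw [h1]
  simp only [evT, pow_zero, mul_one]
  calc (m.1 : F) * ((t ^ m.2.1 : Fˣ) : F) * u ^ m.2.2.1 * ev t u v g ^ (K - m.2.2.2)
      = (m.1 : F) * ((t ^ m.2.1 : Fˣ) : F) * u ^ m.2.2.1 * ev t u v g ^ (K - m.2.2.2) *
          (ev t u v g ^ m.2.2.2 * v ^ m.2.2.2) := by rw [h2, mul_one]
    _ = _ := by ring

theorem ev_homR {K : ℕ} {g : Raw} (hg : ev t u v g * v = 1) (p : Raw) (hp : degOK K p = true) :
    ev t u v (homR K g p) = ev t u v g ^ K * ev t u v p := by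
  induction p with
  | nil => simp [homR]
  | cons m p ih =>
    have h1 : homR K g (m :: p) = homT K g m ++ homR K g p := by simp [homR]
    have h2 : m.2.2.2 ≤ K ∧ degOK K p = true := by
      simpa [degOK] using hp
    rw [h1, ev_append, ev_homT t u v hg m h2.1, ih h2.2, ev_cons, mul_add]

theorem evV_eq_of_eqVRel {K : ℕ} {g : Raw} (hg : ev t u v g * v = 1) {w1 w2 : SVec}
    (h : eqVRel K g w1 w2 = true) (k : ℕ) : evV t u v w1 k = evV t u v w2 k := by
  by_cases hk : k ∈ w1.map Prod.fst ++ w2.map Prod.fst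
  · have h1 := (List.all_eq_true.mp h) k hk
    rw [Bool.and_eq_true] at h1
    have h2 := ev_eq_zero_of_isZeroR t u v h1.2
    rw [ev_homR t u v hg _ h1.1, ev_append, ev_negR] at h2
    have hg0 : ev t u v g ≠ 0 := by
      intro h0
      rw [h0, zero_mul] at hg
      exact zero_ne_one hg
    have h3 := (mul_eq_zero.mp h2).resolve_left (pow_ne_zero K hg0)
    unfold evV
    linear_combination h3
  · rw [List.mem_append, not_or] at hk
    unfold evV
    rw [coeff_eq_nil_of_not_mem hk.1, coeff_eq_nil_of_not_mem hk.2]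

end Eval

variable (D : ChevalleyDatum)

/-- Check that two words have equal matrices modulo `v * g = 1`. -/
def checkEqWRel (K : ℕ) (g : Raw) (w1 w2 : SWord) : Bool :=
  (List.range (D.rank + D.nroots)).all fun k =>
    eqVRel K g (applyW D w1 [(k, oneR)]) (applyW D w2 [(k, oneR)])

theorem wordMat_eq_of_checkEqWRel {F : Type*} [Field F] (t : Fˣ) (u v : F) {K : ℕ} {g : Raw}
    (hg : ev t u v g * v = 1) {w1 w2 : SWord} (h : checkEqWRel D K g w1 w2 = true) :
    D.wordMat F (evW t u v w1) = D.wordMat F (evW t u v w2) := by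
  ext a b
  rw [wordMat_apply, wordMat_apply]
  apply evV_eq_of_eqVRel t u v hg
  exact (List.all_eq_true.mp h) (code D b) (List.mem_range.mpr (code_lt D b))

end Cfsg.Agent.Helper18
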