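import Cfsg.Agent.Helper17.ChevTorus

/-!
# Triangular groups are solvable (helper18)

For a bounded rank function `f` the group `Cfsg.Agent.Helper17.lowerTri f F` (invertible matrices that are
weakly lower triangular for `f`, with their inverses) is solvable: the diagonal is a homomorphism to a
commutative group whose kernel is unitriangular, hence nilpotent (`Cfsg.Agent.Helper17.isNilpotent_of_deg`).
-/

set_option autoImplicit false

namespace Cfsg.Agent.Helper18

open Cfsg.Lie Cfsg.Agent.Helper17

section

variable {ι : Type*} [Fintype ι] [DecidableEq ι] {F : Type*} [Field F] {f : ι → ℕ}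

theorem lt_mul_diag {A B : Matrix ι ι F} (hA : LT f A) (hB : LT f B) (i : ι) :
    (A * B) i i = A i i * B i i := by
  rw [Matrix.mul_apply]
  apply Finset.sum_eq_single i
  · intro m _ hm
    by_contra h
    have h1 : A i m ≠ 0 := fun h' => h (by rw [h', zero_mul])
    have h2 : B m i ≠ 0 := fun h' => h (by rw [h', mul_zero])
    rcases hA i m h1 with e | e
    · exact hm e.symm
    · rcases hB m i h2 with e' | e'
      · exact hm e'
      · omega
  · intro h; exact absurd (Finset.mem_univ i) h

theorem lowerTri_diag_mul_inv (g : ↥(lowerTri f F)) (i : ι) :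
    ((g : GL ι F) : Matrix ι ι F) i i * (((g : GL ι F)⁻¹ : GL ι F) : Matrix ι ι F) i i = 1 := by
  rw [← lt_mul_diag g.2.1 g.2.2, ← Units.val_mul, mul_inv_cancel, Units.val_one, Matrix.one_apply_eq]

theorem lowerTri_diag_inv_mul (g : ↥(lowerTri f F)) (i : ι) :
    (((g : GL ι F)⁻¹ : GL ι F) : Matrix ι ι F) i i * ((g : GL ι F) : Matrix ι ι F) i i = 1 := by
  rw [← lt_mul_diag g.2.2 g.2.1, ← Units.val_mul, inv_mul_cancel, Units.val_one, Matrix.one_apply_eq]

/-- The diagonal of a weakly lower triangular invertible matrix, as a homomorphism. -/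
noncomputable def diagHom (f : ι → ℕ) (F : Type*) [Field F] : ↥(lowerTri f F) →* (ι → Fˣ) where
  toFun g i := ⟨((g : GL ι F) : Matrix ι ι F) i i, (((g : GL ι F)⁻¹ : GL ι F) : Matrix ι ι F) i i,
    lowerTri_diag_mul_inv g i, lowerTri_diag_inv_mul g i⟩
  map_one' := by
    funext i
    apply Units.ext
    simp
  map_mul' := by
    intro a b
    funext i
    apply Units.ext
    show (((a * b : ↥(lowerTri f F)) : GL ι F) : Matrix ι ι F) i i = _
    rw [Subgroup.coe_mul, Units.val_mul, lt_mul_diag a.2.1 b.2.1]
    rfl

theorem deg_of_mem_ker_diagHom {g : ↥(lowerTri f F)} (hg : g ∈ (diagHom f F).ker) :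
    Deg f 1 (((g : GL ι F) : Matrix ι ι F) - 1) := by
  intro i j hij
  rw [Matrix.sub_apply] at hij
  by_cases h : i = j
  · subst h
    exfalso
    apply hij
    have h1 := congrArg Units.val (congrFun (MonoidHom.mem_ker.mp hg) i)
    have h2 : ((g : GL ι F) : Matrix ι ι F) i i = 1 := h1
    rw [h2, Matrix.one_apply_eq, sub_self]
  · rw [Matrix.one_apply_ne h, sub_zero] at hij
    rcases g.2.1 i j hij with e | e
    · exact absurd e h
    · exact e

/-- The group of weakly lower triangular matrices for a bounded rank function is solvable. -/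
theorem lowerTri_isSolvable (f : ι → ℕ) (N : ℕ) (hN : ∀ i, f i < N) (F : Type*) [Field F] :
    Group.IsSolvable ↥(lowerTri f F) := by
  have hnil : Group.IsNilpotent ↥((diagHom f F).ker.map (lowerTri f F).subtype) :=
    isNilpotent_of_deg f N hN _ (by
      rintro g ⟨k, hk, rfl⟩
      exact deg_of_mem_ker_diagHom hk)
  have hK : Group.IsSolvable ↥(diagHom f F).ker :=
    Group.isSolvable_of_isSolvable_injective
      (f := ((diagHom f F).ker.equivMapOfInjective _ (Subgroup.subtype_injective _)).toMonoidHom)
      (MulEquiv.injective _)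
  exact Group.isSolvable_of_ker_le_range (diagHom f F).ker.subtype (diagHom f F)
    (by rw [Subgroup.range_subtype])

end

end Cfsg.Agent.Helper18
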