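import Cfsg.Agent.Helper18.TwN

/-!
# The (B, N)-pair of the groups of fixed points of `σ` (helper18)

`nW_mul_B_mul`: `n_w B n ⊆ ⋃ B n_{w'} n B` over the subwords `w'` of `w`;
`twisted_bnPair`: `B^σ`, `N^σ` and the block elements `n_J` form a (B, N)-pair of `G^σ`.
-/

set_option autoImplicit false

namespace Cfsg.Agent.Helper18

open Cfsg Cfsg.Lie Cfsg.Agent.Helper17 Cfsg.Agent.Helper36

section

variable {D : ChevalleyDatum} {K : Type*} [Field K] {P Q : ℕ} {l l' : ℕ → ℕ}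
  {η : ℕ → ℕ → ℤ} (R : BRel D K η)

theorem validW_sublist {L L' : List ℕ} (hs : L'.Sublist L) (hL : ValidW D L) : ValidW D L' :=
  fun i hi => hL i (hs.subset hi)

/-- `n_w B n ⊆ ⋃ B n_{w'} n B`, `w'` running over the subwords of `w`. -/
theorem nW_mul_B_mul : ∀ L, ValidW D L → ∀ n ∈ D.monomialSubgroup K, ∀ b ∈ D.borelSubgroup K,
    ∃ L' : List ℕ, L'.Sublist L ∧ ∃ b₁ ∈ D.borelSubgroup K, ∃ b₂ ∈ D.borelSubgroup K,
      R.nW L * b * n = b₁ * (R.nW L' * n) * b₂ := by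
  intro L
  induction L with
  | nil =>
    intro _ n _ b hb
    refine ⟨[], List.Sublist.refl _, b, hb, 1, one_mem _, ?_⟩
    rw [R.nW_nil, one_mul, one_mul, mul_one]
  | cons i L ih =>
    intro hL n hn b hb
    obtain ⟨L', hs, b₁, hb₁, b₂, hb₂, e⟩ := ih hL.tail n hn b hb
    have hL' : ValidW D L' := validW_sublist hs hL.tail
    have hn' : R.nW L' * n ∈ D.monomialSubgroup K := mul_mem (R.nW_mem_monomial hL') hn
    have e1 : R.nW (i :: L) * b * n = R.n i * b₁ * (R.nW L' * n) * b₂ := by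
      rw [R.nW_cons]
      have : R.n i * R.nW L * b * n = R.n i * (R.nW L * b * n) := by group
      rw [this, e]; group
    rcases R.mul_mem_union hL.head _ hn' b₁ hb₁ with ⟨c₁, hc₁, c₂, hc₂, h⟩ | ⟨c₁, hc₁, c₂, hc₂, h⟩
    · refine ⟨i :: L', hs.cons_cons i, c₁, hc₁, c₂ * b₂, mul_mem hc₂ hb₂, ?_⟩
      rw [e1, h, R.nW_cons]; group
    · refine ⟨L', hs.cons i, c₁, hc₁, c₂ * b₂, mul_mem hc₂ hb₂, ?_⟩
      rw [e1, h]; group

variable (hn : 0 < D.nroots) {degs : List ℕ}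
  {M : CoxeterMatrix (Fin D.rank)} (h : WeylOK D R.wf hn degs M)
  (hinv : chkInv (D.rank + D.nroots) P Q = true) (hroots : chkGRoots D P = true)
  (f : K →+* K) (T : TwTab D P l l') (T2 : TwTab2 D P l)
  {blocks : List (List ℕ)} (B : (rootSys D R.wf hn).Blocks (rhoPerm T T2) l blocks)
  (hnfix : ∀ b ∈ blocks, R.nW (b.map l) = R.nW b)
  (hH : D.diagonalSubgroup K = torus D K)

include h hroots T T2 B hnfix hH in
/-- The (B, N)-pair of the group of fixed points of `σ`: `B^σ`, `N^σ`, and the `n_J` for the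
blocks `J`. -/
theorem twisted_bnPair (G1 : Subgroup (GL D.Idx K))
    (hG1 : ∀ g, g ∈ G1 ↔ g ∈ D.group K ∧ twSig D (spGL K D P Q hinv) f g = g)
    (reps : List (List ℕ)) (hreps : ∀ b ∈ reps, b ∈ blocks)
    (hcov : ∀ b ∈ blocks, ∃ b' ∈ reps, R.nW b = R.nW b')
    (hdist : ∀ b ∈ reps, ∀ b' ∈ reps, (∀ r < D.nroots, wW D b r = wW D b' r) → b = b')
    (hsq : ∀ b ∈ reps, ∀ r < D.nroots, wW D (b ++ b) r = r)
    (hsub : ∀ c ∈ reps, ∀ L' : List ℕ, L'.Sublist c →
      (∀ r < D.nroots, wW D (L'.map l) r = wW D L' r) →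
      (∀ r < D.nroots, wW D L' r = r) ∨ (∀ r < D.nroots, wW D L' r = wW D c r))
    (hUs : ∀ c ∈ reps, ∃ u ∈ Subgroup.closure (umGens R.xadd c),
      twSig D (spGL K D P Q hinv) f u = u ∧ u ≠ 1) :
    ∃ P' : Cfsg.BNPair ↥G1,
      P'.B = (D.borelSubgroup K ⊓ G1).subgroupOf G1 ∧
      P'.N = (D.monomialSubgroup K ⊓ G1).subgroupOf G1 ∧
      P'.S = {s : ↥G1 | ∃ b ∈ reps, (s : GL D.Idx K) = R.nW b} := by
  classical
  have hBG := borelSubgroup_le_group (D := D) (F := K) R.xadd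
  have hNG := monomialSubgroup_le_group (D := D) (F := K) R.xadd
  have hmemB : ∀ x : ↥G1, x ∈ (D.borelSubgroup K ⊓ G1).subgroupOf G1 ↔
      (x : GL D.Idx K) ∈ D.borelSubgroup K := by
    intro x
    rw [Subgroup.mem_subgroupOf, Subgroup.mem_inf]
    exact ⟨fun h => h.1, fun h => ⟨h, x.2⟩⟩
  have hmemN : ∀ x : ↥G1, x ∈ (D.monomialSubgroup K ⊓ G1).subgroupOf G1 ↔
      (x : GL D.Idx K) ∈ D.monomialSubgroup K := by
    intro x
    rw [Subgroup.mem_subgroupOf, Subgroup.mem_inf]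
    exact ⟨fun h => h.1, fun h => ⟨h, x.2⟩⟩
  have hfixG : ∀ x : ↥G1, twSig D (spGL K D P Q hinv) f (x : GL D.Idx K) = x :=
    fun x => ((hG1 _).mp x.2).2
  have hvr : ∀ c ∈ reps, ValidW D c := fun c hc => B.lt c (hreps c hc)
  have hσn : ∀ c ∈ reps, twSig D (spGL K D P Q hinv) f (R.nW c) = R.nW c := by
    intro c hc
    rw [twSig_nW hinv hroots f T R.toNRel (hvr c hc), hnfix c (hreps c hc)]
  have hnG1 : ∀ c ∈ reps, R.nW c ∈ G1 := fun c hc =>
    (hG1 _).mpr ⟨hNG (R.nW_mem_monomial (hvr c hc)), hσn c hc⟩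
  have hsqH : ∀ c ∈ reps, R.nW c * R.nW c ∈ D.diagonalSubgroup K := by
    intro c hc
    rw [← R.nW_append]
    apply nW_mem_H_of_posroots R ((hvr c hc).append (hvr c hc))
    intro s hs
    rw [hsq c hc s hs.1]
    exact hs
  refine ⟨{ B := (D.borelSubgroup K ⊓ G1).subgroupOf G1
            N := (D.monomialSubgroup K ⊓ G1).subgroupOf G1
            S := {s : ↥G1 | ∃ b ∈ reps, (s : GL D.Idx K) = R.nW b}
            sup_eq_top := ?_
            conj_mem := ?_
            subset := ?_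
            sq_mem := ?_
            inj := ?_
            closure_sup := ?_
            mul_mem_union := ?_
            conj_ne := ?_ }, rfl, rfl, rfl⟩
  · -- sup_eq_top
    rw [eq_top_iff]
    intro g _
    obtain ⟨hgG, hgf⟩ := (hG1 _).mp g.2
    obtain ⟨bs, hbs, b, hb, hbf, u, hu, huf, e⟩ :=
      fixed_bruhat R hn h hinv hroots f T T2 B hnfix hH hgG hgf
    have hv := validW_flatten B.lt hbs
    have hnf := twSig_nW_flatten R hinv hroots f T hnfix bs hbs B.lt
    have huB : u ∈ D.borelSubgroup K := BRel.U_le_B D K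
      (unGens_le_posUnipotent _ (Subgroup.closure_mono (R.umGens_subset hv) hu))
    have hb1 : b ∈ G1 := (hG1 _).mpr ⟨hBG hb, hbf⟩
    have hu1 : u ∈ G1 := (hG1 _).mpr ⟨hBG huB, huf⟩
    have hn1 : R.nW bs.flatten ∈ G1 := (hG1 _).mpr ⟨hNG (R.nW_mem_monomial hv), hnf⟩
    have e' : g = (⟨b, hb1⟩ : ↥G1) * ⟨R.nW bs.flatten, hn1⟩ * ⟨u, hu1⟩ := Subtype.ext e
    rw [e']
    refine mul_mem (mul_mem (Subgroup.mem_sup_left ?_) (Subgroup.mem_sup_right ?_))
      (Subgroup.mem_sup_left ?_)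
    · exact (hmemB _).mpr hb
    · exact (hmemN _).mpr (R.nW_mem_monomial hv)
    · exact (hmemB _).mpr huB
  · -- conj_mem
    intro n hn' t ht
    rw [hmemB]
    have htB := (hmemB t).mp ht.1
    have htN := (hmemN t).mp ht.2
    have hnN := (hmemN n).mp hn'
    exact BRel.H_le_B D K (R.N_conj_H _ hnN _ (mem_H_of_mem_B_N R htN htB))
  · -- subset
    rintro s ⟨c, hc, hs⟩
    rw [SetLike.mem_coe, hmemN, hs]
    exact R.nW_mem_monomial (hvr c hc)
  · -- sq_mem
    rintro s ⟨c, hc, hs⟩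
    rw [hmemB]
    show (s : GL D.Idx K) * (s : GL D.Idx K) ∈ D.borelSubgroup K
    rw [hs]
    exact BRel.H_le_B D K (hsqH c hc)
  · -- inj
    rintro s ⟨c, hc, hs⟩ s' ⟨c', hc', hs'⟩ hB
    rw [hmemB] at hB
    have hB' : (R.nW c)⁻¹ * R.nW c' ∈ D.borelSubgroup K := by rw [← hs, ← hs']; exact hB
    have hN' : (R.nW c)⁻¹ * R.nW c' ∈ D.monomialSubgroup K :=
      mul_mem (inv_mem (R.nW_mem_monomial (hvr c hc))) (R.nW_mem_monomial (hvr c' hc'))
    have hHm := mem_H_of_mem_B_N R hN' hB'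
    have hev := ev_eq_of_nW_eq R hn h (hvr c hc) (hvr c' hc') hHm (one_mem _) (by group)
    have hcc := hdist c hc c' hc' (wW_eq_of_ev_eq R hn (hvr c hc) (hvr c' hc') hev)
    apply Subtype.ext
    rw [hs, hs', hcc]
  · -- closure_sup
    apply le_antisymm
    · apply sup_le
      · rw [Subgroup.closure_le]
        rintro s ⟨c, hc, hs⟩
        rw [SetLike.mem_coe, hmemN, hs]
        exact R.nW_mem_monomial (hvr c hc)
      · exact inf_le_right
    · intro n hn'
      have hnN := (hmemN n).mp hn'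
      obtain ⟨bs, hbs, a, ha, haf, e⟩ :=
        fixed_monomial R hn h hinv hroots f T T2 B hnfix hH hnN (hfixG n)
      have hlift : ∀ bs : List (List ℕ), (∀ b ∈ bs, b ∈ blocks) → ∃ g : ↥G1,
          g ∈ Subgroup.closure {s : ↥G1 | ∃ b ∈ reps, (s : GL D.Idx K) = R.nW b} ∧
          (g : GL D.Idx K) = R.nW bs.flatten := by
        intro bs
        induction bs with
        | nil =>
          intro _
          refine ⟨1, one_mem _, ?_⟩
          rw [List.flatten_nil, R.nW_nil]; rfl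
        | cons b bs ih =>
          intro hbs
          obtain ⟨g, hg, hgL⟩ := ih (fun c hc => hbs c (List.mem_cons_of_mem _ hc))
          obtain ⟨b', hb', eb⟩ := hcov b (hbs b List.mem_cons_self)
          refine ⟨⟨R.nW b', hnG1 b' hb'⟩ * g,
            mul_mem (Subgroup.subset_closure ⟨b', hb', rfl⟩) hg, ?_⟩
          rw [List.flatten_cons, R.nW_append, eb, ← hgL]
          rfl
      obtain ⟨g, hg, hgL⟩ := hlift bs hbs
      have e2 : n = g * (g⁻¹ * n) := by group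
      rw [e2]
      have hval : ((g⁻¹ * n : ↥G1) : GL D.Idx K) = a := by
        show (g : GL D.Idx K)⁻¹ * (n : GL D.Idx K) = a
        rw [hgL, e]; group
      refine Subgroup.mul_mem_sup hg ?_
      rw [Subgroup.mem_inf, hmemB, hmemN, hval]
      exact ⟨BRel.H_le_B D K ha, (le_sup_left : D.diagonalSubgroup K ≤ D.monomialSubgroup K) ha⟩
  · -- mul_mem_union
    rintro s ⟨c, hc, hs⟩ n hn' b hb
    have hnN := (hmemN n).mp hn'
    have hbB := (hmemB b).mp hb
    have hcv := hvr c hc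
    obtain ⟨L', hsl, b₁, hb₁, b₂, hb₂, e⟩ := nW_mul_B_mul R c hcv _ hnN _ hbB
    have hL' := validW_sublist hsl hcv
    have hg1 : R.nW c * (b : GL D.Idx K) * (n : GL D.Idx K) ∈ G1 :=
      mul_mem (mul_mem (hnG1 c hc) b.2) n.2
    obtain ⟨hgG, hgf⟩ := (hG1 _).mp hg1
    obtain ⟨bs, hbs, b', hb', hbf', u, hu, huf, e'⟩ :=
      fixed_bruhat R hn h hinv hroots f T T2 B hnfix hH hgG hgf
    have hv := validW_flatten B.lt hbs
    have hmf := twSig_nW_flatten R hinv hroots f T hnfix bs hbs B.lt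
    have hmN := R.nW_mem_monomial hv
    have huB : u ∈ D.borelSubgroup K := BRel.U_le_B D K
      (unGens_le_posUnipotent _ (Subgroup.closure_mono (R.umGens_subset hv) hu))
    have hL'n : R.nW L' * (n : GL D.Idx K) ∈ D.monomialSubgroup K :=
      mul_mem (R.nW_mem_monomial hL') hnN
    have e3 : R.nW bs.flatten =
        (b'⁻¹ * b₁) * (R.nW L' * (n : GL D.Idx K)) * (b₂ * u⁻¹) := by
      have : R.nW bs.flatten = b'⁻¹ * (b' * R.nW bs.flatten * u) * u⁻¹ := by group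
      rw [this, ← e', e]; group
    have ha := R.double_coset_unique hmN hL'n (mul_mem (inv_mem hb') hb₁)
      (mul_mem hb₂ (inv_mem huB)) e3
    obtain ⟨m, hm⟩ : ∃ m, m = R.nW bs.flatten := ⟨_, rfl⟩
    rw [← hm] at ha hmf hmN e'
    obtain ⟨a, hadef⟩ : ∃ a, a = m⁻¹ * (R.nW L' * (n : GL D.Idx K)) := ⟨_, rfl⟩
    rw [← hadef] at ha
    have ha' : (n : GL D.Idx K) * a⁻¹ * (n : GL D.Idx K)⁻¹ ∈ D.diagonalSubgroup K :=
      R.N_conj_H _ hnN _ (inv_mem ha)
    have key : ∀ x : ↥G1, (x : GL D.Idx K) ∈ D.monomialSubgroup K →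
        m * (x : GL D.Idx K)⁻¹ ∈ D.diagonalSubgroup K →
        s * b * n ∈ DoubleCoset.doubleCoset x
          (((D.borelSubgroup K ⊓ G1).subgroupOf G1 : Subgroup ↥G1) : Set ↥G1)
          ((D.borelSubgroup K ⊓ G1).subgroupOf G1) := by
      intro x hxN hmx
      rw [DoubleCoset.mem_doubleCoset]
      have hm1 : m ∈ G1 := (hG1 _).mpr ⟨hNG hmN, hmf⟩
      have hb1 : b' ∈ G1 := (hG1 _).mpr ⟨hBG hb', hbf'⟩
      have hu1 : u ∈ G1 := (hG1 _).mpr ⟨hBG huB, huf⟩
      have hy1 : b' * (m * (x : GL D.Idx K)⁻¹) ∈ G1 :=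
        mul_mem hb1 (mul_mem hm1 (inv_mem x.2))
      refine ⟨⟨_, hy1⟩, (hmemB _).mpr (mul_mem hb' (BRel.H_le_B D K hmx)), ⟨u, hu1⟩,
        (hmemB _).mpr huB, ?_⟩
      apply Subtype.ext
      show (s : GL D.Idx K) * (b : GL D.Idx K) * (n : GL D.Idx K) =
        b' * (m * (x : GL D.Idx K)⁻¹) * (x : GL D.Idx K) * u
      rw [hs, e']; group
    have hmn1 : m * (n : GL D.Idx K)⁻¹ ∈ D.monomialSubgroup K := mul_mem hmN (inv_mem hnN)
    have hmnf : twSig D (spGL K D P Q hinv) f (m * (n : GL D.Idx K)⁻¹) =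
        m * (n : GL D.Idx K)⁻¹ := by
      rw [map_mul, map_inv, hmf, hfixG n]
    obtain ⟨bs', hbs', a', ha'H, -, e4⟩ :=
      fixed_monomial R hn h hinv hroots f T T2 B hnfix hH hmn1 hmnf
    have hv' := validW_flatten B.lt hbs'
    have e5 : R.nW L' * 1 = R.nW bs'.flatten *
        (a' * ((n : GL D.Idx K) * a * (n : GL D.Idx K)⁻¹)) := by
      rw [mul_one, ← mul_assoc, ← e4, hadef]; group
    have hev := ev_eq_of_nW_eq R hn h hL' hv' (one_mem _)
      (mul_mem ha'H (R.N_conj_H _ hnN _ ha)) e5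
    have hcomm : rhoPerm T T2 * (rootSys D R.wf hn).ev L' =
        (rootSys D R.wf hn).ev L' * rhoPerm T T2 := by
      rw [hev]; exact ev_flatten_comm R hn T T2 B bs' hbs'
    have hev2 : (rootSys D R.wf hn).ev (L'.map l) = (rootSys D R.wf hn).ev L' := by
      have := ev_map_rho T T2 R.wf hn hL'
      rw [hcomm] at this
      exact mul_right_cancel this
    rcases hsub c hc L' hsl (wW_eq_of_ev_eq R hn (validW_map T hL') hL' hev2) with h1 | h1
    · right
      have hLH : R.nW L' ∈ D.diagonalSubgroup K := by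
        apply nW_mem_H_of_posroots R hL'
        intro r hr
        rw [h1 r hr.1]; exact hr
      apply key n hnN
      have : m * (n : GL D.Idx K)⁻¹ =
          R.nW L' * ((n : GL D.Idx K) * a⁻¹ * (n : GL D.Idx K)⁻¹) := by
        rw [hadef]; group
      rw [this]
      exact mul_mem hLH ha'
    · left
      have hev3 : (rootSys D R.wf hn).ev L' = (rootSys D R.wf hn).ev c :=
        ev_eq_of_wW_eq R hn hL' hcv h1
      have hLc := nW_mul_inv_mem_H R hn hL' hcv hev3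
      have hsn : ((s * n : ↥G1) : GL D.Idx K) = R.nW c * (n : GL D.Idx K) := by
        show (s : GL D.Idx K) * (n : GL D.Idx K) = _
        rw [hs]
      apply key (s * n)
      · rw [hsn]; exact mul_mem (R.nW_mem_monomial hcv) hnN
      · rw [hsn]
        have : m * (R.nW c * (n : GL D.Idx K))⁻¹ = (R.nW L' * (R.nW c)⁻¹) *
            (R.nW c * ((n : GL D.Idx K) * a⁻¹ * (n : GL D.Idx K)⁻¹) * (R.nW c)⁻¹) := by
          rw [hadef]; group
        rw [this]
        exact mul_mem hLc (R.N_conj_H _ (R.nW_mem_monomial hcv) _ ha')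
  · -- conj_ne
    rintro s ⟨c, hc, hs⟩ heq
    obtain ⟨u, hu, huf, hu1⟩ := hUs c hc
    have hcv := hvr c hc
    have huU := unGens_le_posUnipotent _ (Subgroup.closure_mono (R.umGens_subset hcv) hu)
    have huB := BRel.U_le_B D K huU
    have huG : u ∈ G1 := (hG1 _).mpr ⟨hBG huB, huf⟩
    have hmem : s * ⟨u, huG⟩ * s ∈
        (((D.borelSubgroup K ⊓ G1).subgroupOf G1 : Subgroup ↥G1) : Set ↥G1) := by
      rw [← heq]
      exact ⟨⟨u, huG⟩, (hmemB _).mpr huB, rfl⟩
    rw [SetLike.mem_coe, hmemB] at hmem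
    have hmem' : R.nW c * u * R.nW c ∈ D.borelSubgroup K := by rw [← hs]; exact hmem
    have h2 : R.nW c * u * (R.nW c)⁻¹ ∈ D.borelSubgroup K := by
      have := mul_mem hmem' (inv_mem (BRel.H_le_B D K (hsqH c hc)))
      have e : R.nW c * u * R.nW c * (R.nW c * R.nW c)⁻¹ = R.nW c * u * (R.nW c)⁻¹ := by group
      rwa [e] at this
    have h3 : R.nW c * u * (R.nW c)⁻¹ ∈ D.borelSubgroup K ⊓ D.negUnipotent K :=
      Subgroup.mem_inf.mpr ⟨h2, conj_unGens_mem _ u
        (Subgroup.closure_mono (R.umGens_subset hcv) hu)⟩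
    rw [R.bv, Subgroup.mem_bot] at h3
    apply hu1
    have : u = (R.nW c)⁻¹ * (R.nW c * u * (R.nW c)⁻¹) * R.nW c := by group
    rw [this, h3]; group

end

end Cfsg.Agent.Helper18
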