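import Cfsg.Agent.Helper18.TwBN
import Cfsg.Agent.Helper18.TwD4f

/-!
# The (B, N)-pair of `³D₄(q)` (helper18)
-/

set_option autoImplicit false

namespace Cfsg.Agent.Helper18

open Cfsg Cfsg.Lie Cfsg.Agent.Helper17 Cfsg.Agent.Helper36

/-- The two blocks of the triality, as words. -/
def d4Reps : List (List ℕ) := [[1], [0, 2, 3]]

theorem d4_reps_facts : (∀ b ∈ d4Reps, b ∈ d4Blocks) ∧ (∀ b ∈ d4Reps, [b] ∈ d4Cw) ∧
    (∀ b ∈ d4Reps, ∀ b' ∈ d4Reps,
      (∀ r < chevD4.nroots, wW chevD4 b r = wW chevD4 b' r) → b = b') ∧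
    (∀ b ∈ d4Reps, ∀ r < chevD4.nroots, wW chevD4 (b ++ b) r = r) ∧
    (∀ c ∈ d4Reps, ∀ L' ∈ c.sublists,
      (∀ r < chevD4.nroots, wW chevD4 (L'.map d4l) r = wW chevD4 L' r) →
      (∀ r < chevD4.nroots, wW chevD4 L' r = r) ∨
        (∀ r < chevD4.nroots, wW chevD4 L' r = wW chevD4 c r)) := by
  decide +kernel

theorem d4_reps_len : ∀ c ∈ d4Reps, c.length ≠ 0 := by decide

section

variable {K : Type*} [Field K]

theorem d4_hcov : ∀ b ∈ d4Blocks, ∃ b' ∈ d4Reps, (d4R K).nW b = (d4R K).nW b' := by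
  intro b hb
  simp only [d4Blocks, List.mem_cons, List.not_mem_nil, or_false] at hb
  rcases hb with rfl | rfl | rfl
  · exact ⟨[1], by decide, rfl⟩
  · exact ⟨[0, 2, 3], by decide, rfl⟩
  · exact ⟨[0, 2, 3], by decide, d4_nW_rev⟩

variable (f : K →+* K) (q : ℕ) (hq1 : Nat.card {t : K // f t = t} = q) (hqM : Nat.card K = q ^ 3)
  (hfM : ∀ t : K, f^[3] t = t)

include hq1 hqM hfM in
theorem d4_hUs (hq : 1 < q) : ∀ c ∈ d4Reps, ∃ u ∈ Subgroup.closure (umGens (d4R K).xadd c),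
    d4Sig f u = u ∧ u ≠ 1 := by
  intro c hc
  have hcard := d4_card_Uw f q hq1 hqM hfM [c] (d4_reps_facts.2.1 c hc)
  have e : [c].flatten = c := by simp
  rw [e] at hcard
  have hlen : c.length ≠ 0 := d4_reps_len c hc
  have h1 : 1 < Nat.card {u : GL chevD4.Idx K //
      u ∈ Subgroup.closure (umGens (d4R K).xadd c) ∧ d4Sig f u = u} := by
    rw [hcard]; exact Nat.one_lt_pow hlen hq
  haveI : Finite {u : GL chevD4.Idx K //
      u ∈ Subgroup.closure (umGens (d4R K).xadd c) ∧ d4Sig f u = u} :=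
    Nat.finite_of_card_ne_zero (by omega)
  haveI := Finite.one_lt_card_iff_nontrivial.mp h1
  obtain ⟨x, hx⟩ := exists_ne (⟨1, one_mem _, map_one _⟩ : {u : GL chevD4.Idx K //
      u ∈ Subgroup.closure (umGens (d4R K).xadd c) ∧ d4Sig f u = u})
  exact ⟨x.1, x.2.1, x.2.2, fun h => hx (Subtype.ext h)⟩

end

/-- The (B, N)-pair of `³D₄(q)`. -/
theorem bnPair_twistedD4 {K : Type*} [Field K] [Fintype K] {q : ℕ} (hK : Fintype.card K = q ^ 3) :
    ∃ P : Cfsg.BNPair ↥(twistedD4 K q),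
      P.B = (chevD4.borelSubgroup K ⊓ twistedD4 K q).subgroupOf (twistedD4 K q) ∧
      P.N = (chevD4.monomialSubgroup K ⊓ twistedD4 K q).subgroupOf (twistedD4 K q) ∧
      P.S = {s : ↥(twistedD4 K q) | ∃ b ∈ d4Reps, (s : GL chevD4.Idx K) = (d4R K).nW b} := by
  obtain ⟨f, hf, hfM, hq1⟩ := exists_frob3 hK
  have hqM : Nat.card K = q ^ 3 := by rw [Nat.card_eq_fintype_card, hK]
  have hq : 1 < q := by
    have := Fintype.one_lt_card (α := K)
    rw [hK] at this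
    by_contra h
    have hq : q = 0 ∨ q = 1 := by omega
    rcases hq with rfl | rfl <;> norm_num at this
  obtain ⟨h1, -, h3, h4, h5⟩ := d4_reps_facts
  have hB := blocks_of_checks twTab_D4a twTab2_D4a (d4R K).wf d4_hn blocksChk_D4
  exact twisted_bnPair (d4R K) d4_hn (weylOK_D4 (d4R K).wf d4_hn) d4_hinv gaut_roots_D4a f twTab_D4a
    twTab2_D4a hB d4_hnfix (d4_hH K) (twistedD4 K q) (mem_twistedD4_iff f hfM hf)
    d4Reps h1 d4_hcov h3 h4
    (fun c hc L' hs => h5 c hc L' (List.mem_sublists.mpr hs))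
    (d4_hUs f q hq1 hqM hfM hq)

end Cfsg.Agent.Helper18
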