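import Cfsg.Agent.Helper18.TwSimple
import Cfsg.Agent.Helper18.TwD4g
import Cfsg.Agent.S1050

/-!
# Simplicity of `³D₄(q)`, given that it is perfect and the core of `B¹` is trivial (helper18)
-/

set_option autoImplicit false

namespace Cfsg.Agent.Helper18

open Cfsg Cfsg.Lie Cfsg.Agent.Helper17 Cfsg.Agent.Helper36

theorem d4_chain : List.IsChain (fun c c' => BadW chevD4 c c' ∧ BadW chevD4 c' c) d4Reps := by
  decide +kernel

/-- `³D₄(q)` is simple, given that it is perfect and that the core of `B¹` is trivial. -/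
theorem simple_twistedD4 {K : Type*} [Field K] [Fintype K] {q : ℕ} (hK : Fintype.card K = q ^ 3)
    (hperf : commutator ↥(twistedD4 K q) = ⊤)
    (hcore : ((chevD4.borelSubgroup K ⊓ twistedD4 K q).subgroupOf (twistedD4 K q)).normalCore = ⊥) :
    IsSimpleGroup ↥(twistedD4 K q) ∧ ¬ IsMulCommutative ↥(twistedD4 K q) := by
  obtain ⟨f, hf, hfM, hq1⟩ := exists_frob3 hK
  have hqM : Nat.card K = q ^ 3 := by rw [Nat.card_eq_fintype_card, hK]
  have hq : 1 < q := by
    have := Fintype.one_lt_card (α := K)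
    rw [hK] at this
    by_contra h
    have hq : q = 0 ∨ q = 1 := by omega
    rcases hq with rfl | rfl <;> norm_num at this
  obtain ⟨h1, -, h3, h4, h5⟩ := d4_reps_facts
  have hB := blocks_of_checks twTab_D4a twTab2_D4a (d4R K).wf d4_hn blocksChk_D4
  exact twisted_simple (d4R K) d4_hn (weylOK_D4 (d4R K).wf d4_hn) d4_hinv gaut_roots_D4a f twTab_D4a
    twTab2_D4a hB d4_hnfix (d4_hH K) (twistedD4 K q) (mem_twistedD4_iff f hfM hf)
    d4Reps h1 d4_hcov h3 h4
    (fun c hc L' hs => h5 c hc L' (List.mem_sublists.mpr hs))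
    (d4_hUs f q hq1 hqM hfM hq) (by decide) d4_chain
    (Cfsg.Agent.S1050.result chevD4 d4_mem) hperf hcore

end Cfsg.Agent.Helper18
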