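import Cfsg.Agent.Helper18.TwBN
import Cfsg.Agent.S0319

/-!
# Simplicity of the groups of fixed points of `σ` from the Tits criterion (helper18)

`twisted_simple`: `G^σ` is simple as soon as it is perfect, the core of `B^σ` is trivial, `B` is solvable
and the blocks form a chain in which neighbours do not commute.
-/

set_option autoImplicit false

namespace Cfsg.Agent.Helper18

open Cfsg Cfsg.Lie Cfsg.Agent.Helper17 Cfsg.Agent.Helper36

/-- The word `c ++ c' ++ c ++ c'` sends some positive root to a root that is not positive. -/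
def BadW (D : ChevalleyDatum) (c c' : List ℕ) : Prop :=
  ∃ s < D.nroots, D.IsPosRoot s ∧ ¬ D.IsPosRoot (wW D (c ++ c' ++ c ++ c') s)

instance (D : ChevalleyDatum) (c c' : List ℕ) : Decidable (BadW D c c') := by
  unfold BadW; infer_instance

/-- Connectivity along a chain. -/
theorem conn_of_chain {α : Type*} (rel : α → α → Prop) :
    ∀ reps : List α, List.IsChain (fun a b => rel a b ∧ rel b a) reps →
    ∀ I : α → Prop, (∃ c ∈ reps, I c) → (∃ c ∈ reps, ¬ I c) →
      ∃ c ∈ reps, ∃ c' ∈ reps, I c ∧ ¬ I c' ∧ rel c c' := by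
  intro reps
  induction reps with
  | nil => rintro _ I ⟨c, hc, -⟩; exact absurd hc List.not_mem_nil
  | cons a rest ih =>
    cases rest with
    | nil =>
      rintro _ I ⟨c, hc, hIc⟩ ⟨c', hc', hIc'⟩
      rw [List.mem_singleton] at hc hc'
      subst hc; subst hc'
      exact absurd hIc hIc'
    | cons b rest =>
      intro hch I hI hnI
      rw [List.isChain_cons_cons] at hch
      obtain ⟨⟨hab, hba⟩, hch'⟩ := hch
      by_cases hIa : I a
      · by_cases hIb : I b
        · have h1 : ∃ c ∈ b :: rest, I c := ⟨b, List.mem_cons_self, hIb⟩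
          have h2 : ∃ c ∈ b :: rest, ¬ I c := by
            obtain ⟨c, hc, hIc⟩ := hnI
            rcases List.mem_cons.mp hc with rfl | hc
            · exact absurd hIa hIc
            · exact ⟨c, hc, hIc⟩
          obtain ⟨c, hc, c', hc', h3⟩ := ih hch' I h1 h2
          exact ⟨c, List.mem_cons_of_mem _ hc, c', List.mem_cons_of_mem _ hc', h3⟩
        · exact ⟨a, List.mem_cons_self, b, List.mem_cons_of_mem _ List.mem_cons_self, hIa, hIb, hab⟩
      · by_cases hIb : I b
        · exact ⟨b, List.mem_cons_of_mem _ List.mem_cons_self, a, List.mem_cons_self, hIb, hIa, hba⟩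
        · have h1 : ∃ c ∈ b :: rest, I c := by
            obtain ⟨c, hc, hIc⟩ := hI
            rcases List.mem_cons.mp hc with rfl | hc
            · exact absurd hIc hIa
            · exact ⟨c, hc, hIc⟩
          have h2 : ∃ c ∈ b :: rest, ¬ I c := ⟨b, List.mem_cons_self, hIb⟩
          obtain ⟨c, hc, c', hc', h3⟩ := ih hch' I h1 h2
          exact ⟨c, List.mem_cons_of_mem _ hc, c', List.mem_cons_of_mem _ hc', h3⟩

section

variable {D : ChevalleyDatum} {K : Type*} [Field K] {P Q : ℕ} {l l' : ℕ → ℕ}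
  {η : ℕ → ℕ → ℤ} (R : BRel D K η)
  (hn : 0 < D.nroots) {degs : List ℕ}
  {M : CoxeterMatrix (Fin D.rank)} (h : WeylOK D R.wf hn degs M)
  (hinv : chkInv (D.rank + D.nroots) P Q = true) (hroots : chkGRoots D P = true)
  (f : K →+* K) (T : TwTab D P l l') (T2 : TwTab2 D P l)
  {blocks : List (List ℕ)} (B : (rootSys D R.wf hn).Blocks (rhoPerm T T2) l blocks)
  (hnfix : ∀ b ∈ blocks, R.nW (b.map l) = R.nW b)
  (hH : D.diagonalSubgroup K = torus D K)

include h hroots T T2 B hnfix hH in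
/-- Simplicity of the group of fixed points of `σ` (Tits). -/
theorem twisted_simple (G1 : Subgroup (GL D.Idx K))
    (hG1 : ∀ g, g ∈ G1 ↔ g ∈ D.group K ∧ twSig D (spGL K D P Q hinv) f g = g)
    (reps : List (List ℕ)) (hreps : ∀ b ∈ reps, b ∈ blocks)
    (hcov : ∀ b ∈ blocks, ∃ b' ∈ reps, R.nW b = R.nW b')
    (hdist : ∀ b ∈ reps, ∀ b' ∈ reps, (∀ r < D.nroots, wW D b r = wW D b' r) → b = b')
    (hsq : ∀ b ∈ reps, ∀ r < D.nroots, wW D (b ++ b) r = r)
    (hsub : ∀ c ∈ reps, ∀ L' : List ℕ, L'.Sublist c →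
      (∀ r < D.nroots, wW D (L'.map l) r = wW D L' r) →
      (∀ r < D.nroots, wW D L' r = r) ∨ (∀ r < D.nroots, wW D L' r = wW D c r))
    (hUs : ∀ c ∈ reps, ∃ u ∈ Subgroup.closure (umGens R.xadd c),
      twSig D (spGL K D P Q hinv) f u = u ∧ u ≠ 1)
    (hne : reps ≠ [])
    (hchain : List.IsChain (fun c c' => BadW D c c' ∧ BadW D c' c) reps)
    (hsolv : Group.IsSolvable ↥(D.borelSubgroup K)) (hperf : commutator ↥G1 = ⊤)
    (hcore : ((D.borelSubgroup K ⊓ G1).subgroupOf G1).normalCore = ⊥) :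
    IsSimpleGroup ↥G1 ∧ ¬ IsMulCommutative ↥G1 := by
  obtain ⟨P', hPB, -, hPS⟩ := twisted_bnPair R hn h hinv hroots f T T2 B hnfix hH G1 hG1 reps hreps
    hcov hdist hsq hsub hUs
  have hBG := borelSubgroup_le_group (D := D) (F := K) R.xadd
  have hNG := monomialSubgroup_le_group (D := D) (F := K) R.xadd
  have hvr : ∀ c ∈ reps, ValidW D c := fun c hc => B.lt c (hreps c hc)
  have hnG1 : ∀ c ∈ reps, R.nW c ∈ G1 := fun c hc =>
    (hG1 _).mpr ⟨hNG (R.nW_mem_monomial (hvr c hc)), by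
      rw [twSig_nW hinv hroots f T R.toNRel (hvr c hc), hnfix c (hreps c hc)]⟩
  have hsqH : ∀ c ∈ reps, R.nW c * R.nW c ∈ D.diagonalSubgroup K := by
    intro c hc
    rw [← R.nW_append]
    apply nW_mem_H_of_posroots R ((hvr c hc).append (hvr c hc))
    intro s hs
    rw [hsq c hc s hs.1]
    exact hs
  obtain ⟨c₀, hc₀⟩ := List.exists_mem_of_ne_nil reps hne
  obtain ⟨u, hu, huf, hu1⟩ := hUs c₀ hc₀
  have huG : u ∈ G1 := (hG1 _).mpr ⟨hBG (BRel.U_le_B D K (unGens_le_posUnipotent _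
    (Subgroup.closure_mono (R.umGens_subset (hvr c₀ hc₀)) hu))), huf⟩
  have hne1 : (⟨u, huG⟩ : ↥G1) ≠ 1 := fun h => hu1 (congrArg Subtype.val h)
  haveI : Nontrivial ↥G1 := ⟨⟨_, _, hne1⟩⟩
  have hsolvP : Group.IsSolvable ↥P'.B := by
    rw [hPB]
    haveI := hsolv
    have hle : D.borelSubgroup K ⊓ G1 ≤ G1 := inf_le_right
    have hle' : D.borelSubgroup K ⊓ G1 ≤ D.borelSubgroup K := inf_le_left
    exact Group.isSolvable_of_isSolvable_injective
      (f := (Subgroup.inclusion hle').comp (Subgroup.subgroupOfEquivOfLe hle).toMonoidHom)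
      ((Subgroup.inclusion_injective hle').comp (Subgroup.subgroupOfEquivOfLe hle).injective)
  have hirr : P'.Irreducible := by
    intro J hJ hJne hcomp
    have hS : ∀ n : ↥G1, n ∈ P'.S → ∃ c ∈ reps, (n : GL D.Idx K) = R.nW c := by
      intro n hn'; rw [hPS] at hn'; exact hn'
    obtain ⟨c, hc, c', hc', ⟨s, hsJ, hsc⟩, hIc', hbad⟩ :=
      conn_of_chain (fun c c' => BadW D c c') reps hchain
        (fun c => ∃ n ∈ J, (n : GL D.Idx K) = R.nW c)
        (by
          obtain ⟨n, hn'⟩ := hJne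
          obtain ⟨c, hc, hnc⟩ := hS n (hJ hn')
          exact ⟨c, hc, n, hn', hnc⟩)
        (by
          obtain ⟨n, hn', hnJ⟩ := hcomp
          obtain ⟨c, hc, hnc⟩ := hS n hn'
          refine ⟨c, hc, ?_⟩
          rintro ⟨n', hn'J, hn'c⟩
          have : n' = n := Subtype.ext (hn'c.trans hnc.symm)
          rw [this] at hn'J
          exact hnJ hn'J)
    refine ⟨s, hsJ, ⟨R.nW c', hnG1 c' hc'⟩, ⟨?_, ?_⟩, ?_⟩
    · rw [hPS]; exact ⟨c', hc', rfl⟩
    · intro hmem; exact hIc' ⟨_, hmem, rfl⟩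
    · rw [hPB, Subgroup.mem_subgroupOf]
      intro hmem
      have hmem' : R.nW c * R.nW c' * (R.nW c)⁻¹ * (R.nW c')⁻¹ ∈ D.borelSubgroup K := by
        rw [← hsc]; exact (Subgroup.mem_inf.mp hmem).1
      obtain ⟨r, -, hr, hnr⟩ := hbad
      have hL : ValidW D (c ++ c' ++ c ++ c') :=
        (((hvr c hc).append (hvr c' hc')).append (hvr c hc)).append (hvr c' hc')
      have e : R.nW (c ++ c' ++ c ++ c') = (R.nW c * R.nW c' * (R.nW c)⁻¹ * (R.nW c')⁻¹) *
          (R.nW c' * (R.nW c * R.nW c) * (R.nW c')⁻¹) * (R.nW c' * R.nW c') := by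
        rw [R.nW_append, R.nW_append, R.nW_append]; group
      have h1 : R.nW c' * (R.nW c * R.nW c) * (R.nW c')⁻¹ ∈ D.borelSubgroup K :=
        BRel.H_le_B D K (R.N_conj_H _ (R.nW_mem_monomial (hvr c' hc')) _ (hsqH c hc))
      have h2 := BRel.H_le_B D K (hsqH c' hc')
      have hW : R.nW (c ++ c' ++ c ++ c') ∈ D.borelSubgroup K := by
        rw [e]; exact mul_mem (mul_mem hmem' h1) h2
      exact hnr (R.pos_of_mem_B R.bv R.xinj hL hW hr)
  refine ⟨Cfsg.Agent.S0319.result P' hirr hsolvP hperf (by rw [hPB]; exact hcore), ?_⟩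
  intro hcomm
  have hbot : commutator ↥G1 = ⊥ := by
    rw [commutator_def, Subgroup.commutator_eq_bot_iff_le_centralizer]
    intro g _
    rw [Subgroup.mem_centralizer_iff]
    intro h' _
    exact hcomm.is_comm.comm h' g
  rw [hperf] at hbot
  exact hne1 (Subgroup.mem_bot.mp (by rw [← hbot]; exact Subgroup.mem_top _))

end

end Cfsg.Agent.Helper18
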