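import Cfsg.Agent.Helper18.TwUs
import Cfsg.Agent.Helper18.TwSimple
import Cfsg.Agent.Helper18.TwE6b
import Cfsg.Agent.S1050
import Cfsg.Prelude.Def_LieTwisted

/-!
# The (B, N)-pair and the simplicity of the group of fixed points of the flip of `E₆(K)` (helper18)

Both for a subgroup `G1` of `E₆(K)` which is the group of fixed points of `σ` and contains the elements
`∏_{i ∈ J} x_{p_i}(1)` of the blocks `J` (as `²E₆(q)` does).
-/

set_option autoImplicit false

namespace Cfsg.Agent.Helper18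

open Cfsg Cfsg.Lie Cfsg.Agent.Helper17 Cfsg.Agent.Helper36

/-- The four blocks of the flip, as words, in the order of the nodes of `F₄`. -/
def e6Reps : List (List ℕ) := [[0, 5], [2, 4], [3], [1]]

theorem e6_reps_facts : (∀ b ∈ e6Reps, b ∈ e6Blocks) ∧
    (∀ b ∈ e6Reps, ∀ b' ∈ e6Reps,
      (∀ r < chevE6.nroots, wW chevE6 b r = wW chevE6 b' r) → b = b') ∧
    (∀ b ∈ e6Reps, ∀ r < chevE6.nroots, wW chevE6 (b ++ b) r = r) ∧
    (∀ c ∈ e6Reps, ∀ L' ∈ c.sublists,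
      (∀ r < chevE6.nroots, wW chevE6 (L'.map e6l) r = wW chevE6 L' r) →
      (∀ r < chevE6.nroots, wW chevE6 L' r = r) ∨
        (∀ r < chevE6.nroots, wW chevE6 L' r = wW chevE6 c r)) ∧
    (∀ c ∈ e6Reps, ∀ i ∈ c, chevE6.IsPosRoot (chevE6.simple i) ∧
      chevE6.IsNegRoot (wW chevE6 c (chevE6.simple i))) ∧
    (∀ c ∈ e6Reps, (c.map chevE6.simple).Nodup) := by
  decide +kernel

theorem e6_chain : List.IsChain (fun c c' => BadW chevE6 c c' ∧ BadW chevE6 c' c) e6Reps := by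
  decide +kernel

section

variable {K : Type*} [Field K]

theorem e6_hcov : ∀ b ∈ e6Blocks, ∃ b' ∈ e6Reps, (e6R K).nW b = (e6R K).nW b' := by
  obtain ⟨r05, r24⟩ := e6_nW_rev (K := K)
  intro b hb
  simp only [e6Blocks, List.mem_cons, List.not_mem_nil, or_false] at hb
  rcases hb with rfl | rfl | rfl | rfl | rfl | rfl
  · exact ⟨[1], by decide, rfl⟩
  · exact ⟨[3], by decide, rfl⟩
  · exact ⟨[0, 5], by decide, rfl⟩
  · exact ⟨[2, 4], by decide, rfl⟩
  · exact ⟨[0, 5], by decide, r05⟩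
  · exact ⟨[2, 4], by decide, r24⟩

/-- The elements `∏_{i ∈ J} x_{p_i}(1)` of the blocks are generators of `²E₆(q)`. -/
theorem e6_gen_mem (q : ℕ) : ∀ c ∈ e6Reps,
    wordGL (e6R K).xadd (c.map fun i => (chevE6.simple i, (1 : K))) ∈ twistedE6 K q := by
  obtain ⟨e0, e1, e2, e3, e4, e5⟩ := e6_simple
  intro c hc
  refine Subgroup.subset_closure ⟨_, ?_, wordGL_val _ _⟩
  simp only [e6Reps, List.mem_cons, List.not_mem_nil, or_false] at hc
  rcases hc with rfl | rfl | rfl | rfl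
  · refine Or.inr ⟨1, (e6p1, e6p6), by simp, ?_⟩
    simp only [List.map_cons, List.map_nil, e0, e5, one_pow]; rfl
  · refine Or.inr ⟨1, (e6p3, e6p5), by simp, ?_⟩
    simp only [List.map_cons, List.map_nil, e2, e4, one_pow]; rfl
  · refine Or.inl ⟨1, one_pow q, e6p4, by simp, ?_⟩
    simp only [List.map_cons, List.map_nil, e3]; rfl
  · refine Or.inl ⟨1, one_pow q, e6p2, by simp, ?_⟩
    simp only [List.map_cons, List.map_nil, e1]; rfl

variable (f : K →+* K) (G1 : Subgroup (GL chevE6.Idx K))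
  (hG1 : ∀ g, g ∈ G1 ↔ g ∈ chevE6.group K ∧ e6Sig f g = g)
  (hgen : ∀ c ∈ e6Reps, wordGL (e6R K).xadd (c.map fun i => (chevE6.simple i, (1 : K))) ∈ G1)

include hG1 hgen in
theorem e6_hUs : ∀ c ∈ e6Reps, ∃ u ∈ Subgroup.closure (umGens (e6R K).xadd c),
    e6Sig f u = u ∧ u ≠ 1 := by
  obtain ⟨h1, -, -, -, h5, h6⟩ := e6_reps_facts
  intro c hc
  refine ⟨_, sw1_mem_umGens (e6R K).xadd c (h5 c hc), ((hG1 _).mp (hgen c hc)).2, ?_⟩
  apply sw1_ne_one (e6R K) c (blocksChk_E6.lt c (h1 c hc)) (h6 c hc)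
  revert c; decide

include hG1 hgen in
/-- The (B, N)-pair of the group of fixed points of the flip of `E₆(K)`. -/
theorem bnPair_fixedE6 :
    ∃ P : Cfsg.BNPair ↥G1,
      P.B = (chevE6.borelSubgroup K ⊓ G1).subgroupOf G1 ∧
      P.N = (chevE6.monomialSubgroup K ⊓ G1).subgroupOf G1 ∧
      P.S = {s : ↥G1 | ∃ b ∈ e6Reps, (s : GL chevE6.Idx K) = (e6R K).nW b} := by
  obtain ⟨h1, h2, h3, h4, -, -⟩ := e6_reps_facts
  have hB := blocks_of_checks twTab_E6 twTab2_E6 (e6R K).wf e6_hn blocksChk_E6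
  exact twisted_bnPair (e6R K) e6_hn (weylOK_E6 (e6R K).wf e6_hn) e6_hinv gaut_roots_E6 f twTab_E6
    twTab2_E6 hB e6_hnfix (e6_hH K) G1 hG1 e6Reps h1 e6_hcov h2 h3
    (fun c hc L' hs => h4 c hc L' (List.mem_sublists.mpr hs))
    (e6_hUs f G1 hG1 hgen)

include hG1 hgen in
/-- The group of fixed points of the flip of `E₆(K)` is simple, given that it is perfect and that the
core of `B¹` is trivial. -/
theorem simple_fixedE6 (hperf : commutator ↥G1 = ⊤)
    (hcore : ((chevE6.borelSubgroup K ⊓ G1).subgroupOf G1).normalCore = ⊥) :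
    IsSimpleGroup ↥G1 ∧ ¬ IsMulCommutative ↥G1 := by
  obtain ⟨h1, h2, h3, h4, -, -⟩ := e6_reps_facts
  have hB := blocks_of_checks twTab_E6 twTab2_E6 (e6R K).wf e6_hn blocksChk_E6
  exact twisted_simple (e6R K) e6_hn (weylOK_E6 (e6R K).wf e6_hn) e6_hinv gaut_roots_E6 f twTab_E6
    twTab2_E6 hB e6_hnfix (e6_hH K) G1 hG1 e6Reps h1 e6_hcov h2 h3
    (fun c hc L' hs => h4 c hc L' (List.mem_sublists.mpr hs))
    (e6_hUs f G1 hG1 hgen) (by decide) e6_chain
    (Cfsg.Agent.S1050.result chevE6 e6_mem) hperf hcore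

end

end Cfsg.Agent.Helper18
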