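import Cfsg.Agent.Helper18.TwE6e
import Cfsg.Agent.Helper18.TwE6c
import Cfsg.Agent.Helper17.TwField
import Cfsg.Agent.Helper17.TwFixCard

/-!
# `²E₆(q)` as the group of fixed points of `σ`: Weyl group, (B, N)-pair, simplicity (helper18)

All given `|U ∩ ²E₆(q)| = q³⁶` (statement S1086); simplicity also given that the group is perfect and that
the core of `B¹` is trivial (statements S1104, S1105).
-/

set_option autoImplicit false

namespace Cfsg.Agent.Helper18

open Cfsg Cfsg.Lie Cfsg.Agent.Helper17 Cfsg.Agent.Helper36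

section

variable {K : Type*} [Field K] (f : K →+* K) {q : ℕ} (hf : ∀ x : K, f x = x ^ q)
  (hfM : ∀ t : K, f (f t) = t)

include hf hfM in
/-- The elements of `H` fixed by `σ` lie in `²E₆(q)`. -/
theorem e6_fixedH_le {h : GL chevE6.Idx K} (hh : h ∈ chevE6.diagonalSubgroup K)
    (hfix : e6Sig f h = h) : h ∈ twistedE6 K q := by
  obtain ⟨a, b, c, d, hb, hd, rfl⟩ := e6_fixedH_param f hfM hh hfix
  have hb' : f (b : K) = b := congrArg Units.val hb
  have hd' : f (d : K) = d := congrArg Units.val hd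
  rw [e6_torusHom_eq]
  obtain ⟨s0, s1, s2, s3, s4, s5⟩ := e6_simple
  have hG : twistedE6 K q = twGroup (e6R K).xadd f eE6 orbsE6 := twistedE6_eq q f hf (e6R K).xadd
  have hnil : ∀ t : K, hOrb (e6R K).xadd [] (coef f eE6 t) = 1 := fun _ => rfl
  have p1 : hGL (e6R K).xadd 56 (a : K) * hGL (e6R K).xadd 36 (f (a : K)) ∈ twistedE6 K q := by
    have h1 := hOrb_mem (e6R K) (φ := f) (e := eE6) (orbs := orbsE6) (o := [0, 5]) (by decide)
      (orbOK_E6 _ (by decide)) (t := (a : K)) (fun h => absurd h (by decide))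
    rw [hOrb_cons, hOrb_cons, s0, s5, hnil, mul_one] at h1
    rw [hG]
    exact h1
  have p2 : hGL (e6R K).xadd 42 (c : K) * hGL (e6R K).xadd 37 (f (c : K)) ∈ twistedE6 K q := by
    have h1 := hOrb_mem (e6R K) (φ := f) (e := eE6) (orbs := orbsE6) (o := [2, 4]) (by decide)
      (orbOK_E6 _ (by decide)) (t := (c : K)) (fun h => absurd h (by decide))
    rw [hOrb_cons, hOrb_cons, s2, s4, hnil, mul_one] at h1
    rw [hG]
    exact h1
  have p3 : hGL (e6R K).xadd 46 (b : K) ∈ twistedE6 K q := by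
    have h1 := hOrb_mem (e6R K) (φ := f) (e := eE6) (orbs := orbsE6) (o := [1]) (by decide)
      (orbOK_E6 _ (by decide)) (t := (b : K)) (fun _ => hb')
    rw [hOrb_cons, s1, hnil, mul_one] at h1
    rw [hG]
    exact h1
  have p4 : hGL (e6R K).xadd 39 (d : K) ∈ twistedE6 K q := by
    have h1 := hOrb_mem (e6R K) (φ := f) (e := eE6) (orbs := orbsE6) (o := [3]) (by decide)
      (orbOK_E6 _ (by decide)) (t := (d : K)) (fun _ => hd')
    rw [hOrb_cons, s3, hnil, mul_one] at h1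
    rw [hG]
    exact h1
  have key : ∀ x1 x2 x3 x4 x5 x6 : GL chevE6.Idx K, x1 ∈ (torusHom chevE6 K).range →
      x2 ∈ (torusHom chevE6 K).range → x3 ∈ (torusHom chevE6 K).range →
      x4 ∈ (torusHom chevE6 K).range → x5 ∈ (torusHom chevE6 K).range →
      x6 ∈ (torusHom chevE6 K).range →
      x1 * x2 * x3 * x4 * x5 * x6 = (x1 * x6) * (x3 * x5) * x2 * x4 := by
    rintro _ _ _ _ _ _ ⟨u1, rfl⟩ ⟨u2, rfl⟩ ⟨u3, rfl⟩ ⟨u4, rfl⟩ ⟨u5, rfl⟩ ⟨u6, rfl⟩
    simp only [← map_mul]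
    congr 1
    ac_rfl
  have hr : ∀ (r : ℕ) (_ : r < chevE6.nroots) (t : Kˣ),
      hGL (e6R K).xadd r (t : K) ∈ (torusHom chevE6 K).range := by
    intro r hr t
    rw [range_torusHom, ← e6_hH]
    exact hGL_mem _ hr t.ne_zero
  rw [key _ _ _ _ _ _ (hr 56 (by decide) a) (hr 46 (by decide) b) (hr 42 (by decide) c)
    (hr 39 (by decide) d) (hr 37 (by decide) _) (hr 36 (by decide) _)]
  exact mul_mem (mul_mem (mul_mem p1 p2) p3) p4

end

/-- `²E₆(q)` is the group of fixed points of `σ = (flip) ∘ (x ↦ x ^ q)`, given `|U¹| = q³⁶`. -/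
theorem exists_frob_twistedE6 {K : Type*} [Field K] [Fintype K] {q : ℕ} (hq : IsPrimePow q)
    (hK : Fintype.card K = q ^ 2)
    (hcard : Nat.card ↥(chevE6.posUnipotent K ⊓ twistedE6 K q) = q ^ 36) :
    ∃ f : K →+* K, (∀ x, f x = x ^ q) ∧ (∀ t : K, f (f t) = t) ∧
      Nat.card {t : K // f t = t} = q ∧
      ∀ g, g ∈ twistedE6 K q ↔ g ∈ chevE6.group K ∧ e6Sig f g = g := by
  obtain ⟨f, hf⟩ := exists_frob hq (d := 2) (by norm_num) hK
  have hfM : ∀ t : K, f (f t) = t := by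
    intro t
    rw [hf, hf, ← pow_mul, ← pow_two, ← hK, FiniteField.pow_card]
  have hq1 : Nat.card {t : K // f t = t} = q := by
    rw [← card_fixed_pow hq.one_lt (d := 2) (by norm_num) hK]
    exact Nat.card_congr (Equiv.subtypeEquivRight (fun t => by rw [hf]))
  have hqM : Nat.card K = q ^ 2 := by rw [Nat.card_eq_fintype_card, hK]
  refine ⟨f, hf, hfM, hq1, ?_⟩
  intro g
  rw [twistedE6_eq_fix f hf hfM hq1 hqM hq.pos.ne' hcard
    (fun a ha hfix => e6_fixedH_le f hf hfM ha hfix), Subgroup.mem_inf]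
  rfl

/-- `N¹/H¹` of `²E₆(q)` is the Coxeter group of type `F₄`, given `|U¹| = q³⁶`. -/
theorem weyl_twistedE6 {K : Type*} [Field K] [Fintype K] {q : ℕ} (hq : IsPrimePow q)
    (hK : Fintype.card K = q ^ 2)
    (hcard : Nat.card ↥(chevE6.posUnipotent K ⊓ twistedE6 K q) = q ^ 36) :
    ∃ φ : ↥(chevE6.monomialSubgroup K ⊓ twistedE6 K q) →* (CoxeterMatrix.F₄).Group,
      Function.Surjective φ ∧
      φ.ker = (chevE6.diagonalSubgroup K ⊓ twistedE6 K q).subgroupOf
        (chevE6.monomialSubgroup K ⊓ twistedE6 K q) := by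
  obtain ⟨f, -, -, -, hG1⟩ := exists_frob_twistedE6 hq hK hcard
  exact weyl_fixedE6 f (twistedE6 K q) hG1

/-- The (B, N)-pair of `²E₆(q)`, given `|U¹| = q³⁶`. -/
theorem bnPair_twistedE6 {K : Type*} [Field K] [Fintype K] {q : ℕ} (hq : IsPrimePow q)
    (hK : Fintype.card K = q ^ 2)
    (hcard : Nat.card ↥(chevE6.posUnipotent K ⊓ twistedE6 K q) = q ^ 36) :
    ∃ P : Cfsg.BNPair ↥(twistedE6 K q),
      P.B = (chevE6.borelSubgroup K ⊓ twistedE6 K q).subgroupOf (twistedE6 K q) ∧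
      P.N = (chevE6.monomialSubgroup K ⊓ twistedE6 K q).subgroupOf (twistedE6 K q) ∧
      P.S = {s : ↥(twistedE6 K q) | ∃ b ∈ e6Reps, (s : GL chevE6.Idx K) = (e6R K).nW b} := by
  obtain ⟨f, -, -, -, hG1⟩ := exists_frob_twistedE6 hq hK hcard
  exact bnPair_fixedE6 f (twistedE6 K q) hG1 (e6_gen_mem q)

/-- `²E₆(q)` is simple, given `|U¹| = q³⁶`, that it is perfect and that the core of `B¹` is trivial. -/
theorem simple_twistedE6 {K : Type*} [Field K] [Fintype K] {q : ℕ} (hq : IsPrimePow q)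
    (hK : Fintype.card K = q ^ 2)
    (hcard : Nat.card ↥(chevE6.posUnipotent K ⊓ twistedE6 K q) = q ^ 36)
    (hperf : commutator ↥(twistedE6 K q) = ⊤)
    (hcore : ((chevE6.borelSubgroup K ⊓ twistedE6 K q).subgroupOf (twistedE6 K q)).normalCore = ⊥) :
    IsSimpleGroup ↥(twistedE6 K q) ∧ ¬ IsMulCommutative ↥(twistedE6 K q) := by
  obtain ⟨f, -, -, -, hG1⟩ := exists_frob_twistedE6 hq hK hcard
  exact simple_fixedE6 f (twistedE6 K q) hG1 (e6_gen_mem q) hperf hcore

end Cfsg.Agent.Helper18
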