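import Cfsg.Agent.Helper18.TwBN
import Cfsg.Agent.Helper36.ChevBNPair

/-!
# Products of root elements of distinct fundamental roots (helper18)

`sw1_ne_one`: `∏_{i ∈ c} x_{p_i}(1) ≠ 1`; `sw1_mem_umGens`: it lies in `U_w⁻` for `w` the product of the
reflections of `c` when `w` makes every `p_i`, `i ∈ c`, negative.
-/

set_option autoImplicit false

namespace Cfsg.Agent.Helper18

open Cfsg Cfsg.Lie Cfsg.Agent.Helper17 Cfsg.Agent.Helper36

section

variable {D : ChevalleyDatum} {K : Type*} [Field K] {η : ℕ → ℕ → ℤ}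

theorem sw1_ne_one (R : BRel D K η) (c : List ℕ) (hc : ValidW D c)
    (hnd : (c.map D.simple).Nodup) (hne : c ≠ []) :
    wordGL R.xadd (c.map fun i => (D.simple i, (1 : K))) ≠ 1 := by
  match c, hc, hnd, hne with
  | [], _, _, hne => exact absurd rfl hne
  | i :: c', hc, hnd, _ =>
    intro h1
    have hi := hc.head
    have hp := R.wf.simple_lt i hi
    rw [List.map_cons, List.nodup_cons] at hnd
    rw [List.map_cons, wordGL_cons] at h1
    have hu' : wordGL R.xadd (c'.map fun i => (D.simple i, (1 : K))) ∈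
        Subgroup.closure (upGens D K i) := by
      apply wordGL_mem
      intro p hp'
      rw [List.mem_map] at hp'
      obtain ⟨j, hj, rfl⟩ := hp'
      apply xGL_mem_upGens R.xadd (R.wf.simple_pos j (hc.tail j hj))
      intro e
      exact hnd.1 (List.mem_map.mpr ⟨j, hj, e⟩)
    have hx : xGL R.xadd (D.simple i) (1 : K) ∈ Subgroup.closure (upGens D K i) := by
      have e : xGL R.xadd (D.simple i) (1 : K) =
          (wordGL R.xadd (c'.map fun i => (D.simple i, (1 : K))))⁻¹ := eq_inv_of_mul_eq_one_left h1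
      rw [e]
      exact inv_mem hu'
    have h2 := BRel.U_le_B D K (R.up_le_U hi (R.n_conj_up hi _ hx))
    rw [R.conj_x hi hp, R.wf.refl_simple i hi, mul_one] at h2
    exact R.xneg_not_mem_B (R.neg_simple_neg hi) (R.eta_ne_zero hi hp) h2

theorem sw1_mem_umGens (hX : XAdd D K) (c : List ℕ)
    (hc : ∀ i ∈ c, D.IsPosRoot (D.simple i) ∧ D.IsNegRoot (wW D c (D.simple i))) :
    wordGL hX (c.map fun i => (D.simple i, (1 : K))) ∈ Subgroup.closure (umGens hX c) := by
  apply wordGL_mem
  intro p hp
  rw [List.mem_map] at hp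
  obtain ⟨i, hi, rfl⟩ := hp
  exact Subgroup.subset_closure ⟨_, _, (hc i hi).1, (hc i hi).2, rfl⟩

end

end Cfsg.Agent.Helper18
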