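/-
helper18: piece CV3 of CALL S2314 (helper40) - a subgroup of `V ⊓ P_J` of order at least
`q ^ #(positive roots of Φ_J)`: the transport by the long element of the subgroup of the positive roots
that the long element sends into `Φ_J`.
-/
import Mathlib
import Cfsg.Agent.Helper17.ChevUniMem
import Cfsg.Agent.Helper17.ChevLevi
import Cfsg.Agent.Helper18.NLongAll
import Cfsg.Agent.Helper36.ChevRcAll
import Cfsg.Agent.S1048

set_option autoImplicit false
set_option linter.unusedSectionVars false
set_option linter.unusedVariables false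

namespace Cfsg.Agent.Helper18.UCCV3

open Cfsg.Lie Cfsg.Agent.Helper17 Cfsg.Agent.Helper18

/-- the number of the members of a list without repetitions -/
theorem card_mem_list (L : List ℕ) (hnd : L.Nodup) : Nat.card {r : ℕ // r ∈ L} = L.length := by
  classical
  rw [Nat.card_eq_fintype_card, Fintype.card_of_subtype L.toFinset (fun x => List.mem_toFinset),
    List.toFinset_card_of_nodup hnd]

/-- undoing a word of reflections -/
theorem foldr_foldl_refl {D : ChevalleyDatum}
    (hD : D ∈ [chevG2, chevB2, chevD4, chevF4, chevE6, chevE7, chevE8]) (L : List ℕ)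
    (hL : ∀ i ∈ L, i < D.rank) : ∀ s < D.nroots,
      L.foldr (fun i s => D.reflectRoot i s) (L.foldl (fun s i => D.reflectRoot i s) s) = s := by
  induction L with
  | nil => intro s _; rfl
  | cons i L ih =>
    intro s hs
    have hi := hL i (List.mem_cons_self ..)
    obtain ⟨h1, _, _, h4, _⟩ := reflectRoot_spec D hD i hi s hs
    rw [List.foldl_cons, List.foldr_cons, ih (fun j hj => hL j (List.mem_cons_of_mem _ hj)) _ h1, h4]

section Chev

variable {F : Type*} [Field F] [Fintype F] {D : ChevalleyDatum}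

/-- (a local copy of piece CV1) an ordered list of `m` positive roots generates a subgroup of order at
least `q ^ m`. -/
theorem card_rootsSubgroup_ge' (hD : D ∈ [chevG2, chevB2, chevD4, chevF4, chevE6, chevE7, chevE8])
    (L : List ℕ) (hs : L.Pairwise (· < ·)) (hp : ∀ r ∈ L, D.IsPosRoot r) :
    Fintype.card F ^ L.length ≤ Nat.card ↥(Cfsg.Agent.Helper17.rootsSubgroup D F L) := by
  classical
  obtain ⟨f, hW⟩ := wtFacts_of_mem hD
  have hE : RootElts D F := rootElts_of_mem hD
  have hnd : L.Nodup := hs.imp (fun h => Nat.ne_of_lt h)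
  let c : ({r : ℕ // r ∈ L} → F) → ℕ → F := fun t r => if h : r ∈ L then t ⟨r, h⟩ else 0
  have hex : ∀ t : {r : ℕ // r ∈ L} → F, ∃ g : GL D.Idx F, g ∈ rootsSubgroup D F L ∧
      (g : Matrix D.Idx D.Idx F) = D.wordMat F (L.map fun r => (r, c t r)) := by
    intro t
    apply exists_wordGL hE L
    intro p hp
    rw [List.mem_map] at hp
    obtain ⟨r, hr, rfl⟩ := hp
    exact hr
  let φ : ({r : ℕ // r ∈ L} → F) → ↥(rootsSubgroup D F L) :=
    fun t => ⟨Classical.choose (hex t), (Classical.choose_spec (hex t)).1⟩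
  have hφ : Function.Injective φ := by
    intro t t' h
    have h1 : Classical.choose (hex t) = Classical.choose (hex t') := congrArg Subtype.val h
    have h2 : D.wordMat F (L.map fun r => (r, c t r)) = D.wordMat F (L.map fun r => (r, c t' r)) := by
      rw [← (Classical.choose_spec (hex t)).2, ← (Classical.choose_spec (hex t')).2, h1]
    have h3 := coeff_unique hW hE L hs (fun r hr => ⟨(hp r hr).1, (hW.pos r (hp r hr).1).mp (hp r hr)⟩) (c t) (c t') h2
    funext ⟨r, hr⟩
    have h4 := h3 r hr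
    simp only [c, dif_pos hr] at h4
    exact h4
  have h5 := Nat.card_le_card_of_injective φ hφ
  have h6 : Nat.card ({r : ℕ // r ∈ L} → F) = Fintype.card F ^ L.length := by
    rw [Nat.card_fun, card_mem_list L hnd, Nat.card_eq_fintype_card]
  rw [h6] at h5
  exact h5

/-- CV3: a subgroup of `V ⊓ P_J` of order at least `q ^ #(positive roots of Φ_J)`. -/
theorem exists_opposite (hD : D ∈ [chevG2, chevB2, chevD4, chevF4, chevE6, chevE7, chevE8])
    (J : Set ℕ) :
    ∃ Y : Subgroup (GL D.Idx F), Y ≤ D.negUnipotent F ∧ Y ≤ D.parabolicSubgroup F J ∧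
      Fintype.card F ^ (Nat.card {r : ℕ // D.IsPosRoot r ∧ D.InRootSub J r}) ≤ Nat.card ↥Y := by
  classical
  have R := Cfsg.Agent.Helper36.bRel_of_mem (F := F) hD
  obtain ⟨g, hg⟩ := Cfsg.Agent.Helper36.rcFacts_of_mem hD
  obtain ⟨L0, hL0⟩ := exists_chkLong D hD
  have hchk := hL0
  unfold chkLong at hchk
  rw [Bool.and_eq_true, allBelow_iff] at hchk
  have hL := allLt_spec _ _ hchk.1
  have fwd_bwd := foldr_foldl_refl hD L0 hL
  have neg_pos : ∀ r, D.IsNegRoot r → D.IsPosRoot (L0.foldl (fun s i => D.reflectRoot i s) r) := by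
    intro r hr
    have h2 := hchk.2 r hr.1
    rw [Bool.and_eq_true] at h2
    have h3 := h2.2
    rw [decide_eq_true hr, bsel_true, decide_eq_true_eq, (bwdN_spec D hD L0 hL r hr.1).1] at h3
    exact h3
  let Ψ : List ℕ := D.posRoots.filter
    (fun r => decide (D.InRootSub J (L0.foldr (fun i s => D.reflectRoot i s) r)))
  have hΨs : Ψ.Pairwise (· < ·) := List.Pairwise.filter _ posRoots_sorted
  have hΨnd : Ψ.Nodup := hΨs.imp (fun h => Nat.ne_of_lt h)
  refine ⟨(rootsSubgroup D F Ψ).map (MulAut.conj (nProd (F := F) D hD L0)).toMonoidHom, ?_, ?_, ?_⟩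
  · rw [← map_conj_posUnipotent_of_chkLong (F := F) D hD L0 hL0]
    apply Subgroup.map_mono
    rw [posUnipotent_eq]
    apply Subgroup.closure_mono
    rintro x ⟨r, hr, t, hx⟩
    exact ⟨r, (List.mem_filter.mp hr).1, t, hx⟩
  · rw [Subgroup.map_le_iff_le_comap]
    unfold rootsSubgroup
    rw [Subgroup.closure_le]
    rintro x ⟨r, hr, t, hx⟩
    have hx' : x = xU D hD r t := Units.ext hx
    obtain ⟨hrpos, hrJ⟩ := List.mem_filter.mp hr
    obtain ⟨ε, hε⟩ := nProd_conj_xU (F := F) D hD L0 hL (mem_posRoots.mp hrpos).1 t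
    show (MulAut.conj (nProd (F := F) D hD L0)) x ∈ D.parabolicSubgroup F J
    rw [MulAut.conj_apply, hx', hε, ← (Cfsg.Agent.S1048.result (F := F) D hD J).2.1]
    apply Subgroup.mem_sup_right
    unfold ChevalleyDatum.leviSubgroup
    apply Subgroup.mem_sup_right
    exact Subgroup.subset_closure ⟨_, ε * t, of_decide_eq_true hrJ, rfl⟩
  · have h1 : Nat.card ↥((rootsSubgroup D F Ψ).map
        (MulAut.conj (nProd (F := F) D hD L0)).toMonoidHom) = Nat.card ↥(rootsSubgroup D F Ψ) :=
      Subgroup.card_map_of_injective (MulAut.conj (nProd (F := F) D hD L0)).injective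
    rw [h1]
    refine le_trans ?_ (card_rootsSubgroup_ge' hD Ψ hΨs
      (fun r hr => mem_posRoots.mp (List.mem_filter.mp hr).1))
    apply Nat.pow_le_pow_right Fintype.card_pos
    rw [← card_mem_list Ψ hΨnd]
    have hmem : ∀ s : {r : ℕ // D.IsPosRoot r ∧ D.InRootSub J r},
        L0.foldl (fun s i => D.reflectRoot i s) (D.neg s.1) ∈ Ψ := by
      rintro ⟨s, hpos, hJ⟩
      have hs := hpos.1
      have hnl := R.wf.neg_lt s hs
      have hneg : D.IsNegRoot (D.neg s) := (R.wf.pos_iff_neg s hs).mp hpos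
      refine List.mem_filter.mpr ⟨mem_posRoots.mpr (neg_pos _ hneg), ?_⟩
      rw [decide_eq_true_eq, fwd_bwd _ hnl]
      refine ⟨hnl, fun i hi hiJ => ?_⟩
      rw [← hg.supp i hi (D.neg s) hnl, hg.neg i hi s hs, (hg.supp i hi s hs).mpr (hJ.2 i hi hiJ),
        neg_zero]
    apply Nat.card_le_card_of_injective
      (fun s : {r : ℕ // D.IsPosRoot r ∧ D.InRootSub J r} =>
        (⟨L0.foldl (fun s i => D.reflectRoot i s) (D.neg s.1), hmem s⟩ : {r : ℕ // r ∈ Ψ}))
    rintro ⟨s, hpos, hJ⟩ ⟨s', hpos', hJ'⟩ h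
    have h1 : L0.foldl (fun s i => D.reflectRoot i s) (D.neg s) =
        L0.foldl (fun s i => D.reflectRoot i s) (D.neg s') := congrArg Subtype.val h
    have h2 : D.neg s = D.neg s' := by
      rw [← fwd_bwd _ (R.wf.neg_lt s hpos.1), ← fwd_bwd _ (R.wf.neg_lt s' hpos'.1), h1]
    have h3 : s = s' := by
      rw [← R.wf.neg_neg s hpos.1, ← R.wf.neg_neg s' hpos'.1, h2]
    exact Subtype.ext h3

end Chev

end Cfsg.Agent.Helper18.UCCV3
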