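/-
helper18: piece CV2 of CALL S2314 (helper40) - the lower bound for the order of `U_J`.
-/
import Mathlib
import Cfsg.Agent.Helper18.UCCV3

set_option autoImplicit false
set_option linter.unusedSectionVars false
set_option linter.unusedVariables false

namespace Cfsg.Agent.Helper18.UCCV2

open Cfsg.Lie Cfsg.Agent.Helper17 Cfsg.Agent.Helper18

section Chev

variable {F : Type*} [Field F] [Fintype F] {D : ChevalleyDatum}

/-- CV2: lower bound for `|U_J|`. -/
theorem card_unipotentRadical_ge (hD : D ∈ [chevG2, chevB2, chevD4, chevF4, chevE6, chevE7, chevE8])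
    (J : Set ℕ) :
    Fintype.card F ^ (D.nroots / 2) ≤ Nat.card ↥(D.unipotentRadical F J) *
      Fintype.card F ^ (Nat.card {r : ℕ // D.IsPosRoot r ∧ D.InRootSub J r}) := by
  classical
  let A : List ℕ := D.posRoots.filter (fun r => decide (¬ D.InRootSub J r))
  let B : List ℕ := D.posRoots.filter (fun r => decide (D.InRootSub J r))
  have hsorted : D.posRoots.Pairwise (· < ·) := posRoots_sorted
  have hAs : A.Pairwise (· < ·) := List.Pairwise.filter _ hsorted
  have hBs : B.Pairwise (· < ·) := List.Pairwise.filter _ hsorted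
  have hBnd : B.Nodup := hBs.imp (fun h => Nat.ne_of_lt h)
  have hlen : A.length + B.length = D.nroots / 2 := by
    rw [← posRoots_length_of_mem hD]
    have h := List.length_eq_length_filter_add (l := D.posRoots) (fun r => decide (D.InRootSub J r))
    have e : A = D.posRoots.filter (fun r => !decide (D.InRootSub J r)) := by
      apply List.filter_congr
      intro r _
      by_cases hr : D.InRootSub J r <;> simp [hr]
    rw [h, e]
    exact Nat.add_comm _ _
  have hU : D.unipotentRadical F J = rootsSubgroup D F A := by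
    unfold ChevalleyDatum.unipotentRadical rootsSubgroup
    congr 1
    ext g
    constructor
    · rintro ⟨r, t, hr, hnJ, h⟩
      exact ⟨r, List.mem_filter.mpr ⟨mem_posRoots.mpr hr, decide_eq_true hnJ⟩, t, h⟩
    · rintro ⟨r, hr, t, h⟩
      obtain ⟨h1, h2⟩ := List.mem_filter.mp hr
      exact ⟨r, t, mem_posRoots.mp h1, of_decide_eq_true h2, h⟩
  have hA := Cfsg.Agent.Helper18.UCCV3.card_rootsSubgroup_ge' (F := F) hD A hAs
    (fun r hr => mem_posRoots.mp (List.mem_filter.mp hr).1)
  have hB : Nat.card {r : ℕ // D.IsPosRoot r ∧ D.InRootSub J r} = B.length := by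
    rw [← Cfsg.Agent.Helper18.UCCV3.card_mem_list B hBnd]
    apply Nat.card_congr
    apply Equiv.subtypeEquivRight
    intro r
    constructor
    · rintro ⟨h1, h2⟩
      exact List.mem_filter.mpr ⟨mem_posRoots.mpr h1, decide_eq_true h2⟩
    · intro hr
      obtain ⟨h1, h2⟩ := List.mem_filter.mp hr
      exact ⟨mem_posRoots.mp h1, of_decide_eq_true h2⟩
  rw [hB, hU, ← hlen, pow_add]
  exact Nat.mul_le_mul_right _ hA

end Chev

end Cfsg.Agent.Helper18.UCCV2
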